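import Cfsg.Agent.H13.Bridge
import Cfsg.Agent.H10.Xsp4

/-! Coordinates for involution centralizers of shape `2 ^ (1 + 8) . Ω₈⁺(2)`. -/

set_option autoImplicit false

namespace Cfsg.Agent.CoT

open Cfsg Cfsg.Agent.H10 Subgroup QuadraticMap

abbrev W : Type := Fin 4 ⊕ Fin 4 → ZMod 2
noncomputable abbrev Q8 : QuadraticForm (ZMod 2) W := H13.QPlus 4 (ZMod 2)
abbrev O8 : Type := H13.OG Q8
noncomputable abbrev Ω : Subgroup O8 := H13.Om Q8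

/-- a singular vector -/
def vv : W := Pi.single (Sum.inl 0) 1

/-- `z` is recognised inside a 2-subgroup of `C(z) ∩ C(y)` -/
def St {G : Type*} [Group G] (z y : G) : Prop := ∃ (D : Subgroup G) (b s : G), IsPGroup 2 D ∧ z ∈ D ∧
  (∀ d ∈ D, d * z = z * d ∧ d * y = y * d) ∧ b * z = z * b ∧ b * y = y * b ∧ b ∈ normalizer (D : Set G) ∧ z * z = 1 ∧ z ≠ 1 ∧
  b * s * b⁻¹ = z * s ∧ ∀ t, IsConj z t → (∀ d ∈ D, d * t = t * d) → t = z ∨ t = s ∨ t = z * s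

/-- coordinates on `Q` -/
structure Co {G : Type*} [Group G] (z : G) (Q : Subgroup G) (ρ : centralizer ({z} : Set G) →* O8) (p : G → W) : Prop where
  lx : LX Q z
  hr : ρ.range = Ω
  ker : ∀ h, ρ h = 1 ↔ (h : G) ∈ Q
  mul : ∀ {x y}, x ∈ Q → y ∈ Q → p (x * y) = p x + p y
  surj : ∀ v, ∃ x ∈ Q, p x = v
  zero : ∀ {x}, x ∈ Q → (p x = 0 ↔ x ∈ zpowers z)
  act : ∀ (h : centralizer ({z} : Set G)) {x : G}, x ∈ Q → p (h * x * (h : G)⁻¹) = (ρ h).1 (p x)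
  sq : ∀ {x}, x ∈ Q → (x * x = 1 ↔ Q8 (p x) = 0)
  cm : ∀ {x y}, x ∈ Q → y ∈ Q → (x * y = y * x ↔ polar Q8 (p x) (p y) = 0)

/-- congruence modulo `v` -/
def Cg (v x y : W) : Prop := x = y ∨ x = y + v

/-- `g` fixes `v` and acts trivially on `v^⊥ / v` -/
def EE (v : W) (g : O8) : Prop := g.1 v = v ∧ ∀ a, polar Q8 a v = 0 → g.1 a = a ∨ g.1 a = a + v

/-- `a, w` span a plane of `v^⊥ / v`, anisotropic if `e = 1`, totally singular if `e = 0` -/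
def AP (v : W) (e : ZMod 2) (a w : W) : Prop := polar Q8 a v = 0 ∧ polar Q8 w v = 0 ∧ Q8 a = e ∧ Q8 w = e ∧ polar Q8 a w = e ∧
  ¬ Cg v a 0 ∧ ¬ Cg v w 0 ∧ ¬ Cg v a w

/-- `g + 1` has kernel inside its image -/
def R4 (g : O8) : Prop := ∀ x, g.1 x = x → ∃ y, x = g.1 y + y

/-- `g` and `g'` fix `v` and agree on `v^⊥ / v` -/
def Ag (v : W) (g g' : O8) : Prop := g.1 v = v ∧ g'.1 v = v ∧ ∀ x, polar Q8 x v = 0 → Cg v (g.1 x) (g'.1 x)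

/-- `[v^⊥, g]` is totally singular -/
def SU (v : W) (g : O8) : Prop := ∀ x, polar Q8 x v = 0 → Q8 (g.1 x + x) = 0

/-- `g` swaps `x` and `x + n` modulo `v` -/
def SW (v n : W) (g : O8) : Prop := g ∈ Ω ∧ g.1 v = v ∧ EE v (g * g) ∧ Cg v (g.1 n) n ∧
  ∃ x, polar Q8 x v = 0 ∧ polar Q8 x n = 1 ∧ Cg v (g.1 x) (x + n)

/-- first group of facts on `Ω₈⁺(2)` -/
structure OF (v : W) : Prop where
  v0 : v ≠ 0 ∧ Q8 v = 0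
  f1 : ∀ a, a ≠ 0 → Q8 a = 0 → ∃ g ∈ Ω, g.1 a = v
  f4 : ∀ u, Q8 u = 0 → polar Q8 u v = 0 → u ≠ 0 → u ≠ v → ∃ g ∈ Ω, g.1 v = v ∧ Q8 (u + g.1 u) = 1
  f5 : ∀ e a w a' w', AP v e a w → AP v e a' w' → ∃ g ∈ Ω, g.1 v = v ∧ Cg v (g.1 a) a' ∧ Cg v (g.1 w) w'
  f8 : ∀ e, ∃ a w, AP v e a w
  sol : ∀ e a w, AP v e a w → ∀ i j : ZMod 2, ∃ x, polar Q8 x v = 0 ∧ polar Q8 x a = i ∧ polar Q8 x w = j
  rad : ∀ a, (∀ x, polar Q8 x v = 0 → polar Q8 x a = 0) → Cg v a 0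
  cnt : ∀ e a w, AP v e a w →
    Nat.card {g : O8 // g ∈ Ω ∧ ∀ x, polar Q8 x v = 0 → polar Q8 x a = 0 → polar Q8 x w = 0 → g.1 x = x} < 16

/-- second group of facts: involutions of `Ω₈⁺(2)` -/
structure OI (v : W) : Prop where
  f2 : ∀ y ∈ Ω, y * y = 1 → (∃ g ∈ Ω, EE v (g * y * g⁻¹)) ∨ R4 y
  f3 : ∀ y ∈ Ω, y * y = 1 → R4 y → ∃ g ∈ Ω, SU v (g * y * g⁻¹) ∧ ∃ x, (g * y * g⁻¹).1 x + x = v
  f10 : ∀ y ∈ Ω, y * y = 1 → R4 y → y.1 v = v → SU v y → ∀ n, polar Q8 n v = 0 → Q8 n = 1 → y.1 n = n →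
    ∃ g1 g2 g3, SW v n g1 ∧ SW v n g2 ∧ SW v n g3 ∧ EE v ((g1 * g2 * g3)⁻¹ * y)
  f11 : ∀ g1 ∈ Ω, ∀ g2 ∈ Ω, ∀ g3 ∈ Ω, g1 * g1 = 1 → g2 * g2 = 1 → g3 * g3 = 1 → R4 g1 → R4 g2 → R4 g3 → SU v g1 →
    Ag v g1 g2 → Ag v g1 g3 → ∀ x1 x2 x3, polar Q8 x1 v = 1 → polar Q8 x2 v = 1 → polar Q8 x3 v = 1 →
    Cg v (g3.1 x3 + x3) (g1.1 x1 + x1 + (g2.1 x2 + x2)) →
    polar Q8 (g1.1 x1 + x1) (g2.1 x2 + x2) = 1 ∧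
      (Q8 (g1.1 x1 + x1) = 1 ∨ Q8 (g2.1 x2 + x2) = 1 ∨ Q8 (g3.1 x3 + x3) = 1)

end Cfsg.Agent.CoT
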