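import Cfsg.Agent.CoT.A
import Cfsg.Agent.H26.ES4
import Cfsg.Agent.H13.Count
import Cfsg.Agent.H13.Spinor

/-! Existence of coordinates on the extraspecial group `2 ^ (1 + 8)`. -/

set_option autoImplicit false

namespace Cfsg.Agent.CoT

open Cfsg Cfsg.Agent.H10 Subgroup QuadraticMap Module
open scoped commutatorElement

namespace PC

theorem card_O8 : Nat.card O8 = 348364800 := by
  have := (H13.nd_QPlus (m := 4) (F := ZMod 2)).card_OG_plus (H13.isPlus_QPlus (F := ZMod 2) 4) (m := 4) (by omega) (by simp)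
  rw [this]
  simp [Finset.prod_range_succ]

theorem idx : Ω.index = 2 :=
  (H13.nd_QPlus (m := 4) (F := ZMod 2)).index_commutator_even (.inr (.inl (by simp))) rfl (by simp)

theorem card_Ω : Nat.card Ω = 174182400 := by
  have := Ω.card_mul_index
  rw [idx, card_O8] at this
  omega

theorem eq_Ω {R : Subgroup O8} (h : Nat.card R = 174182400) : R = Ω := by
  have h2 : R.index = 2 := by
    have := R.card_mul_index
    rw [h, card_O8] at this
    omega
  have hle : Ω ≤ R := by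
    rw [show Ω = ⁅(⊤ : Subgroup O8), ⊤⁆ from _root_.commutator_def _]
    refine Subgroup.commutator_le.mpr fun a _ b _ => ?_
    simp only [commutatorElement_def, Subgroup.mul_mem_iff_of_index_two h2, inv_mem_iff]
    tauto
  have : Finite R := Nat.finite_of_card_ne_zero (by omega)
  exact (eq_of_le_of_card_ge hle (by rw [h, card_Ω])).symm

theorem main {G : Type*} [Group G] [Finite G] {z : G} {Q : Subgroup G} (hl : LX Q z) (hc : Nat.card Q = 2 ^ 9)
    (hi : (Q.subgroupOf (centralizer ({z} : Set G))).index = 174182400) : ∃ ρ p, Co z Q ρ p := by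
  classical
  obtain ⟨n, c, hz⟩ := hl.toSymT.exists_ES
  have nd := c.nd_of_isExtraspecial hl.isExtraspecial
  have hn := c.card_eq_pow
  rw [hc] at hn
  replace hn := Nat.pow_right_injective (le_refl 2) hn
  let σ := nd.autHom.comp (Q.normalizerMonoidHom.comp (inclusion hl.nQ))
  have cm : ∀ (h : centralizer ({z} : Set G)) {x}, x ∈ Q → h * x * (h : G)⁻¹ ∈ Q := fun h x =>
    hl.conj_mem (mem_centralizer_singleton_iff.mp h.2)
  have act : ∀ h x hx, σ h (c.π ⟨x, hx⟩) = c.π ⟨_, cm h hx⟩ := fun h x hx => nd.autHom_π _ _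
  have zq : ∀ h q hq, σ h (c.π ⟨q, hq⟩) = c.π ⟨q, hq⟩ → h * q * (h : G)⁻¹ * q⁻¹ ∈ zpowers z := fun h q hq e =>
    (hz (⟨_, cm h hq⟩ * ⟨q, hq⟩⁻¹)).mp (by rw [c.mem_Z, c.π_mul, ← act h q hq, e, c.π_inv]; simp)
  have ker : ∀ h, σ h = 1 ↔ (h : G) ∈ Q := fun h => ⟨fun e => hl.hF h (mem_centralizer_singleton_iff.mp h.2) fun q hq =>
    zq h q hq (by rw [e]; rfl), fun e => LinearEquiv.ext fun v => by
      obtain ⟨x, rfl⟩ := c.surj v
      rw [act h x x.2]
      exact (congrArg c.π (c.conj_eq ⟨h, e⟩ x)).trans (by simp [c.π_mul])⟩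
  have h8 : finrank (ZMod 2) (Fin n → ZMod 2) = 2 * 4 := by omega
  have nq : H13.ND c.Q := fun v hv => nd v fun w => c.polar_Q v w ▸ hv w
  let τ : centralizer ({z} : Set G) →* H13.OG c.Q := σ.codRestrict _ fun h => H13.mem_OG.mpr fun v => nd.Q_autHom _ v
  have τa : ∀ h v, (τ h).1 v = σ h v := fun h v => rfl
  have τk : ∀ h, τ h = 1 ↔ (h : G) ∈ Q := fun h => by
    rw [← ker, Subtype.ext_iff]; rfl
  have τc : Nat.card τ.range = 174182400 := by
    rw [← hi, ← Subgroup.index_ker]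
    congr 1
    ext h
    rw [MonoidHom.mem_ker, τk, mem_subgroupOf]
  have hP : H13.IsPlus c.Q := by
    by_contra hP
    have h1 := nq.card_OG_minus hP (m := 4) (by omega) h8
    have h2 := τ.range.card_subgroup_dvd_card
    rw [τc, h1] at h2
    simp [Finset.prod_range_succ] at h2
  obtain ⟨e, he⟩ := nq.equiv_QPlus hP h8
  let s := H13.SemiSim.ofIsometry e he
  let ρ : centralizer ({z} : Set G) →* O8 := s.conj.toMonoidHom.comp τ
  have ρa : ∀ h v, (ρ h).1 (e v) = e (σ h v) := fun h v => s.conj_apply_e (τ h) v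
  have ρk : ∀ h, ρ h = 1 ↔ (h : G) ∈ Q := fun h => by
    rw [← τk]; exact map_eq_one_iff _ s.conj.injective
  let p : G → W := fun x => if h : x ∈ Q then e (c.π ⟨x, h⟩) else 0
  have pa : ∀ {x} (h : x ∈ Q), p x = e (c.π ⟨x, h⟩) := fun h => dif_pos h
  refine ⟨ρ, p, hl, eq_Ω ?_, ρk, fun hx hy => ?_, fun v => ?_, fun hx => ?_, fun h x hx => ?_, fun hx => ?_,
    fun hx hy => ?_⟩
  · rw [← hi, ← Subgroup.index_ker]
    congr 1
    ext h
    rw [MonoidHom.mem_ker, ρk, mem_subgroupOf]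
  · rw [pa hx, pa hy, pa (mul_mem hx hy), ← map_add, ← c.π_mul]; rfl
  · obtain ⟨x, h⟩ := c.surj (e.symm v)
    exact ⟨x, x.2, by rw [pa x.2, h, e.apply_symm_apply]⟩
  · rw [pa hx, map_eq_zero_iff _ e.injective, ← c.mem_Z, hz]
  · rw [pa hx, pa (cm h hx), ρa, act]
  · rw [pa hx, show Q8 = H13.QPlus 4 (ZMod 2) from rfl, he, ← c.sq_eq_one_iff, pow_two, Subtype.ext_iff]; rfl
  · rw [pa hx, pa hy]
    have : polar Q8 (e (c.π ⟨_, hx⟩)) (e (c.π ⟨_, hy⟩)) = polar c.Q (c.π ⟨_, hx⟩) (c.π ⟨_, hy⟩) := by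
      simp only [polar, ← map_add, show Q8 = H13.QPlus 4 (ZMod 2) from rfl, he]
    rw [this, c.polar_Q, ← c.commute_iff, Subtype.ext_iff]; rfl

end PC

theorem exists_co {G : Type*} [Group G] [Finite G] (z : G) (hz : orderOf z = 2)
    (Q : Subgroup (Subgroup.centralizer ({z} : Set G))) [Q.Normal]
    (hF : Cfsg.generalizedFittingSubgroup (Subgroup.centralizer ({z} : Set G)) = Q) (hQ : Cfsg.IsExtraspecial 2 Q)
    (hcard : Nat.card Q = 2 ^ 9)
    (e : (Subgroup.centralizer ({z} : Set G)) ⧸ Q ≃* Cfsg.Omega (ZMod 2) (Cfsg.quadFormPlus 4 (ZMod 2))) :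
    ∃ ρ p, Co z (Q.map (centralizer ({z} : Set G)).subtype) ρ p := by
  let f := Q.equivMapOfInjective _ (centralizer ({z} : Set G)).subtype_injective
  refine PC.main (lx_of_fstar hz (by rw [FstarOf_def, hF]) (H26.isExtraspecial_congr hQ f))
    (by rw [← Nat.card_congr f.toEquiv, hcard]) ?_
  rw [show (Q.map (centralizer ({z} : Set G)).subtype).subgroupOf (centralizer ({z} : Set G)) = Q from
    comap_map_eq_self_of_injective (centralizer ({z} : Set G)).subtype_injective Q, Subgroup.index_eq_card,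
    Nat.card_congr e.toEquiv, ← PC.card_Ω]
  exact Nat.card_congr (H13.omegaEquiv (H13.QPlus 4 (ZMod 2))).toEquiv

end Cfsg.Agent.CoT
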