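import Cfsg.Agent.CoT.J0

/-! The centralizer of the group `X ≅ A₅`. -/

set_option autoImplicit false

namespace Cfsg.Agent.CoT

open Cfsg Cfsg.Agent.H10 Subgroup QuadraticMap

variable {G : Type*} [Group G] {z : G} {Q : Subgroup G} {ρ : centralizer ({z} : Set G) →* O8} {p : G → W}
  {s b m f a a' c q x r : G}

namespace CE

theorem sg_pow (hc : c * z = z * c) (i : ℕ) : c ^ i * z = z * c ^ i ∧ sg ρ (c ^ i) = sg ρ c ^ i := by
  refine ⟨(Commute.pow_left hc i :), ?_⟩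
  rw [sg_eq hc, sg_eq (Commute.pow_left hc i :), ← map_pow]; rfl

theorem pp_map {v β e w y : W} {g : O8} (hg : g ∈ S0 v β e w) (hy : Pp v β e w y) : Pp v β e w (g.1 y) := by
  obtain ⟨-, h1, h2, h3, h4⟩ := hg
  obtain ⟨k1, k2, k3, k4⟩ := hy
  exact ⟨by rw [← h1, H13.OG_polar, k1], by rw [← h2, H13.OG_polar, k2], by rw [← h3, H13.OG_polar, k3],
    by rw [← h4, H13.OG_polar, k4]⟩

theorem pp_add {v β e w y y' : W} (hy : Pp v β e w y) (hy' : Pp v β e w y') : Pp v β e w (y + y') :=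
  ⟨by rw [PL.pl, hy.1, hy'.1, add_zero], by rw [PL.pl, hy.2.1, hy'.2.1, add_zero],
    by rw [PL.pl, hy.2.2.1, hy'.2.2.1, add_zero], by rw [PL.pl, hy.2.2.2, hy'.2.2.2, add_zero]⟩

theorem sp_fix {v β e w y : W} {g : O8} (hg : g ∈ S0 v β e w) (hy : Sp v β e w y) : g.1 y = y := by
  obtain ⟨-, h1, h2, h3, h4⟩ := hg
  obtain ⟨i, j, k, l, rfl⟩ := hy
  simp only [map_add, map_smul, h1, h2, h3, h4]

theorem xz (hx : x ∈ XX z s b m a a') : x * z = z * x := (hx z (by simp)).symm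

theorem inC {d : G} (hd : d ∈ ({z, s, b, a, a', m} : Set G)) : d ∈ centralizer (XX z s b m a a' : Set G) :=
  fun _ hx => (hx d hd).symm

variable (h : Fv z Q ρ p s b m f a a')
include h

theorem fX : f ∈ XX z s b m a a' := h.fD

theorem xS (hx : x ∈ XX z s b m a a') : sg ρ x ∈ S0 vv (p b) (p a) (p a') := by
  have k : ∀ d ∈ Q, d ∈ ({z, s, b, a, a', m} : Set G) → (sg ρ x).1 (p d) = p d := fun d hd hd' => by
    rw [← h.cx.co.sg_act (xz hx) hd, ← hx d hd', mul_inv_cancel_right]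
  exact ⟨h.cx.co.sg_mem (xz hx), h.cx.ps ▸ k s h.cx.sQ (by simp), k b h.cx.bQ (by simp), k a h.aQ (by simp),
    k a' h.aQ' (by simp)⟩

theorem f5 : f ^ 5 = 1 := h.f5 ▸ pow_orderOf_eq_one f

theorem g5 : sg ρ f ^ 5 = 1 := by
  rw [← (sg_pow (xz (fX h)) 5).2, f5 h]; exact h.cx.co.sg_Q (one_mem _)

theorem g1 : sg ρ f ≠ 1 := fun e => by
  have fQ := (h.cx.co.sg_one (xz (fX h))).1 e
  have e4 : f ^ 4 = 1 := by
    rw [show f ^ 4 = f * f * (f * f) by simp only [pow_succ, pow_zero, one_mul, mul_assoc]]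
    exact h.cx.lx.sq_of_mem_z (h.cx.lx.sq _ fQ)
  have := orderOf_dvd_of_pow_eq_one e4
  rw [h.f5] at this
  omega

theorem spl {y : W} (hy : Sp vv (p b) (p a) (p a') y) (K : Subgroup G) (h1 : s ∈ K) (h2 : b ∈ K) (h3 : a ∈ K)
    (h4 : a' ∈ K) : ∃ r ∈ Q, r ∈ K ∧ p r = y := by
  have co := h.cx.co
  have k : ∀ d ∈ Q, d ∈ K → ∀ i : ZMod 2, ∃ r ∈ Q, r ∈ K ∧ p r = i • p d := fun d hd hk i => by
    rcases z2 i with rfl | rfl
    exacts [⟨1, one_mem _, one_mem _, by rw [co.p1, zero_smul]⟩, ⟨d, hd, hk, by rw [one_smul]⟩]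
  obtain ⟨i, j, l, n, rfl⟩ := hy
  obtain ⟨r1, a1, b1, c1⟩ := k s h.cx.sQ h1 i
  obtain ⟨r2, a2, b2, c2⟩ := k b h.cx.bQ h2 j
  obtain ⟨r3, a3, b3, c3⟩ := k a h.aQ h3 l
  obtain ⟨r4, a4, b4, c4⟩ := k a' h.aQ' h4 n
  refine ⟨r1 * r2 * r3 * r4, mul_mem (mul_mem (mul_mem a1 a2) a3) a4, mul_mem (mul_mem (mul_mem b1 b2) b3) b4, ?_⟩
  rw [co.mul (mul_mem (mul_mem a1 a2) a3) a4, co.mul (mul_mem a1 a2) a3, co.mul a1 a2, c1, c2, c3, c4, h.cx.ps]

theorem cR (la : LA vv (p b) (p a) (p a')) (hz : c * z = z * c) (hf : c * f = f * c)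
    (hS : sg ρ c ∈ S1 vv (p b) (p a) (p a')) (hr : r ∈ Q) (hp : Pp vv (p b) (p a) (p a') (p r)) :
    c * r * c⁻¹ = r := by
  have co := h.cx.co
  have lx := h.cx.lx
  have fz := xz (fX h)
  have gS := xS h (fX h)
  refine (co.peq (lx.conj_mem hz hr) hr (by rw [co.sg_act hz hr]; exact hS.2 _ hp)).resolve_right fun e => ?_
  have st : ∀ y, y ∈ Q ∧ Pp vv (p b) (p a) (p a') (p y) ∧ c * y * c⁻¹ = z * y →
      f * y * f⁻¹ ∈ Q ∧ Pp vv (p b) (p a) (p a') (p (f * y * f⁻¹)) ∧ c * (f * y * f⁻¹) * c⁻¹ = z * (f * y * f⁻¹) :=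
    fun y ⟨h1, h2, h3⟩ => ⟨lx.conj_mem fz h1, by rw [co.sg_act fz h1]; exact pp_map gS h2, by
      calc _ = (c * f) * y * (c * f)⁻¹ := by group
        _ = f * (c * y * c⁻¹) * f⁻¹ := by rw [hf]; group
        _ = (f * z) * y * f⁻¹ := by rw [h3]; group
        _ = _ := by rw [fz]; group⟩
  have s1 := st _ ⟨hr, hp, e⟩
  have s2 := st _ s1
  have s3 := st _ s2
  have s4 := st _ s3
  have e5 : f * (f * (f * (f * (f * r * f⁻¹) * f⁻¹) * f⁻¹) * f⁻¹) * f⁻¹ = r := by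
    calc _ = f ^ 5 * r * (f ^ 5)⁻¹ := by simp only [pow_succ, pow_zero, one_mul, mul_assoc, mul_inv_rev]
      _ = _ := by rw [f5 h]; group
  have p1 := co.sg_act fz hr
  have p2 := co.sg_act fz s1.1
  have p3 := co.sg_act fz s2.1
  have p4 := co.sg_act fz s3.1
  have p5 := co.sg_act fz s4.1
  rw [e5] at p5
  generalize f * r * f⁻¹ = r1 at *
  generalize f * r1 * f⁻¹ = r2 at *
  generalize f * r2 * f⁻¹ = r3 at *
  generalize f * r3 * f⁻¹ = r4 at *
  have z0 := la.l4 _ gS (g5 h) (g1 h) _ (pp_add (pp_add (pp_add hp s1.2.1) (pp_add s2.2.1 s3.2.1)) s4.2.1) (by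
    simp only [map_add]
    rw [← p1, ← p2, ← p3, ← p4, ← p5]; abel)
  have m1 := mul_mem hr s1.1
  have m2 := mul_mem s2.1 s3.1
  rw [← co.mul hr s1.1, ← co.mul s2.1 s3.1, ← co.mul m1 m2, ← co.mul (mul_mem m1 m2) s4.1,
    co.zero (mul_mem (mul_mem m1 m2) s4.1)] at z0
  have k : ∀ y y', y ∈ Q → c * y * c⁻¹ = z * y → c * y' * c⁻¹ = z * y' → c * (y * y') * c⁻¹ = y * y' :=
    fun y y' hy e e' => by
      calc _ = (c * y * c⁻¹) * (c * y' * c⁻¹) := by group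
        _ = z * (y * z) * y' := by rw [e, e']; group
        _ = (z * z) * y * y' := by rw [lx.cent _ hy]; group
        _ = _ := by rw [lx.zz, one_mul]
  have n1 := lx.comm_of_mem_z z0 hz
  apply lx.ne_one
  have n2 : c * (r * r1 * (r2 * r3) * r4) * c⁻¹ = z * (r * r1 * (r2 * r3) * r4) := by
    calc _ = (c * (r * r1) * c⁻¹) * (c * (r2 * r3) * c⁻¹) * (c * r4 * c⁻¹) := by group
      _ = (r * r1 * (r2 * r3) * z) * r4 := by rw [k _ _ hr e s1.2.2, k _ _ s2.1 s2.2.2 s3.2.2, s4.2.2]; group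
      _ = _ := by rw [lx.cent _ (mul_mem m1 m2)]; group
  rw [n1, mul_inv_cancel_right] at n2
  exact (mul_eq_right.1 n2.symm)

end CE

open CE

variable (h : Fv z Q ρ p s b m f a a') (la : LA vv (p b) (p a) (p a'))
include h la

theorem rq (hq : q ∈ Q) (hf : q * f = f * q) : q ∈ centralizer (XX z s b m a a' : Set G) := by
  have co := h.cx.co
  have gS := xS h (fX h)
  obtain ⟨y, h1, h2⟩ := la.l6 (p q)
  have e := la.l4 _ gS (g5 h) (g1 h) _ h2 (by
    rw [map_add, sp_fix gS h1, ← co.sg_act (xz (fX h)) hq, ← hf, mul_inv_cancel_right])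
  obtain ⟨r, hr, hK, e'⟩ := spl h h1 (centralizer (XX z s b m a a' : Set G)) (inC (by simp)) (inC (by simp))
    (inC (by simp)) (inC (by simp))
  rcases co.peq hq hr (by rw [e', weq.1 e]) with rfl | rfl
  exacts [hK, mul_mem (inC (by simp)) hK]

theorem cen (xiso : Nonempty (XX z s b m a a' ≃* alternatingGroup (Fin 5))) (hz : c * z = z * c)
    (hf : c * f = f * c) (hS : sg ρ c ∈ S1 vv (p b) (p a) (p a')) :
    c ∈ centralizer (XX z s b m a a' : Set G) := by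
  have co := h.cx.co
  have lx := h.cx.lx
  have tz : ∀ x ∈ XX z s b m a a', c * x * c⁻¹ * x⁻¹ ∈ zpowers z := fun x hx => by
    have k0 : ∀ d ∈ Q, d * f = f * d → d ∈ centralizer (XX z s b m a a' : Set G) →
        d ∈ centralizer ({c * x * c⁻¹ * x⁻¹} : Set G) := fun d hd hdf hdX => by
      have hc' := cz_inv hz
      have e := rq h la (lx.conj_mem hc' hd) (by
        calc _ = c⁻¹ * d * (c * f) := by group
          _ = c⁻¹ * (d * f) * c := by rw [hf]; group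
          _ = (c⁻¹ * f * c) * (c⁻¹ * d * c) := by rw [hdf]; group
          _ = _ := by rw [mul_assoc c⁻¹ f, ← hf]; group) x hx
      have e2 := hdX _ (inv_mem hx)
      rw [mem_centralizer_singleton_iff]
      calc _ = c * (c⁻¹ * d * c⁻¹⁻¹ * x) * c⁻¹ * x⁻¹ := by group
        _ = c * x * c⁻¹ * (d * x⁻¹) := by rw [← e]; group
        _ = _ := by rw [← e2]; group
    refine lx.cQ _ fun q hq => ?_
    obtain ⟨y, h1, h2⟩ := la.l6 (p q)
    obtain ⟨r, hr, hK, e'⟩ := spl h h1 (centralizer ({c * x * c⁻¹ * x⁻¹} : Set G))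
      (k0 _ h.cx.sQ (h.fD _ (by simp)) (inC (by simp))) (k0 _ h.cx.bQ (h.fD _ (by simp)) (inC (by simp)))
      (k0 _ h.aQ (h.fD _ (by simp)) (inC (by simp))) (k0 _ h.aQ' (h.fD _ (by simp)) (inC (by simp)))
    have hu : q * r⁻¹ ∈ Q := mul_mem hq (inv_mem hr)
    have pu : Pp vv (p b) (p a) (p a') (p (q * r⁻¹)) := by rwa [co.mul hq (inv_mem hr), co.pinv hr, e']
    have e1 := cR h la hz hf hS hu pu
    have hx' := inv_mem hx
    have e2 := cR h la hz hf hS (lx.conj_mem (xz hx') hu) (by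
      rw [co.sg_act (xz hx') hu]; exact pp_map (xS h hx') pu)
    have hU : q * r⁻¹ ∈ centralizer ({c * x * c⁻¹ * x⁻¹} : Set G) := by
      generalize q * r⁻¹ = u at *
      rw [mem_centralizer_singleton_iff]
      calc _ = (c * u * c⁻¹) * (c * x * c⁻¹ * x⁻¹) := by rw [e1]
        _ = c * x * (x⁻¹ * u * x⁻¹⁻¹) * c⁻¹ * x⁻¹ := by group
        _ = c * x * c⁻¹ * (c * (x⁻¹ * u * x⁻¹⁻¹) * c⁻¹) * x⁻¹ := by group
        _ = _ := by rw [e2]; group
    have := mul_mem hU hK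
    rw [inv_mul_cancel_right, mem_centralizer_singleton_iff] at this
    exact this
  let φ : XX z s b m a a' →* G := MonoidHom.mk' (fun x => c * x * c⁻¹ * (x : G)⁻¹) fun x y => by
    have e := lx.comm_of_mem_z (tz y y.2) (xz x.2)
    simp only [coe_mul]
    calc _ = (c * x * c⁻¹ * (x : G)⁻¹) * (x * (c * y * c⁻¹ * (y : G)⁻¹)) * (x : G)⁻¹ := by group
      _ = _ := by rw [e]; group
  obtain ⟨e⟩ := xiso
  haveI := e.isSimpleGroup
  have fk : (⟨f, fX h⟩ : XX z s b m a a') ∈ φ.ker := by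
    show c * f * c⁻¹ * f⁻¹ = 1
    rw [hf]; group
  rcases φ.normal_ker.eq_bot_or_eq_top with k | k
  · rw [k, mem_bot] at fk
    have := h.f5
    rw [show f = 1 from congrArg Subtype.val fk, orderOf_one] at this
    omega
  · intro x hx
    have : c * x * c⁻¹ * x⁻¹ = 1 := (k.symm.le (mem_top (⟨x, hx⟩ : XX z s b m a a')) :)
    calc x * c = (c * x * c⁻¹ * x⁻¹) * x * c := by rw [this, one_mul]
      _ = _ := by group

theorem lift [Finite G] {k : O8} (hk : k ∈ S1 vv (p b) (p a) (p a')) :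
    ∃ c, c * z = z * c ∧ c * f = f * c ∧ sg ρ c = k := by
  classical
  have co := h.cx.co
  have lx := h.cx.lx
  have fz := xz (fX h)
  have gk := la.l5 _ (xS h (fX h)) _ hk
  obtain ⟨c0, z0, e0⟩ := co.sg_surj hk.1
  let T := {c : G // c * z = z * c ∧ sg ρ c = k}
  let F : T → T := fun c => ⟨f * c * f⁻¹, cz_cj fz c.2.1, by rw [sg_cj fz c.2.1, c.2.2, gk, mul_inv_cancel_right]⟩
  have Fi : Function.Injective F := fun x y e => Subtype.ext (by simpa [F] using congrArg Subtype.val e)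
  let σ : Equiv.Perm T := Equiv.ofBijective F (Finite.injective_iff_bijective.1 Fi)
  have hσ : ∀ (n : ℕ) (x : T), ((σ ^ n) x : G) = f ^ n * x * (f ^ n)⁻¹ := fun n => by
    induction n with
    | zero => simp
    | succ n ih =>
      intro x
      rw [pow_succ, Equiv.Perm.mul_apply, ih]
      show f ^ n * (f * x * f⁻¹) * _ = _
      group
  have cT : Nat.card Q = Nat.card T := Nat.card_congr
    { toFun := fun q => ⟨q * c0, cz_mul (lx.cent _ q.2) z0, by rw [sg_mul (lx.cent _ q.2) z0, co.sg_Q q.2, one_mul, e0]⟩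
      invFun := fun c => ⟨c * c0⁻¹, co.sg_quo c.2.1 z0 (c.2.2.trans e0.symm)⟩
      left_inv := fun q => by simp
      right_inv := fun c => by simp }
  haveI : Fact (Nat.Prime 5) := ⟨by norm_num⟩
  haveI := Fintype.ofFinite T
  obtain ⟨j, hj⟩ := IsPGroup.iff_card.1 lx.isPGroup
  obtain ⟨c, hc⟩ := Equiv.Perm.exists_fixed_point_of_prime (p := 5) (n := 1) (σ := σ) (fun d => by
    rw [← Nat.card_eq_fintype_card, ← cT, hj] at d
    have := (Nat.Prime.dvd_of_dvd_pow (by norm_num) d)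
    omega) (by ext x; rw [pow_one, hσ, f5 h]; simp)
  have e : f * c * f⁻¹ = c := congrArg Subtype.val hc
  exact ⟨c, c.2.1, (mul_inv_eq_iff_eq_mul.1 e).symm, c.2.2⟩

theorem CE.l3 (hz : c * z = z * c) (hf : c * f = f * c) :
    ∃ i : ℕ, sg ρ f ^ i * sg ρ c ∈ S1 vv (p b) (p a) (p a') :=
  la.l3 _ (xS h (fX h)) (g5 h) (g1 h) _ (h.cx.co.sg_mem hz) (by
    rw [← sg_mul hz (xz (fX h)), hf, sg_mul (xz (fX h)) hz])

theorem CE.dec (xiso : Nonempty (XX z s b m a a' ≃* alternatingGroup (Fin 5))) (hz : c * z = z * c)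
    (hf : c * f = f * c) : ∃ i : ℕ, sg ρ f ^ i * sg ρ c ∈ S1 vv (p b) (p a) (p a') ∧
      f ^ i * c ∈ centralizer (XX z s b m a a' : Set G) := by
  obtain ⟨i, hi⟩ := CE.l3 h la hz hf
  have k := sg_pow (ρ := ρ) (xz (fX h)) i
  exact ⟨i, hi, cen h la xiso (cz_mul k.1 hz) (Commute.mul_left ((Commute.refl f).pow_left i) hf :)
    (by rwa [sg_mul k.1 hz, k.2])⟩

theorem dec5 (xiso : Nonempty (XX z s b m a a' ≃* alternatingGroup (Fin 5))) (hz : c * z = z * c)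
    (hf : c * f = f * c) : ∃ i : ℕ, f ^ i * c ∈ centralizer (XX z s b m a a' : Set G) :=
  (CE.dec h la xiso hz hf).imp fun _ k => k.2

theorem inS1 (xiso : Nonempty (XX z s b m a a' ≃* alternatingGroup (Fin 5))) (hz : c * z = z * c)
    (hc : c ∈ centralizer (XX z s b m a a' : Set G)) : sg ρ c ∈ S1 vv (p b) (p a) (p a') := by
  obtain ⟨i, h1, h2⟩ := CE.dec h la xiso hz (hc f (fX h)).symm
  have h3 := mul_mem h2 (inv_mem hc)
  rw [mul_inv_cancel_right] at h3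
  obtain ⟨e⟩ := xiso
  have h4 : e ⟨f ^ i, pow_mem (fX h) i⟩ ∈ center (alternatingGroup (Fin 5)) := mem_center_iff.2 fun y => by
    obtain ⟨x, rfl⟩ := e.surjective y
    rw [← map_mul, ← map_mul]
    exact congrArg e (Subtype.ext (h3 x x.2))
  rw [alternatingGroup.center_eq_bot (by simp), mem_bot, e.map_eq_one_iff] at h4
  have h5 : f ^ i = 1 := congrArg Subtype.val h4
  rwa [← (sg_pow (xz (fX h)) i).2, h5, h.cx.co.sg_Q (one_mem _), one_mul] at h1

end Cfsg.Agent.CoT
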