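import Cfsg.Agent.CoT.J0

set_option autoImplicit false
set_option linter.style.haveILetI false

namespace Cfsg.Agent.CoT.CE2

open Cfsg Cfsg.Agent.H10 Subgroup QuadraticMap

variable {G : Type*} [Group G] {z : G} {Q : Subgroup G} {ρ : centralizer ({z} : Set G) →* O8} {p : G → W}
  {s b m f a a' : G}

theorem q4 (co : Co z Q ρ p) {x : G} (hx : x ∈ Q) : x ^ 4 = 1 := by
  have h2 : x * x ∈ Q := mul_mem hx hx
  have : (x * x) * (x * x) = 1 := (co.sq h2).2 (by rw [co.mul hx hx, ww, map_zero])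
  rw [← this]; simp only [pow_succ, pow_zero, one_mul, mul_assoc]

variable (h : Fv z Q ρ p s b m f a a')
include h

theorem fz : f * z = z * f := (h.fD z (by simp)).symm

theorem fixp {x : G} (hx : x ∈ Q) (e : x * f = f * x) : (sg ρ f).1 (p x) = p x := by
  rw [← h.cx.co.sg_act (fz h) hx, ← e, mul_inv_cancel_right]

theorem sgf : sg ρ f ∈ S0 vv (p b) (p a) (p a') :=
  ⟨h.cx.co.sg_mem (fz h), by simpa only [h.cx.ps] using fixp h h.cx.sQ (h.fD s (by simp)),
    fixp h h.cx.bQ (h.fD b (by simp)), fixp h h.aQ (h.fD a (by simp)), fixp h h.aQ' (h.fD a' (by simp))⟩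

theorem sgf1 : sg ρ f ≠ 1 := fun e => by
  have := orderOf_dvd_of_pow_eq_one (q4 h.cx.co ((h.cx.co.sg_one (fz h)).1 e))
  rw [h.f5] at this
  omega

theorem sgf5 : sg ρ f ^ 5 = 1 := by
  rw [sg_eq (fz h), ← map_pow]
  have : (⟨f, mem_centralizer_singleton_iff.2 (fz h)⟩ : centralizer ({z} : Set G)) ^ 5 = 1 :=
    Subtype.ext (by rw [SubgroupClass.coe_pow, ← h.f5]; exact pow_orderOf_eq_one f)
  rw [this, map_one]

theorem lift [Finite G] (la : LA vv (p b) (p a) (p a')) {k : O8} (hk : k ∈ S1 vv (p b) (p a) (p a')) :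
    ∃ c, c * z = z * c ∧ c * f = f * c ∧ sg ρ c = k := by
  haveI : Fact (Nat.Prime 5) := ⟨by norm_num⟩
  haveI : Fact (Nat.Prime 2) := ⟨Nat.prime_two⟩
  let f0 : centralizer ({z} : Set G) := ⟨f, mem_centralizer_singleton_iff.2 (fz h)⟩
  have hf : Commute (ρ f0) k := by
    have := la.l5 _ (sgf h) k hk
    rwa [sg_eq (fz h)] at this
  have hg : ∀ g ∈ zpowers f0, ρ g * k * (ρ g)⁻¹ = k := by
    rintro _ ⟨i, rfl⟩
    simp only [map_zpow]
    rw [(hf.zpow_left i).eq, mul_inv_cancel_right]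
  letI : MulAction (zpowers f0) {c : centralizer ({z} : Set G) // ρ c = k} :=
    { smul := fun g c => ⟨g.1 * c.1 * g.1⁻¹, by rw [map_mul, map_mul, map_inv, c.2, hg g.1 g.2]⟩
      one_smul := fun c => Subtype.ext (by
        change (1 : centralizer ({z} : Set G)) * c.1 * 1⁻¹ = c.1; simp)
      mul_smul := fun g g' c => Subtype.ext (by
        change (g.1 * g'.1) * c.1 * (g.1 * g'.1)⁻¹ = g.1 * (g'.1 * c.1 * g'.1⁻¹) * g.1⁻¹; group) }
  have o5 : orderOf f0 = 5 := by rw [← h.f5, ← Subgroup.orderOf_coe]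
  have p5 : IsPGroup 5 (zpowers f0) := IsPGroup.of_card (n := 1) (by rw [Nat.card_zpowers, o5, pow_one])
  obtain ⟨c0, hc0⟩ : k ∈ ρ.range := by rw [h.cx.co.hr]; exact hk.1
  have cd : Nat.card {c : centralizer ({z} : Set G) // ρ c = k} = Nat.card ρ.ker :=
    Nat.card_congr
      { toFun := fun c => ⟨c0⁻¹ * c.1, by rw [MonoidHom.mem_ker, map_mul, map_inv, c.2, hc0, inv_mul_cancel]⟩
        invFun := fun c => ⟨c0 * c.1, by rw [map_mul, MonoidHom.mem_ker.1 c.2, hc0, mul_one]⟩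
        left_inv := fun c => Subtype.ext (by simp)
        right_inv := fun c => Subtype.ext (by simp) }
  have p2 : IsPGroup 2 ρ.ker := fun x => ⟨2, Subtype.ext (Subtype.ext
    (q4 h.cx.co ((h.cx.co.ker x.1).1 x.2)))⟩
  obtain ⟨n, hn⟩ := IsPGroup.iff_card.1 p2
  obtain ⟨c, hc⟩ := p5.nonempty_fixed_point_of_prime_not_dvd_card {c : centralizer ({z} : Set G) // ρ c = k} (by
    rw [cd, hn]
    intro d
    have := (Nat.Prime.dvd_of_dvd_pow (by norm_num) d)
    omega)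
  have cz := mem_centralizer_singleton_iff.1 c.1.2
  have e : f * c.1.1 * f⁻¹ = c.1.1 :=
    congrArg (fun x : {c : centralizer ({z} : Set G) // ρ c = k} => x.1.1) (hc ⟨f0, mem_zpowers _⟩)
  exact ⟨c.1.1, cz, (mul_inv_eq_iff_eq_mul.1 e).symm, (sg_eq cz).trans c.2⟩

theorem rq (la : LA vv (p b) (p a) (p a')) {q : G} (hq : q ∈ Q) (e : q * f = f * q) :
    q ∈ centralizer (XX z s b m a a' : Set G) := by
  have co := h.cx.co
  obtain ⟨y, ⟨i, j, k, l, hy⟩, hp⟩ := la.l6 (p q)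
  obtain ⟨-, g1, g2, g3, g4⟩ := sgf h
  have fy : (sg ρ f).1 y = y := by rw [hy]; simp only [map_add, map_smul, g1, g2, g3, g4]
  have e0 := la.l4 _ (sgf h) (sgf5 h) (sgf1 h) _ hp (by rw [map_add, fy, fixp h hq e])
  have key : ∀ (c : ZMod 2) (x : G), x ∈ Q → x ∈ centralizer (XX z s b m a a' : Set G) →
      ∃ u ∈ Q, u ∈ centralizer (XX z s b m a a' : Set G) ∧ p u = c • p x := fun c x hx hc => by
    rcases z2 c with rfl | rfl
    · exact ⟨1, one_mem _, one_mem _, by rw [co.p1, zero_smul]⟩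
    · exact ⟨x, hx, hc, by rw [one_smul]⟩
  have mem : ∀ d ∈ ({z, s, b, a, a', m} : Set G), d ∈ centralizer (XX z s b m a a' : Set G) :=
    fun d hd x hx => (hx d hd).symm
  obtain ⟨u1, q1, c1, e1⟩ := key i s h.cx.sQ (mem s (by simp))
  obtain ⟨u2, q2, c2, e2⟩ := key j b h.cx.bQ (mem b (by simp))
  obtain ⟨u3, q3, c3, e3⟩ := key k a h.aQ (mem a (by simp))
  obtain ⟨u4, q4, c4, e4⟩ := key l a' h.aQ' (mem a' (by simp))
  have hu : p q = p (u1 * u2 * u3 * u4) := by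
    rw [co.mul (mul_mem (mul_mem q1 q2) q3) q4, co.mul (mul_mem q1 q2) q3, co.mul q1 q2, e1, e2, e3, e4, h.cx.ps,
      ← hy, weq.1 e0]
  have cu := mul_mem (mul_mem (mul_mem c1 c2) c3) c4
  rcases co.peq hq (mul_mem (mul_mem (mul_mem q1 q2) q3) q4) hu with r | r <;> rw [r]
  · exact cu
  · exact mul_mem (mem z (by simp)) cu

end Cfsg.Agent.CoT.CE2
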