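import Cfsg.Agent.CoT.A
import Cfsg.Agent.H13.Spinor
import Cfsg.Agent.H13.Witt
import Cfsg.Agent.H29.OH1

/-! The pointwise stabiliser in `Ω₈⁺(2)` of `⟨v, a, w⟩^⊥` has fewer than 16 elements. -/

set_option autoImplicit false
set_option synthInstance.maxSize 4000
set_option synthInstance.maxHeartbeats 200000

namespace Cfsg.Agent.CoT

open Cfsg Cfsg.Agent.H13 Cfsg.Agent.H29 Subgroup QuadraticMap

namespace CN

/-- the pointwise stabiliser -/
def T (a w : W) : Type :=
  {g : O8 // g ∈ Ω ∧ ∀ x, polar Q8 x vv = 0 → polar Q8 x a = 0 → polar Q8 x w = 0 → g.1 x = x}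

/-- basis vectors -/
def e (i : Fin 4) : W := fun j => if j = .inl i then 1 else 0
/-- basis vectors -/
def f (i : Fin 4) : W := fun j => if j = .inr i then 1 else 0

theorem rn {n : W} (h : Q8 n = 1) : refl Q8 n ∉ Ω := by
  have nd : ND Q8 := nd_QPlus
  rw [nd.mem_commutator_iff_two (.inr (.inl (by simp))) rfl, nd.rk_refl (by simp [h])]; decide

/-- `y` looks like `p` from the vectors `b i` -/
abbrev C (b : Fin 5 → W) (p y : W) : Prop := Q8 y = Q8 p ∧ ∀ i, polar Q8 y (b i) = polar Q8 p (b i)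

theorem cC {b : Fin 5 → W} {g : O8} (h : ∀ i, g.1 (b i) = b i) (p : W) : C b p (g.1 p) :=
  ⟨OG_map _ _, fun i => by rw [← OG_polar g p, h]⟩

theorem fix {b : Fin 5 → W} {p q r : W} {g : O8} (h : ∀ i, g.1 (b i) = b i) (hp : g.1 p = p) (hq : g.1 q = q)
    (hr : g.1 r = r) (rad : ∀ y : W, (∀ i, polar Q8 y (b i) = 0) → polar Q8 y p = 0 → polar Q8 y q = 0 →
      polar Q8 y r = 0 → y = 0) : g = 1 := OG_ext fun x => by
  have k : ∀ {c : W}, g.1 c = c → polar Q8 (g.1 x - x) c = 0 := fun {c} hc => by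
    rw [polar_sub_left, ← OG_polar g x, hc, sub_self]
  exact sub_eq_zero.1 (rad _ (fun i => k (h i)) (k hp) (k hq) (k hr))

theorem key (a w p q : W) (b : Fin 5 → W)
    (hb : ∀ i, polar Q8 (b i) vv = 0 ∧ polar Q8 (b i) a = 0 ∧ polar Q8 (b i) w = 0)
    (sp : ∀ g ∈ Ω, (∀ i, g.1 (b i) = b i) → g.1 p = p → g.1 q = q → g = 1)
    (hc : (((Finset.univ.filter (C b p)) ×ˢ (Finset.univ.filter (C b q))).filter
      fun s => polar Q8 s.1 s.2 = polar Q8 p q).card < 16) : Nat.card (T a w) < 16 := by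
  have hf : ∀ g : T a w, ∀ i, g.1.1 (b i) = b i := fun g i => g.2.2 _ (hb i).1 (hb i).2.1 (hb i).2.2
  refine lt_of_le_of_lt ?_ hc
  rw [← Fintype.card_coe, ← Nat.card_eq_fintype_card]
  refine Nat.card_le_card_of_injective (fun g => ⟨(g.1.1 p, g.1.1 q), ?_⟩) fun g g' e => ?_
  · simp only [Finset.mem_filter, Finset.mem_product, Finset.mem_univ, true_and]
    exact ⟨⟨cC (hf g) p, cC (hf g) q⟩, OG_polar _ _ _⟩
  · have e1 := Prod.ext_iff.1 (congrArg Subtype.val e)
    have k : ∀ {c : W}, g.1.1 c = g'.1.1 c → (g'.1⁻¹ * g.1).1 c = c := fun {c} hc => by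
      rw [OG_mul_apply, hc, OG_inv_apply_apply]
    exact Subtype.ext (inv_mul_eq_one.1 (sp _ (mul_mem (inv_mem g'.2.1) g.2.1)
      (fun i => k ((hf g i).trans (hf g' i).symm)) (k e1.1) (k e1.2))).symm

/-- basis of the perp, singular case -/
def b0 : Fin 5 → W := ![e 0, e 1, e 2, e 3, f 3]
/-- basis of the perp, anisotropic case -/
def b1 : Fin 5 → W := ![e 0, e 2 + f 2, e 1 + f 1 + e 2, e 3, f 3]

theorem c0 : Nat.card (T (e 1) (e 2)) < 16 := by
  refine key _ _ (f 0) (f 1) b0 (by decide +kernel) (fun g _ h hp hq => fix h hp hq (r := f 2) ?_ (by decide +kernel))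
    (by decide +kernel)
  refine (by decide +kernel : ∀ y, C b0 (f 2) y → polar Q8 y (f 0) = polar Q8 (f 2) (f 0) →
    polar Q8 y (f 1) = polar Q8 (f 2) (f 1) → y = f 2) _ (cC h _) ?_ ?_
  · rw [← OG_polar g (f 2), hp]
  · rw [← OG_polar g (f 2), hq]

theorem c1 : Nat.card (T (e 1 + f 1) (e 1 + e 2 + f 2)) < 16 := by
  refine key _ _ (f 0) (e 1 + f 1) b1 (by decide +kernel) (fun g hg h hp hq => ?_) (by decide +kernel)
  have rad : ∀ y : W, (∀ i, polar Q8 y (b1 i) = 0) → polar Q8 y (f 0) = 0 → polar Q8 y (e 1 + f 1) = 0 →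
      polar Q8 y (e 1 + e 2 + f 2) = 0 → y = 0 := by decide +kernel
  rcases (by decide +kernel : ∀ y, C b1 (e 1 + e 2 + f 2) y → polar Q8 y (f 0) = polar Q8 (e 1 + e 2 + f 2) (f 0) →
    polar Q8 y (e 1 + f 1) = polar Q8 (e 1 + e 2 + f 2) (e 1 + f 1) →
    y = e 1 + e 2 + f 2 ∨ y + (e 1 + f 1) = e 1 + e 2 + f 2) _ (cC h _)
    (by rw [← OG_polar g (e 1 + e 2 + f 2), hp]) (by rw [← OG_polar g (e 1 + e 2 + f 2), hq]) with hr | hr
  · exact fix h hp hq hr rad
  · have n1 : Q8 (e 1 + f 1) = 1 := by decide +kernel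
    have : g * refl Q8 (e 1 + f 1) = 1 := by
      refine fix (fun i => ?_) ?_ ?_ ?_ rad
      · rw [OG_mul_apply, refl_apply_of_perp (by revert i; decide +kernel), h]
      · rw [OG_mul_apply, refl_apply_of_perp (by decide +kernel), hp]
      · rw [OG_mul_apply, refl_apply_of_perp (polar_self2 _), hq]
      · rw [OG_mul_apply, refl2 n1, show polar Q8 (e 1 + f 1) (e 1 + e 2 + f 2) = 1 by decide +kernel, one_smul, map_add,
          hq, hr]
    exact absurd ((mul_mem_cancel_left hg).1 (this ▸ one_mem _)) (rn n1)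

theorem li {c : ZMod 2} {a w : W} (h : AP vv c a w) : LinearIndependent (ZMod 2) ![vv, a, w] := by
  obtain ⟨-, -, -, -, -, h1, h2, h3⟩ := h
  refine Fintype.linearIndependent_iff.2 fun c hc => ?_
  simp only [Fin.sum_univ_three, Matrix.cons_val] at hc
  have z : ∀ c : ZMod 2, c = 0 ∨ c = 1 := by decide
  have n : ∀ {x y : W}, x + y = 0 → x = y := fun {x y} e => by
    rw [← add_zero x, ← add_self2 y, ← add_assoc, e, zero_add]
  have v0 : vv ≠ 0 := by decide +kernel
  unfold Cg at h1 h2 h3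
  rw [zero_add] at h1 h2
  rcases z (c 0) with e0 | e0 <;> rcases z (c 1) with e1 | e1 <;> rcases z (c 2) with e2 | e2 <;>
    simp only [e0, e1, e2, zero_smul, one_smul, zero_add, add_zero] at hc
  · intro i; fin_cases i; exacts [e0, e1, e2]
  · exact absurd (.inl hc) h2
  · exact absurd (.inl hc) h1
  · exact absurd (.inl (n hc)) h3
  · exact absurd hc v0
  · exact absurd (.inr (n hc).symm) h2
  · exact absurd (.inr (n hc).symm) h1
  · exact absurd (.inr (n (by rw [← hc]; abel))) h3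

theorem tr {c : ZMod 2} {a w a' w' : W} (h : AP vv c a w) (h' : AP vv c a' w') : Nat.card (T a w) = Nat.card (T a' w') := by
  have v0 : Q8 vv = 0 := by decide +kernel
  obtain ⟨g, g1, g2⟩ := witt_quad_family Q8 nd_QPlus _ _ (li h) (li h') (fun i j => by
    obtain ⟨h1, h2, -, -, h3, -⟩ := h
    obtain ⟨k1, k2, -, -, k3, -⟩ := h'
    fin_cases i <;> fin_cases j <;>
      simp [show (2 : ZMod 2) = 0 from rfl, h1, h2, h3, k1, k2, k3, polar_comm Q8 vv, polar_comm Q8 w a,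
        polar_comm Q8 w' a']) fun i => by
    fin_cases i
    exacts [rfl, h'.2.2.1.trans h.2.2.1.symm, h'.2.2.2.1.trans h.2.2.2.1.symm]
  let k : O8 := ⟨g, g1⟩
  have k0 : k.1 vv = vv := g2 0
  have k1 : k.1 a = a' := g2 1
  have k2 : k.1 w = w' := g2 2
  refine Nat.card_congr ((MulAut.conj k).toEquiv.subtypeEquiv fun s => and_congr ?_ ⟨fun hs x x0 x1 x2 => ?_,
    fun hs x x0 x1 x2 => ?_⟩)
  · exact (Subgroup.Normal.mem_comm_iff inferInstance (a := k * s) (b := k⁻¹)).trans (by rw [inv_mul_cancel_left]) |>.symm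
  · obtain ⟨y, rfl⟩ := k.1.surjective x
    rw [← k0, OG_polar] at x0
    rw [← k1, OG_polar] at x1
    rw [← k2, OG_polar] at x2
    change (k * s * k⁻¹).1 _ = _
    rw [OG_mul_apply, OG_mul_apply, OG_inv_apply_apply, hs y x0 x1 x2]
  · have := hs (k.1 x) (by rw [← k0, OG_polar, x0]) (by rw [← k1, OG_polar, x1]) (by rw [← k2, OG_polar, x2])
    change (k * s * k⁻¹).1 _ = _ at this
    rwa [OG_mul_apply, OG_mul_apply, OG_inv_apply_apply, k.1.injective.eq_iff] at this

end CN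

theorem cnt : ∀ e a w, AP vv e a w →
    Nat.card {g : O8 // g ∈ Ω ∧ ∀ x, polar Q8 x vv = 0 → polar Q8 x a = 0 → polar Q8 x w = 0 → g.1 x = x} < 16 := by
  intro c a w h
  rcases (by decide : ∀ c : ZMod 2, c = 0 ∨ c = 1) c with rfl | rfl
  · exact (CN.tr h (by unfold AP Cg; decide +kernel)).trans_lt CN.c0
  · exact (CN.tr h (by unfold AP Cg; decide +kernel)).trans_lt CN.c1

end Cfsg.Agent.CoT
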