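import Cfsg.Agent.CoT.A

/-! The groups `Q_t` for the conjugates `t` of `z`, and the action of `C(z)` on coordinates. -/

set_option autoImplicit false

namespace Cfsg.Agent.CoT

open Cfsg Cfsg.Agent.H10 Subgroup QuadraticMap

variable {G : Type*} [Group G]

/-- `x ∈ Q_t` -/
def In (Q : Subgroup G) (z x t : G) : Prop := ∃ k : G, k * z * k⁻¹ = t ∧ k⁻¹ * x * k ∈ Q

section
variable {Q : Subgroup G} {z x y t s g : G}

theorem In.cj (h : In Q z x t) (g : G) : In Q z (g * x * g⁻¹) (g * t * g⁻¹) := by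
  obtain ⟨k, e, m⟩ := h
  exact ⟨g * k, by rw [← e]; group, by convert m using 1; group⟩

theorem In.cj' (h : In Q z x t) (e : g * t = t * g) : In Q z (g * x * g⁻¹) t := by
  have := h.cj g; rwa [e, mul_inv_cancel_right] at this

theorem in_of_mem (h : x ∈ Q) : In Q z x z := ⟨1, by simp, by simpa using h⟩

theorem In.get (lx : LX Q z) (h : In Q z x t) {k : G} (e : k * z * k⁻¹ = t) : k⁻¹ * x * k ∈ Q := by
  obtain ⟨j, e', m⟩ := h
  have c : k⁻¹ * j * z = z * (k⁻¹ * j) := by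
    calc _ = k⁻¹ * (j * z * j⁻¹) * j := by group
      _ = k⁻¹ * (k * z * k⁻¹) * j := by rw [e', e]
      _ = _ := by group
  convert lx.conj_mem c m using 1; group

theorem In.mem (lx : LX Q z) (h : In Q z x z) : x ∈ Q := by simpa using h.get lx (k := 1) (by simp)

theorem In.mul (lx : LX Q z) (h : In Q z x t) (h' : In Q z y t) : In Q z (x * y) t := by
  obtain ⟨k, e, m⟩ := h
  exact ⟨k, e, by convert mul_mem m (h'.get lx e) using 1; group⟩

theorem In.inv (h : In Q z x t) : In Q z x⁻¹ t := by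
  obtain ⟨k, e, m⟩ := h
  exact ⟨k, e, by convert inv_mem m using 1; group⟩

theorem In.self (lx : LX Q z) (h : In Q z x t) : In Q z t t := by
  obtain ⟨k, e, -⟩ := h
  exact ⟨k, e, by convert lx.mem using 1; rw [← e]; group⟩

theorem In.cm (lx : LX Q z) (h : In Q z x t) : x * t = t * x := by
  obtain ⟨k, rfl, m⟩ := h
  calc _ = k * (k⁻¹ * x * k * z) * k⁻¹ := by group
    _ = _ := by rw [lx.cent _ m]; group

theorem In.tt (lx : LX Q z) (h : In Q z x t) : t * t = 1 := by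
  obtain ⟨k, rfl, -⟩ := h
  calc _ = k * (z * z) * k⁻¹ := by group
    _ = _ := by rw [lx.zz]; group

theorem In.ne (lx : LX Q z) (h : In Q z x t) : t ≠ 1 := by
  obtain ⟨k, rfl, -⟩ := h
  exact (lx.conj k).ne_one

theorem In.sq (lx : LX Q z) (h : In Q z x t) : x * x = 1 ∨ x * x = t := by
  obtain ⟨k, rfl, m⟩ := h
  rcases lx.mem_z.1 (lx.sq _ m) with e | e
  · left; calc _ = k * (k⁻¹ * x * k * (k⁻¹ * x * k)) * k⁻¹ := by group
      _ = _ := by rw [e]; group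
  · right; rw [← e]; group

theorem In.cor (lx : LX Q z) (h : In Q z x t) (h' : In Q z y t) : x * y = y * x ∨ x * y = t * (y * x) := by
  obtain ⟨k, e, m⟩ := h
  have m' := h'.get lx e
  subst e
  rcases lx.mul_eq_or m m' with e | e
  · left; calc _ = k * (k⁻¹ * x * k * (k⁻¹ * y * k)) * k⁻¹ := by group
      _ = _ := by rw [e]; group
  · right; calc _ = k * (k⁻¹ * x * k * (k⁻¹ * y * k)) * k⁻¹ := by group
      _ = _ := by rw [e]; group

theorem In.symm [Finite G] (lx : LX Q z) (h : In Q z s t) (hs : In Q z x s) (ne : s ≠ t) : In Q z t s := by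
  obtain ⟨k, rfl, m⟩ := h
  obtain ⟨j, rfl, -⟩ := hs
  have e : k⁻¹ * (j * z * j⁻¹) * k = k⁻¹ * j * z * (k⁻¹ * j)⁻¹ := by group
  rw [e] at m
  obtain ⟨q, hq, e'⟩ := lx.mem_conj' m fun e' => ne (by
    calc _ = k * (k⁻¹ * j * z * (k⁻¹ * j)⁻¹) * k⁻¹ := by group
      _ = _ := by rw [e'])
  refine ⟨j, rfl, ?_⟩
  have e2 : k⁻¹ * j * q * (k⁻¹ * j)⁻¹ = z := e'
  have e3 : j⁻¹ * (k * z * k⁻¹) * j = q := by rw [← e2]; group
  rw [e3]; exact hq

theorem In.exb [Finite G] (lx : LX Q z) (h : In Q z s t) (h2 : s * s = 1) (h1 : s ≠ 1) (ne : s ≠ t) :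
    ∃ b, In Q z b t ∧ b * s * b⁻¹ = t * s := by
  obtain ⟨k, rfl, m⟩ := h
  obtain ⟨q, hq, c⟩ := lx.exists_ne_comm m fun e => by
    rcases lx.mem_z.1 e with e | e
    · exact h1 (by calc s = k * (k⁻¹ * s * k) * k⁻¹ := by group
        _ = _ := by rw [e]; group)
    · exact ne (by rw [← e]; group)
  refine ⟨k * q * k⁻¹, ⟨k, rfl, by convert hq using 1; group⟩, ?_⟩
  calc _ = k * (q * (k⁻¹ * s * k) * q⁻¹) * k⁻¹ := by group
    _ = _ := by rw [lx.conj_eq_of_ne hq m c]; group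

end

open Classical in
/-- `ρ` extended to `G` -/
noncomputable def sg {z : G} (ρ : centralizer ({z} : Set G) →* O8) (c : G) : O8 :=
  if h : c * z = z * c then ρ ⟨c, mem_centralizer_singleton_iff.2 h⟩ else 1

section
variable {z : G} {Q : Subgroup G} {ρ : centralizer ({z} : Set G) →* O8} {p : G → W} {c d x y : G}

theorem sg_eq (hc : c * z = z * c) : sg ρ c = ρ ⟨c, mem_centralizer_singleton_iff.2 hc⟩ := dif_pos hc

theorem cz_mul (hc : c * z = z * c) (hd : d * z = z * d) : c * d * z = z * (c * d) := by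
  rw [mul_assoc, hd, ← mul_assoc, hc, mul_assoc]

theorem cz_inv (hc : c * z = z * c) : c⁻¹ * z = z * c⁻¹ := (Commute.inv_left hc :)

theorem cz_cj (hc : c * z = z * c) (hd : d * z = z * d) : c * d * c⁻¹ * z = z * (c * d * c⁻¹) :=
  cz_mul (cz_mul hc hd) (cz_inv hc)

theorem sg_mul (hc : c * z = z * c) (hd : d * z = z * d) : sg ρ (c * d) = sg ρ c * sg ρ d := by
  rw [sg_eq hc, sg_eq hd, sg_eq (cz_mul hc hd), ← map_mul]; rfl

theorem sg_inv (hc : c * z = z * c) : sg ρ c⁻¹ = (sg ρ c)⁻¹ := by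
  rw [sg_eq hc, sg_eq (cz_inv hc), ← map_inv]; rfl

theorem sg_cj (hc : c * z = z * c) (hd : d * z = z * d) : sg ρ (c * d * c⁻¹) = sg ρ c * sg ρ d * (sg ρ c)⁻¹ := by
  rw [sg_mul (cz_mul hc hd) (cz_inv hc), sg_mul hc hd, sg_inv hc]

theorem ww (a : W) : a + a = 0 := CharTwo.add_self_eq_zero a

theorem weq {a b : W} : a + b = 0 ↔ a = b := by
  rw [add_eq_zero_iff_eq_neg, CharTwo.neg_eq]

namespace Co
variable (h : Co z Q ρ p)
include h

theorem sg_mem (hc : c * z = z * c) : sg ρ c ∈ Ω := by rw [sg_eq hc, ← h.hr]; exact ⟨_, rfl⟩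

theorem sg_surj {g : O8} (hg : g ∈ Ω) : ∃ c, c * z = z * c ∧ sg ρ c = g := by
  rw [← h.hr] at hg
  obtain ⟨c, rfl⟩ := hg
  have := mem_centralizer_singleton_iff.1 c.2
  exact ⟨c, this, sg_eq this⟩

theorem sg_one (hc : c * z = z * c) : sg ρ c = 1 ↔ c ∈ Q := by rw [sg_eq hc, h.ker]

theorem sg_Q (hc : c ∈ Q) : sg ρ c = 1 := (h.sg_one (h.lx.cent _ hc)).2 hc

theorem sg_act (hc : c * z = z * c) (hx : x ∈ Q) : p (c * x * c⁻¹) = (sg ρ c).1 (p x) := by
  rw [sg_eq hc]; exact h.act ⟨c, _⟩ hx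

theorem p1 : p 1 = 0 := (h.zero Q.one_mem).2 (one_mem _)

theorem pz : p z = 0 := (h.zero h.lx.mem).2 (mem_zpowers _)

theorem pinv (hx : x ∈ Q) : p x⁻¹ = p x := by
  have := h.mul (inv_mem hx) hx
  rw [inv_mul_cancel, h.p1] at this
  exact weq.1 this.symm

theorem peq (hx : x ∈ Q) (hy : y ∈ Q) (e : p x = p y) : x = y ∨ x = z * y := by
  have := (h.zero (mul_mem hx (inv_mem hy))).1 (by rw [h.mul hx (inv_mem hy), h.pinv hy, e, ww])
  rcases h.lx.mem_z.1 this with e | e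
  · exact .inl (mul_inv_eq_one.1 e)
  · exact .inr (mul_inv_eq_iff_eq_mul.1 e)

theorem sqz (hx : x ∈ Q) (e : Q8 (p x) = 1) : x * x = z :=
  (h.lx.mem_z.1 (h.lx.sq _ hx)).resolve_left fun e' => by rw [(h.sq hx).1 e'] at e; exact zero_ne_one e

theorem ncm (hx : x ∈ Q) (hy : y ∈ Q) (e : polar Q8 (p x) (p y) = 1) : x * y = z * (y * x) :=
  h.lx.mul_eq_of_ne hx hy fun e' => by rw [(h.cm hx hy).1 e'] at e; exact zero_ne_one e

theorem sg_quo (hc : c * z = z * c) (hd : d * z = z * d) (e : sg ρ c = sg ρ d) : c * d⁻¹ ∈ Q := by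
  rw [← h.sg_one (cz_mul hc (cz_inv hd)), sg_mul hc (cz_inv hd), sg_inv hd, e, mul_inv_cancel]

end Co
end

theorem z2 (a : ZMod 2) : a = 0 ∨ a = 1 := by revert a; decide

end Cfsg.Agent.CoT
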