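import Cfsg.Agent.CoT.A
import Cfsg.Agent.H10.Xsp5

/-! Elements of `O₆⁻(2)` that fix a singular vector `v` and act trivially on `v^⊥ / v`. -/

set_option autoImplicit false

namespace Cfsg.Agent.CoT

open Cfsg Cfsg.Agent.H10 Subgroup QuadraticMap

namespace PL

theorem z2 (r : ZMod 2) : r = 0 ∨ r = 1 := by revert r; decide

theorem rr (r : ZMod 2) : r + r = 0 := by revert r; decide

theorem xx (x : W) : x + x = 0 := funext fun i => rr (x i)

theorem qadd (x y : W) : Q8 (x + y) = Q8 x + Q8 y + polar Q8 x y := QuadraticMap.map_add (⇑Q8) x y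

theorem pl (x y u : W) : polar Q8 (x + y) u = polar Q8 x u + polar Q8 y u := polar_add_left Q8 x y u

theorem pr (u x y : W) : polar Q8 u (x + y) = polar Q8 u x + polar Q8 u y := polar_add_right Q8 u x y

theorem pc (x y : W) : polar Q8 x y = polar Q8 y x := polar_comm _ x y

theorem cancel (x y : W) : x + y + y = x := by rw [add_assoc, xx, add_zero]

end PL

open PL

variable {v β x a : W} {g g' c : O8}

theorem ee_one : EE v 1 := ⟨rfl, fun _ _ => .inl rfl⟩

set_option linter.unusedVariables false in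
theorem ee_perp (hv : Q8 v = 0) (hβ : polar Q8 β v = 1) (h : EE v g) : polar Q8 (g.1 β + β) v = 0 := by
  have e := H13.OG_polar g β v
  rw [h.1] at e
  rw [pl, e, rr]

set_option linter.unusedVariables false in
theorem ee_val (hv : Q8 v = 0) (hβ : polar Q8 β v = 1) (h : EE v g) (ha : polar Q8 a v = 0) :
    g.1 a = a + polar Q8 a (g.1 β + β) • v := by
  have e := H13.OG_polar g a β
  have e2 := H13.OG_polar g v β
  rw [h.1, pc v β, hβ] at e2
  rcases h.2 a ha with h1 | h1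
  · rw [h1] at e
    rw [pr, e, rr, zero_smul, add_zero, h1]
  · rw [h1, pl, e2] at e
    have : polar Q8 a (g.1 β + β) = 1 := by
      rw [pr, ← e, ← add_assoc, rr, zero_add]
    rw [this, one_smul, h1]

theorem PL.qw (g : O8) (β : W) : Q8 (g.1 β + β) = polar Q8 (g.1 β + β) β := by
  have e := H13.OG_map g β
  rw [← cancel (g.1 β) β, qadd] at e
  rcases z2 (Q8 (g.1 β + β)) with h1 | h1 <;> rcases z2 (polar Q8 (g.1 β + β) β) with h2 | h2 <;>
    rcases z2 (Q8 β) with h3 | h3 <;> rw [h1, h2, h3] at e <;> rw [h1, h2] <;> revert e <;> decide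

theorem PL.pb (hβ : polar Q8 β v = 1) (hx : polar Q8 x v = 1) : polar Q8 (x + β) v = 0 := by
  rw [pl, hx, hβ, rr]

theorem ee_ext (hv : Q8 v = 0) (hβ : polar Q8 β v = 1) (h : EE v g) (h' : EE v g')
    (e : g.1 β + β = g'.1 β + β ∨ g.1 β + β = g'.1 β + β + v) : g = g' := by
  have e1 : g.1 β + β = g'.1 β + β := by
    refine e.resolve_right fun e => ?_
    have q := qw g β
    rw [e, qadd, hv, ee_perp hv hβ h', add_zero, add_zero, qw g' β, pl _ v β, pc v β, hβ] at q
    rcases z2 (polar Q8 (g'.1 β + β) β) with h1 | h1 <;> rw [h1] at q <;> revert q <;> decide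
  have e2 : g.1 β = g'.1 β := add_right_cancel e1
  have k : ∀ a, polar Q8 a v = 0 → g.1 a = g'.1 a := fun a ha => by
    rw [ee_val hv hβ h ha, ee_val hv hβ h' ha, e1]
  refine H13.OG_ext fun x => (z2 (polar Q8 x v)).elim (k x) fun hx => ?_
  have := k _ (pb hβ hx)
  rw [map_add, map_add, e2] at this
  exact add_right_cancel this

set_option linter.unusedVariables false in
theorem ee_im (hv : Q8 v = 0) (hβ : polar Q8 β v = 1) (h : EE v g) (hx : polar Q8 x v = 1) :
    g.1 x + x = g.1 β + β ∨ g.1 x + x = g.1 β + β + v := by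
  have k : g.1 x = g.1 (x + β) + g.1 β := by rw [map_add, cancel]
  refine (h.2 _ (pb hβ hx)).imp (fun e => ?_) fun e => ?_
  · rw [k, e]
    calc x + β + g.1 β + x = g.1 β + β + x + x := by abel
      _ = _ := cancel _ _
  · rw [k, e]
    calc x + β + v + g.1 β + x = g.1 β + β + v + x + x := by abel
      _ = _ := cancel _ _

theorem PL.im0 (h : EE v g) (hx : polar Q8 x v = 0) : g.1 x + x = 0 ∨ g.1 x + x = v := by
  refine (h.2 _ hx).imp (fun e => ?_) fun e => ?_
  · rw [e, xx]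
  · rw [e, add_comm x v, cancel]

theorem PL.qv (hv : Q8 v = 0) (hβ : polar Q8 β v = 1) (h : EE v g) : Q8 (g.1 β + β + v) = Q8 (g.1 β + β) := by
  rw [qadd, hv, ee_perp hv hβ h, add_zero, add_zero]

theorem ee_sing (hv : Q8 v = 0) (hβ : polar Q8 β v = 1) (h : EE v g) (h0 : Q8 (g.1 β + β) = 0) (x : W) :
    Q8 (g.1 x + x) = 0 := by
  rcases z2 (polar Q8 x v) with hx | hx
  · rcases im0 h hx with e | e
    · rw [e, map_zero]
    · rw [e, hv]
  · rcases ee_im hv hβ h hx with e | e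
    · rw [e, h0]
    · rw [e, qv hv hβ h, h0]

theorem ee_conj (hv : Q8 v = 0) (hβ : polar Q8 β v = 1) (h : EE v g) (hc : c.1 v = v) :
    EE v (c * g * c⁻¹) ∧ ((c * g * c⁻¹).1 β + β = c.1 (g.1 β + β) ∨
      (c * g * c⁻¹).1 β + β = c.1 (g.1 β + β) + v) := by
  have hi : (c⁻¹).1 v = v := by
    have := H13.OG_inv_apply_apply c v
    rwa [hc] at this
  have hp : ∀ a, polar Q8 ((c⁻¹).1 a) v = polar Q8 a v := fun a => by
    rw [← H13.OG_polar_right, hc]
  have ap : ∀ a, (c * g * c⁻¹).1 a = c.1 (g.1 ((c⁻¹).1 a)) := fun _ => rfl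
  refine ⟨⟨by rw [ap, hi, h.1, hc], fun a ha => ?_⟩, ?_⟩
  · refine (h.2 ((c⁻¹).1 a) (by rw [hp, ha])).imp (fun e => ?_) fun e => ?_
    · rw [ap, e, H13.OG_apply_inv]
    · rw [ap, e, map_add, H13.OG_apply_inv, hc]
  · have k : (c * g * c⁻¹).1 β + β = c.1 (g.1 ((c⁻¹).1 β) + (c⁻¹).1 β) := by
      rw [map_add, H13.OG_apply_inv, ap]
    refine (ee_im hv hβ h (x := (c⁻¹).1 β) (by rw [hp, hβ])).imp (fun e => ?_) fun e => ?_
    · rw [k, e]
    · rw [k, e, map_add, hc]

theorem ee_fix (hv : Q8 v = 0) (hβ : polar Q8 β v = 1) (v0 : v ≠ 0) (h : EE v g) (hw : Q8 (g.1 β + β) = 1)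
    (ha : polar Q8 a v = 0) (haw : polar Q8 a (g.1 β + β) = 1) (hc : c * g = g * c) : c.1 v = v := by
  have e := ee_val hv hβ h ha
  rw [haw, one_smul] at e
  have e1 : v = g.1 a + a := by rw [e, add_comm a v, cancel]
  have e2 : c.1 v = g.1 (c.1 a) + c.1 a := by
    conv_lhs => rw [e1]
    rw [map_add, ← H13.OG_mul_apply, hc, H13.OG_mul_apply]
  have q : Q8 (c.1 v) = 0 := by rw [H13.OG_map, hv]
  rcases z2 (polar Q8 (c.1 a) v) with hx | hx
  · rcases im0 h hx with k | k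
    · exact absurd (c.1.map_eq_zero_iff.1 (e2.trans k)) v0
    · exact e2.trans k
  · exfalso
    rcases ee_im hv hβ h hx with k | k
    · rw [e2, k, hw] at q; exact one_ne_zero q
    · rw [e2, k, qv hv hβ h, hw] at q; exact one_ne_zero q

theorem syl {G : Type*} [Group G] [Finite G] {Q : Subgroup G} {z x : G} (h : LX Q z) (hx : x * x = 1) :
    ∃ k : G, k * x * k⁻¹ * z = z * (k * x * k⁻¹) := by
  haveI : Fact (Nat.Prime 2) := ⟨Nat.prime_two⟩
  obtain ⟨T, hT⟩ := h.isPGroup.exists_le_sylow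
  have hz : z ∈ (T : Subgroup G) ⊓ centralizer ((T : Subgroup G) : Set G) := by
    rw [h.inf_centralizer_of_le T.isPGroup' hT]; exact mem_zpowers z
  have hp : IsPGroup 2 (zpowers x) := by
    rintro ⟨_, n, rfl⟩
    refine ⟨1, Subtype.ext ?_⟩
    show (x ^ n) ^ 2 ^ 1 = 1
    rw [pow_one, ← zpow_natCast, ← zpow_mul, mul_comm, zpow_mul, zpow_natCast, pow_two, hx, one_zpow]
  obtain ⟨T', hT'⟩ := hp.exists_le_sylow
  obtain ⟨k, hk⟩ := MulAction.exists_smul_eq G T' T
  refine ⟨k, hz.2 _ ?_⟩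
  rw [← hk]
  exact ⟨x, hT' (mem_zpowers x), rfl⟩

end Cfsg.Agent.CoT
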