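import Cfsg.Agent.CoT.G1
import Cfsg.Agent.CoT.L

/-! The four-group `V = ⟨z, s⟩` and the group `R = C_Q(s) C_{Q_s}(z)`. -/

set_option autoImplicit false

namespace Cfsg.Agent.CoT

open Cfsg Cfsg.Agent.H10 Subgroup QuadraticMap

variable {G : Type*} [Group G]

structure Cx (z : G) (Q : Subgroup G) (ρ : centralizer ({z} : Set G) →* O8) (p : G → W) (v : W) (s b m : G) : Prop where
  co : Co z Q ρ p
  of : OF v
  sQ : s ∈ Q
  ps : p s = v
  bQ : b ∈ Q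
  bs : b * s * b⁻¹ = z * s
  cP : In Q z (b * m) s
  mz : m * z * m⁻¹ = s

def Vm (z s u : G) : Prop := u = 1 ∨ u = z ∨ u = s ∨ u = z * s

theorem pvv (v : W) : polar Q8 v v = 0 := by rw [polar_self]; exact CharTwo.two_nsmul _

theorem Vm.cm {z s u c : G} (hu : Vm z s u) (h1 : c * z = z * c) (h2 : c * s = s * c) : c * u = u * c := by
  rcases hu with rfl | rfl | rfl | rfl
  · simp
  · exact h1
  · exact h2
  · exact (Commute.mul_right h1 h2 :)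

theorem toS [Finite G] {z : G} {Q : Subgroup G} {ρ : centralizer ({z} : Set G) →* O8} {p : G → W} {v : W} {s x : G}
    (co : Co z Q ρ p) (of : OF v) (sQ : s ∈ Q) (ps : p s = v) (hx : x ∈ Q) (h2 : x * x = 1) (h1 : x ≠ 1) (hz : x ≠ z) :
    ∃ c, c * z = z * c ∧ c * x * c⁻¹ = s := by
  obtain ⟨g, hg, e⟩ := of.f1 (p x) (fun e => (co.lx.mem_z.1 ((co.zero hx).1 e)).elim h1 hz) ((co.sq hx).1 h2)
  obtain ⟨c, hc, rfl⟩ := co.sg_surj hg
  rw [← co.sg_act hc hx, ← ps] at e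
  rcases co.peq (co.lx.conj_mem hc hx) sQ e with e | e
  · exact ⟨c, hc, e⟩
  · obtain ⟨q, hq, n⟩ := co.lx.exists_ne_comm sQ fun e => of.v0.1 (ps ▸ (co.zero sQ).2 e)
    refine ⟨q * c, cz_mul (co.lx.cent _ hq) hc, ?_⟩
    calc _ = q * (c * x * c⁻¹) * q⁻¹ := by group
      _ = q * z * q⁻¹ * (q * s * q⁻¹) := by rw [e]; group
      _ = _ := by rw [co.lx.conj_eq_of_ne hq sQ n, co.lx.cent _ hq, mul_inv_cancel_right, ← mul_assoc, co.lx.zz, one_mul]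

namespace Cx
variable {z : G} {Q : Subgroup G} {ρ : centralizer ({z} : Set G) →* O8} {p : G → W} {v : W} {s b m a a' r u x y c : G}
  (h : Cx z Q ρ p v s b m)
include h

theorem lx : LX Q z := h.co.lx
theorem zz : z * z = 1 := h.lx.zz
theorem sz : s * z = z * s := h.lx.cent _ h.sQ
theorem ss : s * s = 1 := h.cP.tt h.lx
theorem bz : b * z = z * b := h.lx.cent _ h.bQ
theorem hv : Q8 v = 0 := h.of.v0.2
theorem snz : s ≠ z := fun e => h.of.v0.1 (by rw [← h.ps, e, h.co.pz])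
theorem sP : In Q z s s := h.cP.self h.lx
theorem perp (hx : x ∈ Q) : x * s = s * x ↔ polar Q8 (p x) v = 0 := h.ps ▸ h.co.cm hx h.sQ
theorem hβ : polar Q8 (p b) v = 1 := (z2 _).resolve_left fun e => h.lx.ne_one (by
  have := h.bs
  rwa [(h.perp h.bQ).2 e, mul_inv_cancel_right, right_eq_mul] at this)
theorem pzs : p (z * s) = v := by rw [h.co.mul h.lx.mem h.sQ, h.co.pz, zero_add, h.ps]
theorem bs' : b⁻¹ * s * b = z * s := by
  calc _ = b⁻¹ * (z * (b * s * b⁻¹)) * b := by rw [h.bs, ← mul_assoc z z, h.zz, one_mul]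
    _ = b⁻¹ * (z * b) * s := by group
    _ = _ := by rw [← h.bz]; group
theorem ms : m * s * m⁻¹ = z * s := by
  calc _ = b⁻¹ * (b * m * s) * m⁻¹ := by group
    _ = _ := by rw [h.cP.cm h.lx, ← h.bs']; group
theorem mzs : m * (z * s) * m⁻¹ = z := by
  calc _ = m * z * m⁻¹ * (m * s * m⁻¹) := by group
    _ = _ := by rw [h.mz, h.ms, ← mul_assoc, h.sz, mul_assoc, h.ss, mul_one]

theorem vQ (hu : Vm z s u) : u ∈ Q := by
  rcases hu with rfl | rfl | rfl | rfl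
  exacts [one_mem _, h.lx.mem, h.sQ, mul_mem h.lx.mem h.sQ]

theorem vp (hu : Vm z s u) : p u = 0 ∨ p u = v := by
  rcases hu with rfl | rfl | rfl | rfl
  exacts [.inl h.co.p1, .inl h.co.pz, .inr h.ps, .inr h.pzs]

theorem pv (hu : u ∈ Q) (e : p u = 0 ∨ p u = v) : Vm z s u := by
  rcases e with e | e
  · exact (h.lx.mem_z.1 ((h.co.zero hu).1 e)).elim .inl fun e => .inr (.inl e)
  · exact .inr (.inr (h.co.peq hu h.sQ (e.trans h.ps.symm)))

theorem pv2 (hx : x ∈ Q) (hy : y ∈ Q) (e : p x = p y ∨ p x = p y + v) : Vm z s (x * y⁻¹) := by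
  refine h.pv (mul_mem hx (inv_mem hy)) ?_
  rw [h.co.mul hx (inv_mem hy), h.co.pinv hy]
  rcases e with e | e <;> rw [e]
  · exact .inl (ww _)
  · exact .inr (by rw [add_right_comm, ww, zero_add])

theorem vp2 (hy : y ∈ Q) (hu : Vm z s u) : p (u * y) = p y ∨ p (u * y) = p y + v := by
  rw [h.co.mul (h.vQ hu) hy]
  rcases h.vp hu with e | e <;> rw [e]
  · exact .inl (zero_add _)
  · exact .inr (add_comm _ _)

theorem liftv {g : O8} (hg : g ∈ Ω) (e : g.1 v = v) : ∃ c, c * z = z * c ∧ c * s = s * c ∧ sg ρ c = g := by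
  obtain ⟨c, hc, rfl⟩ := h.co.sg_surj hg
  rw [← h.ps, ← h.co.sg_act hc h.sQ] at e
  rcases h.co.peq (h.lx.conj_mem hc h.sQ) h.sQ e with e | e
  · exact ⟨c, hc, mul_inv_eq_iff_eq_mul.1 e, rfl⟩
  · refine ⟨b⁻¹ * c, cz_mul (cz_inv h.bz) hc, mul_inv_eq_iff_eq_mul.1 ?_, by
      rw [sg_mul (cz_inv h.bz) hc, h.co.sg_Q (inv_mem h.bQ), one_mul]⟩
    calc _ = b⁻¹ * (c * s * c⁻¹) * b := by group
      _ = _ := by rw [e, ← h.bs]; group

theorem psiP (ha : a ∈ Q) : In Q z (m * a * m⁻¹) s := h.mz ▸ (in_of_mem ha).cj m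

theorem psiz (ha : a ∈ Q) (hs : a * s = s * a) : m * a * m⁻¹ * z = z * (m * a * m⁻¹) := by
  have e : a * (z * s) = z * s * a := (Commute.mul_right (h.lx.cent _ ha) hs :)
  conv_lhs => rw [← h.mzs]
  conv_rhs => rw [← h.mzs]
  calc _ = m * (a * (z * s)) * m⁻¹ := by group
    _ = _ := by rw [e]; group

theorem psis (ha : a ∈ Q) : m * a * m⁻¹ * s = s * (m * a * m⁻¹) := (h.psiP ha).cm h.lx

theorem psiS (hr : In Q z r s) (hz : r * z = z * r) : ∃ a ∈ Q, a * s = s * a ∧ m * a * m⁻¹ = r := by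
  have e1 : m⁻¹ * s * m⁻¹⁻¹ = z := by rw [← h.mz]; group
  have hq : m⁻¹ * r * m⁻¹⁻¹ ∈ Q := (e1 ▸ hr.cj m⁻¹).mem h.lx
  refine ⟨_, hq, ?_, by group⟩
  have e2 : s = m⁻¹ * (z * s) * m := by rw [← h.ms]; group
  have e3 : r * (z * s) = z * s * r := (Commute.mul_right hz (hr.cm h.lx) :)
  conv_lhs => rw [e2]
  conv_rhs => rw [e2]
  calc _ = m⁻¹ * (r * (z * s)) * m := by group
    _ = _ := by rw [e3]; group

variable [Finite G]

theorem zP : In Q z z s := (in_of_mem h.sQ).symm h.lx h.sP h.snz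

theorem vP (hu : Vm z s u) : In Q z u s := by
  rcases hu with rfl | rfl | rfl | rfl
  exacts [h.ss ▸ h.sP.mul h.lx h.sP, h.zP, h.sP, h.zP.mul h.lx h.sP]

theorem sq0 (hu : u ∈ Q) (hP : In Q z u s) : Q8 (p u) = 0 := by
  refine (h.co.sq hu).1 ((hP.sq h.lx).elim id fun e => ?_)
  rcases h.lx.mem_z.1 (h.lx.sq _ hu) with e' | e'
  · exact e'
  · exact absurd (e.symm.trans e') h.snz

theorem QP (hu : u ∈ Q) (hP : In Q z u s) : Vm z s u := by
  refine h.pv hu (by_contra fun n => ?_)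
  rw [not_or] at n
  obtain ⟨g, hg, e, e'⟩ := h.of.f4 _ (h.sq0 hu hP) ((h.perp hu).1 (hP.cm h.lx)) n.1 n.2
  obtain ⟨c, h1, h2, rfl⟩ := h.liftv hg e
  have := h.sq0 (mul_mem hu (h.lx.conj_mem h1 hu)) (hP.mul h.lx (hP.cj' h2))
  rw [h.co.mul hu (h.lx.conj_mem h1 hu), h.co.sg_act h1 hu, e'] at this
  exact one_ne_zero this

theorem kV (ha : a ∈ Q) (hs : a * s = s * a) (hr : In Q z r s) (hz : r * z = z * r) : Vm z s (r * a * r⁻¹ * a⁻¹) :=
  h.QP (mul_mem (h.lx.conj_mem hz ha) (inv_mem ha)) (by convert hr.mul h.lx (hr.inv.cj' hs) using 1; group)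

theorem eeB (hr : In Q z r s) (hz : r * z = z * r) : EE v (sg ρ r) := by
  refine ⟨by rw [← h.ps, ← h.co.sg_act hz h.sQ, hr.cm h.lx, mul_inv_cancel_right], fun w hw => ?_⟩
  obtain ⟨a, ha, rfl⟩ := h.co.surj w
  have := h.vp2 ha (h.kV ha ((h.perp ha).2 hw) hr hz)
  rwa [inv_mul_cancel_right, h.co.sg_act hz ha] at this

theorem eeA (ha : a ∈ Q) (hs : a * s = s * a) : EE v (sg ρ (m * a * m⁻¹)) := h.eeB (h.psiP ha) (h.psiz ha hs)

theorem pcb (hz : r * z = z * r) : p (b * r * b⁻¹ * r⁻¹) = (sg ρ r).1 (p b) + p b := by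
  have : b * r * b⁻¹ * r⁻¹ = b * (r * b⁻¹ * r⁻¹) := by group
  rw [this, h.co.mul h.bQ (h.lx.conj_mem hz (inv_mem h.bQ)), h.co.sg_act hz (inv_mem h.bQ), h.co.pinv h.bQ, add_comm]

theorem wpsi (ha : a ∈ Q) (hs : a * s = s * a) : (sg ρ (m * a * m⁻¹)).1 (p b) + p b = p a ∨
    (sg ρ (m * a * m⁻¹)).1 (p b) + p b = p a + v := by
  have hz := h.psiz ha hs
  have hP := h.psiP ha
  set r := m * a * m⁻¹ with hr
  have h1 : In Q z (b * m * a * (b * m)⁻¹ * a⁻¹) s := by convert h.cP.mul h.lx (h.cP.inv.cj' hs) using 1; group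
  have e1 : b * m * a * (b * m)⁻¹ * a⁻¹ = b * r * b⁻¹ * a⁻¹ := by rw [hr]; group
  rw [e1] at h1
  have z1 := cz_mul (cz_cj h.bz hz) (cz_inv (h.lx.cent _ ha))
  set r1 := b * r * b⁻¹ * a⁻¹ with hr1
  have a1 : b * r * b⁻¹ * r⁻¹ ∈ Q := by convert mul_mem h.bQ (h.lx.conj_mem hz (inv_mem h.bQ)) using 1; group
  have a2 := h.lx.conj_mem z1 ha
  have hV : Vm z s ((b * r * b⁻¹ * r⁻¹)⁻¹ * (r1 * a * r1⁻¹)) :=
    h.QP (mul_mem (inv_mem a1) a2) (by convert hP.mul h.lx h1.inv using 1; rw [hr1]; group)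
  have e2 := h.vp hV
  rw [h.co.mul (inv_mem a1) a2, h.co.pinv a1, h.pcb hz, h.co.sg_act z1 ha] at e2
  have e3 := (h.eeB h1 z1).2 _ ((h.perp ha).1 hs)
  generalize (sg ρ r).1 (p b) + p b = w at e2 ⊢
  rcases e3 with e3 | e3 <;> rw [e3] at e2 <;> rcases e2 with e2 | e2
  · exact .inl (weq.1 e2)
  · exact .inr (by rw [← e2, add_comm w, ← add_assoc, ww, zero_add])
  · exact .inr (weq.1 e2)
  · exact .inl (weq.1 (by rw [← add_assoc] at e2; simpa using e2))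

theorem wpol (ha : a ∈ Q) (hs : a * s = s * a) {w : W} (hw : polar Q8 w v = 0) :
    polar Q8 w ((sg ρ (m * a * m⁻¹)).1 (p b) + p b) = polar Q8 w (p a) := by
  rcases h.wpsi ha hs with e | e <;> rw [e]
  rw [polar_add_right, hw, add_zero]

theorem wq (ha : a ∈ Q) (hs : a * s = s * a) : Q8 ((sg ρ (m * a * m⁻¹)).1 (p b) + p b) = Q8 (p a) := by
  rcases h.wpsi ha hs with e | e <;> rw [e]
  rw [QuadraticMap.map_add Q8, h.hv, (h.perp ha).1 hs, add_zero, add_zero]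

theorem kp (ha : a ∈ Q) (hs : a * s = s * a) (ha' : a' ∈ Q) (hs' : a' * s = s * a') :
    p (m * a' * m⁻¹ * a * (m * a' * m⁻¹)⁻¹ * a⁻¹) = polar Q8 (p a) (p a') • v := by
  have hz := h.psiz ha' hs'
  rw [h.co.mul (h.lx.conj_mem hz ha) (inv_mem ha), h.co.pinv ha, h.co.sg_act hz ha,
    ee_val h.hv h.hβ (h.eeA ha' hs') ((h.perp ha).1 hs), h.wpol ha' hs' ((h.perp ha).1 hs), add_right_comm, ww, zero_add]

theorem dec (hz : c * z = z * c) (e : EE v (sg ρ c)) : ∃ q ∈ Q, ∃ a ∈ Q, a * s = s * a ∧ c = q * (m * a * m⁻¹) := by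
  obtain ⟨a, ha, e1⟩ := h.co.surj ((sg ρ c).1 (p b) + p b)
  have hs : a * s = s * a := (h.perp ha).2 (e1 ▸ ee_perp h.hv h.hβ e)
  have := ee_ext h.hv h.hβ (h.eeA ha hs) e (e1 ▸ h.wpsi ha hs)
  exact ⟨_, h.co.sg_quo hz (h.psiz ha hs) this.symm, a, ha, hs, by group⟩

end Cx

end Cfsg.Agent.CoT
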