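import Cfsg.Agent.CoT.G2

/-! Commutators and squares in `R`; the involutions of `C(z)`. -/

set_option autoImplicit false

namespace Cfsg.Agent.CoT

open Cfsg Cfsg.Agent.H10 Subgroup QuadraticMap

variable {G : Type*} [Group G]

/-- involutions of the second kind -/
def TB (Q : Subgroup G) (p : G → W) (v : W) (s m : G) (e : ZMod 2) (y : G) : Prop :=
  ∃ a ∈ Q, ∃ a' ∈ Q, a * s = s * a ∧ a' * s = s * a' ∧ AP v e (p a) (p a') ∧ y = a * (m * a' * m⁻¹)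

theorem Cg.symm {v x y : W} (h : Cg v x y) : Cg v y x :=
  h.imp Eq.symm fun e => by rw [e, add_assoc, ww, add_zero]

theorem Cg.trans {v x y w : W} (h : Cg v x y) (h' : Cg v y w) : Cg v x w := by
  rcases h with rfl | rfl
  · exact h'
  · rcases h' with rfl | rfl
    · exact .inr rfl
    · exact .inl (by rw [add_assoc, ww, add_zero])

theorem Cg.map {v x y : W} {g : O8} (h : Cg v x y) (e : g.1 v = v) : Cg v (g.1 x) (g.1 y) :=
  h.imp (congrArg _) fun e' => by rw [e', map_add, e]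

theorem cj_sq {y c : G} (h : y * y = 1) : c * y * c⁻¹ * (c * y * c⁻¹) = 1 := by
  calc _ = c * (y * y) * c⁻¹ := by group
    _ = _ := by rw [h]; group

theorem cj_cm {x y : G} (c : G) (h : x * y = y * x) : c * x * c⁻¹ * (c * y * c⁻¹) = c * y * c⁻¹ * (c * x * c⁻¹) := by
  calc _ = c * (x * y) * c⁻¹ := by group
    _ = _ := by rw [h]; group

namespace Cx
variable {z : G} {Q : Subgroup G} {ρ : centralizer ({z} : Set G) →* O8} {p : G → W} {v : W} {s b m a a' r u x y c t : G}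
  (h : Cx z Q ρ p v s b m) [Finite G]
include h

theorem psi2 (ha : a ∈ Q) (hs : a * s = s * a) :
    ∃ u, Vm z s u ∧ m * (m * a * m⁻¹) * m⁻¹ = u * a * (m * a * m⁻¹) := by
  have hz := h.psiz ha hs
  have hP := h.psiP ha
  have w := h.wpsi ha hs
  set r := m * a * m⁻¹ with hr
  have a1 : b⁻¹ * r * b * r⁻¹ ∈ Q := by convert mul_mem (inv_mem h.bQ) (h.lx.conj_mem hz h.bQ) using 1; group
  have p1 : p (b⁻¹ * r * b * r⁻¹) = (sg ρ r).1 (p b) + p b := by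
    have : b⁻¹ * r * b * r⁻¹ = b⁻¹ * (r * b * r⁻¹) := by group
    rw [this, h.co.mul (inv_mem h.bQ) (h.lx.conj_mem hz h.bQ), h.co.sg_act hz h.bQ, h.co.pinv h.bQ, add_comm]
  have e0 : m * r * m⁻¹ = b⁻¹ * (b * m * r) * (b * m)⁻¹ * b := by group
  rcases h.cP.cor h.lx hP with e | e
  · exact ⟨_, h.pv2 a1 ha (p1 ▸ w), by rw [e0, e]; group⟩
  · have a2 := mul_mem (mul_mem h.lx.mem h.sQ) a1
    refine ⟨_, h.pv2 a2 ha ?_, by rw [e0, e, ← h.bs']; group⟩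
    rw [h.co.mul (mul_mem h.lx.mem h.sQ) a1, h.pzs, p1]
    rcases w with w | w <;> rw [w]
    · exact .inr (add_comm _ _)
    · exact .inl (by rw [add_comm, add_assoc, ww, add_zero])

theorem pss (ha : a ∈ Q) (ha' : a' ∈ Q) : ∃ y, Vm z s y ∧ p y = polar Q8 (p a) (p a') • v ∧
    m * a * m⁻¹ * (m * a' * m⁻¹) = y * (m * a' * m⁻¹ * (m * a * m⁻¹)) := by
  have e0 : m * a * m⁻¹ * (m * a' * m⁻¹) = m * (a * a') * m⁻¹ := by group
  rcases z2 (polar Q8 (p a) (p a')) with e | e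
  · exact ⟨1, .inl rfl, by rw [e, zero_smul, h.co.p1], by rw [e0, (h.co.cm ha ha').2 e]; group⟩
  · exact ⟨s, .inr (.inr (.inl rfl)), by rw [e, one_smul, h.ps], by rw [e0, h.co.ncm ha ha' e, ← h.mz]; group⟩

theorem kk (ha : a ∈ Q) (hs : a * s = s * a) (ha' : a' ∈ Q) (hs' : a' * s = s * a') :
    m * a' * m⁻¹ * a * (m * a' * m⁻¹)⁻¹ * a⁻¹ = 1 ∨ m * a' * m⁻¹ * a * (m * a' * m⁻¹)⁻¹ * a⁻¹ = z * s := by
  obtain ⟨u, hu, e1⟩ := h.psi2 ha' hs'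
  obtain ⟨y, hy, py, e2⟩ := h.pss ha ha'
  have hx := h.kV ha' hs' (h.psiP ha) (h.psiz ha hs)
  have px := h.kp ha' hs' ha hs
  have c1 := hu.cm (h.psiz ha hs) (h.psis ha)
  have c2 := hy.cm (h.lx.cent _ ha') hs'
  have key : (m * (m * a' * m⁻¹ * a * (m * a' * m⁻¹)⁻¹ * a⁻¹) * m⁻¹)⁻¹ =
      u * ((m * a * m⁻¹ * a' * (m * a * m⁻¹)⁻¹ * a'⁻¹) * y) * u⁻¹ := by
    have e3 : (m * (m * a' * m⁻¹ * a * (m * a' * m⁻¹)⁻¹ * a⁻¹) * m⁻¹)⁻¹ =
      m * a * m⁻¹ * (m * (m * a' * m⁻¹) * m⁻¹) * (m * a * m⁻¹)⁻¹ * (m * (m * a' * m⁻¹) * m⁻¹)⁻¹ := by group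
    rw [e3, e1]
    generalize m * a * m⁻¹ = r at *
    generalize m * a' * m⁻¹ = r' at *
    calc _ = r * u * a' * r⁻¹ * (r * r') * r⁻¹ * r'⁻¹ * a'⁻¹ * u⁻¹ := by group
      _ = u * r * a' * r⁻¹ * a'⁻¹ * (a' * y) * a'⁻¹ * u⁻¹ := by rw [c1, e2]; group
      _ = _ := by rw [c2]; group
  have q1 := mul_mem (h.vQ hx) (h.vQ hy)
  have p0 := h.co.sg_act (h.lx.cent _ (h.vQ hu)) q1
  rw [h.co.sg_Q (h.vQ hu), H13.OG_one_apply, h.co.mul (h.vQ hx) (h.vQ hy), px, py, polar_comm, ww, ← key] at p0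
  have q2 := key ▸ h.lx.conj_mem (h.lx.cent _ (h.vQ hu)) q1
  generalize m * a' * m⁻¹ * a * (m * a' * m⁻¹)⁻¹ * a⁻¹ = k at *
  rcases h.lx.mem_z.1 ((h.co.zero q2).1 p0) with e | e
  · left; rw [inv_eq_one] at e; simpa using e
  · right
    rw [inv_eq_iff_eq_inv, h.lx.inv_z, ← h.mzs] at e
    simpa using e

theorem k0 (ha : a ∈ Q) (hs : a * s = s * a) (ha' : a' ∈ Q) (hs' : a' * s = s * a') (e : polar Q8 (p a) (p a') = 0) :
    m * a' * m⁻¹ * a = a * (m * a' * m⁻¹) := by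
  have e1 := h.kp ha hs ha' hs'
  rcases h.kk ha hs ha' hs' with k | k
  · rwa [mul_inv_eq_one, mul_inv_eq_iff_eq_mul] at k
  · rw [k, h.pzs, e, zero_smul] at e1; exact absurd e1 h.of.v0.1

theorem k1 (ha : a ∈ Q) (hs : a * s = s * a) (ha' : a' ∈ Q) (hs' : a' * s = s * a') (e : polar Q8 (p a) (p a') = 1) :
    m * a' * m⁻¹ * a = z * s * a * (m * a' * m⁻¹) := by
  have e1 := h.kp ha hs ha' hs'
  rcases h.kk ha hs ha' hs' with k | k
  · rw [k, h.co.p1, e, one_smul] at e1; exact absurd e1.symm h.of.v0.1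
  · rwa [mul_inv_eq_iff_eq_mul, mul_inv_eq_iff_eq_mul] at k

/-- the square of `a ψ(a')` -/
theorem sqR (ha : a ∈ Q) (hs : a * s = s * a) (ha' : a' ∈ Q) (hs' : a' * s = s * a') :
    ∃ k, (polar Q8 (p a) (p a') = 0 ∧ k = 1 ∨ polar Q8 (p a) (p a') = 1 ∧ k = z * s) ∧
      a * (m * a' * m⁻¹) * (a * (m * a' * m⁻¹)) = k * (a * a) * (m * (a' * a') * m⁻¹) := by
  have e0 : a * (m * a' * m⁻¹) * (a * (m * a' * m⁻¹)) = a * (m * a' * m⁻¹ * a) * (m * a' * m⁻¹) := by group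
  rcases z2 (polar Q8 (p a) (p a')) with e | e
  · exact ⟨1, .inl ⟨e, rfl⟩, by rw [e0, h.k0 ha hs ha' hs' e]; group⟩
  · have c : a * (z * s) = z * s * a := (Commute.mul_right (h.lx.cent _ ha) hs :)
    refine ⟨_, .inr ⟨e, rfl⟩, ?_⟩
    rw [e0, h.k1 ha hs ha' hs' e]
    calc _ = a * (z * s) * a * (m * (a' * a') * m⁻¹) := by group
      _ = _ := by rw [c]; group

omit [Finite G] in
theorem sq1 (ha : a ∈ Q) : Q8 (p a) = 0 ∧ a * a = 1 ∨ Q8 (p a) = 1 ∧ a * a = z :=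
  (z2 _).imp (fun e => ⟨e, (h.co.sq ha).2 e⟩) fun e => ⟨e, h.co.sqz ha e⟩

omit [Finite G] in
theorem sq2 (ha : a ∈ Q) : Q8 (p a) = 0 ∧ m * (a * a) * m⁻¹ = 1 ∨ Q8 (p a) = 1 ∧ m * (a * a) * m⁻¹ = s :=
  (h.sq1 ha).imp (fun e => ⟨e.1, by rw [e.2]; group⟩) fun e => ⟨e.1, by rw [e.2, h.mz]⟩

theorem sqV (ha : a ∈ Q) (hs : a * s = s * a) (ha' : a' ∈ Q) (hs' : a' * s = s * a') :
    Vm z s (a * (m * a' * m⁻¹) * (a * (m * a' * m⁻¹))) := by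
  obtain ⟨k, hk, e⟩ := h.sqR ha hs ha' hs'
  have v1 : Vm z s k := hk.elim (fun e => .inl e.2) fun e => .inr (.inr (.inr e.2))
  have v2 : Vm z s (a * a) := (h.sq1 ha).elim (fun e => .inl e.2) fun e => .inr (.inl e.2)
  have v3 : Vm z s (m * (a' * a') * m⁻¹) := (h.sq2 ha').elim (fun e => .inl e.2) fun e => .inr (.inr (.inl e.2))
  rw [e]
  exact h.QP (mul_mem (mul_mem (h.vQ v1) (h.vQ v2)) (h.vQ v3)) (((h.vP v1).mul h.lx (h.vP v2)).mul h.lx (h.vP v3))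

theorem sqI (ha : a ∈ Q) (hs : a * s = s * a) (ha' : a' ∈ Q) (hs' : a' * s = s * a')
    (e1 : a * (m * a' * m⁻¹) * (a * (m * a' * m⁻¹)) = 1) :
    Q8 (p a) = polar Q8 (p a) (p a') ∧ Q8 (p a') = polar Q8 (p a) (p a') := by
  obtain ⟨k, hk, e⟩ := h.sqR ha hs ha' hs'
  rw [e] at e1
  have n1 := h.lx.ne_one
  have n2 := h.cP.ne h.lx
  have n3 : z * s ≠ 1 := fun e => h.snz (by rw [← h.lx.inv_z]; exact (inv_eq_of_mul_eq_one_right e).symm)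
  have zsz : z * s * z = s := by rw [mul_assoc, h.sz, ← mul_assoc, h.zz, one_mul]
  rcases hk with ⟨f1, rfl⟩ | ⟨f1, rfl⟩ <;> rcases h.sq1 ha with ⟨f2, g2⟩ | ⟨f2, g2⟩ <;>
    rcases h.sq2 ha' with ⟨f3, g3⟩ | ⟨f3, g3⟩ <;> rw [g2, g3] at e1 <;> rw [f1, f2, f3] <;>
    simp only [mul_one, one_mul, zsz, mul_assoc z s s, h.ss] at e1 <;> first | exact ⟨rfl, rfl⟩ | contradiction

theorem inzs (ha : a ∈ Q) (hs : a * s = s * a) (ha' : a' ∈ Q) (hs' : a' * s = s * a') (e : p a = p a' ∨ p a = p a' + v) :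
    In Q z (a * (m * a' * m⁻¹)) (z * s) := by
  obtain ⟨u, hu, e1⟩ := h.psi2 ha' hs'
  have i1 : In Q z (u * a' * (m * a' * m⁻¹)) (z * s) := e1 ▸ h.ms ▸ (h.psiP ha').cj m
  have v1 := h.pv2 ha ha' e
  have vz : ∀ u, Vm z s u → In Q z u (z * s) := fun u hu => by
    have e2 : b * (b⁻¹ * u * b) * b⁻¹ = u := by group
    have : Vm z s (b⁻¹ * u * b) := h.pv (by simpa using h.lx.conj_mem (cz_inv h.bz) (h.vQ hu)) (by
      have := h.co.sg_act (cz_inv h.bz) (h.vQ hu)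
      rw [h.co.sg_Q (inv_mem h.bQ), H13.OG_one_apply, inv_inv] at this
      exact this ▸ h.vp hu)
    exact e2 ▸ h.bs ▸ (h.vP this).cj b
  convert ((vz _ v1).mul h.lx ((vz _ hu).inv)).mul h.lx i1 using 1; group

theorem clsA (ha : a ∈ Q) (hs : a * s = s * a) (ha' : a' ∈ Q) (hs' : a' * s = s * a')
    (h3 : a * (m * a' * m⁻¹) * (a * (m * a' * m⁻¹)) = 1) :
    Cg v (p a) 0 ∨ Cg v (p a') 0 ∨ Cg v (p a) (p a') ∨ ∃ e, TB Q p v s m e (a * (m * a' * m⁻¹)) := by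
  obtain ⟨f1, f2⟩ := h.sqI ha hs ha' hs' h3
  by_contra! n
  exact n.2.2.2 _ ⟨a, ha, a', ha', hs, hs', ⟨(h.perp ha).1 hs, (h.perp ha').1 hs', f1, f2, rfl, n.1, n.2.1, n.2.2.1⟩, rfl⟩

omit [Finite G] in
theorem psiV (hu : Vm z s u) : m * u * m⁻¹ ∈ Q := by
  rcases hu with e | e | e | e <;> rw [e]
  · simp
  · exact h.mz ▸ h.sQ
  · exact h.ms ▸ mul_mem h.lx.mem h.sQ
  · exact h.mzs.symm ▸ h.lx.mem

theorem clsE (hz : y * z = z * y) (h3 : y * y = 1) (e : EE v (sg ρ y)) :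
    In Q z y z ∨ In Q z y s ∨ In Q z y (z * s) ∨ ∃ e, TB Q p v s m e y := by
  obtain ⟨a, ha, a', ha', hs', e1⟩ := h.dec hz e
  rw [e1] at h3 ⊢
  have rz := h.psiz ha' hs'
  rcases z2 (polar Q8 (p a) v) with e2 | e2
  · have hs := (h.perp ha).2 e2
    rcases h.clsA ha hs ha' hs' h3 with e | e | e | e
    · exact .inr (.inl ((h.vP (h.pv ha (by simpa [Cg] using e))).mul h.lx (h.psiP ha')))
    · exact .inl (in_of_mem (mul_mem ha (h.psiV (h.pv ha' (by simpa [Cg] using e)))))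
    · exact .inr (.inr (.inl (h.inzs ha hs ha' hs' e)))
    · exact .inr (.inr (.inr e))
  · left
    refine in_of_mem (mul_mem ha ((h.co.sg_one rz).1 ?_))
    have ee := h.eeA ha' hs'
    have v3 : Vm z s (m * (a' * a') * m⁻¹) := (h.sq2 ha').elim (fun e => .inl e.2) fun e => .inr (.inr (.inl e.2))
    have e4 : m * (a' * a') * m⁻¹ = (a * (m * a' * m⁻¹ * a * (m * a' * m⁻¹)⁻¹))⁻¹ := by
      rw [eq_inv_iff_mul_eq_one, mul_eq_one_comm, ← h3]; group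
    have e5 := h.vp v3
    rw [e4, h.co.pinv (mul_mem ha (h.lx.conj_mem rz ha)), h.co.mul ha (h.lx.conj_mem rz ha), h.co.sg_act rz ha, add_comm] at e5
    refine ee_ext h.hv h.hβ ee ee_one ?_
    rw [H13.OG_one_apply, ww, zero_add]
    rcases ee_im h.hv h.hβ ee e2 with e6 | e6 <;> rw [e6] at e5
    · exact e5
    · exact e5.symm.imp (fun e => by simpa using e) weq.1

theorem in_conj (hy : In Q z y t) (h2 : y * y = 1) (h1 : y ≠ 1) : IsConj y z := by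
  obtain ⟨k, -, hk⟩ := hy
  rw [isConj_iff]
  by_cases e : k⁻¹ * y * k = z
  · exact ⟨k⁻¹, by rw [inv_inv, e]⟩
  · obtain ⟨c, -, e'⟩ := toS h.co h.of h.sQ h.ps hk (by simpa using cj_sq (c := k⁻¹) h2)
      (fun e => h1 (by rw [show y = k * (k⁻¹ * y * k) * k⁻¹ by group, e]; group)) e
    refine ⟨m⁻¹ * c * k⁻¹, ?_⟩
    calc _ = m⁻¹ * (c * (k⁻¹ * y * k) * c⁻¹) * m := by group
      _ = _ := by rw [e', ← h.mz]; group

omit [Finite G] in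
theorem cv (hz : c * z = z * c) (hs : c * s = s * c) : (sg ρ c).1 v = v := by
  rw [← h.ps, ← h.co.sg_act hz h.sQ, hs, mul_inv_cancel_right]

theorem vmul (hu : Vm z s u) (hx : Vm z s x) : Vm z s (u * x) :=
  h.QP (mul_mem (h.vQ hu) (h.vQ hx)) ((h.vP hu).mul h.lx (h.vP hx))

theorem cjw (hz : c * z = z * c) (hs : c * s = s * c) (ha : a ∈ Q) (has : a * s = s * a) :
    Cg v ((sg ρ (c * (m * a * m⁻¹) * c⁻¹)).1 (p b) + p b) ((sg ρ c).1 (p a)) := by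
  rw [sg_cj hz (h.psiz ha has)]
  exact Cg.trans (ee_conj h.hv h.hβ (h.eeA ha has) (h.cv hz hs)).2 (Cg.map (h.wpsi ha has) (h.cv hz hs))

omit [Finite G] in
theorem tb_z {e : ZMod 2} (hy : TB Q p v s m e y) : y * z = z * y := by
  obtain ⟨a, ha, a', ha', hs, hs', -, rfl⟩ := hy
  exact cz_mul (h.lx.cent _ ha) (h.psiz ha' hs')

omit [Finite G] in
theorem tb_s {e : ZMod 2} (hy : TB Q p v s m e y) : y * s = s * y := by
  obtain ⟨a, ha, a', ha', hs, hs', -, rfl⟩ := hy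
  exact cz_mul hs (h.psis ha')

theorem tb_2 {e : ZMod 2} (hy : TB Q p v s m e y) : y * y = 1 := by
  obtain ⟨a, ha, a', ha', hs, hs', ⟨-, -, e1, e2, e0, -⟩, rfl⟩ := hy
  obtain ⟨k, ⟨f, rfl⟩ | ⟨f, rfl⟩, e3⟩ := h.sqR ha hs ha' hs' <;> rw [← e0, f] at e1 e2
  · rw [e3, (h.co.sq ha).2 e1, (h.co.sq ha').2 e2]; group
  · rw [e3, h.co.sqz ha e1, h.co.sqz ha' e2, h.mz, mul_assoc z, h.sz, ← mul_assoc, h.zz, one_mul, h.ss]

omit [Finite G] in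
theorem sg_tb (ha : a ∈ Q) (ha' : a' ∈ Q) (hs' : a' * s = s * a') : sg ρ (a * (m * a' * m⁻¹)) = sg ρ (m * a' * m⁻¹) := by
  rw [sg_mul (h.lx.cent _ ha) (h.psiz ha' hs'), h.co.sg_Q ha, one_mul]

end Cx

end Cfsg.Agent.CoT
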