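import Cfsg.Agent.CoT.L
import Cfsg.Agent.H13.Spinor

/-! Involutions of rank four in `Ω₈⁺(2)` whose commutator space on `v^⊥` is totally singular. -/

set_option autoImplicit false

namespace Cfsg.Agent.CoT

open Cfsg Cfsg.Agent.H10 Subgroup QuadraticMap Module PL

namespace I3

theorem nd : H13.ND Q8 := H13.nd_QPlus
theorem good : H13.Good Q8 := .inr (.inl (by simp))
theorem ps (x : W) : polar Q8 x x = 0 := by rw [H13.polar_self', show (2 : ZMod 2) = 0 from rfl, zero_mul]
theorem rf {a : W} (ha : Q8 a = 1) (x : W) : (H13.refl Q8 a).1 x = x + polar Q8 a x • a := by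
  rw [H13.refl_apply, ha, inv_one, mul_one, sub_eq_add_neg, neg_eq_of_add_eq_zero_left (xx _)]
theorem idx : Ω.index = 2 := nd.index_commutator_even good rfl (by simp)
theorem rn {n : W} (h : Q8 n = 1) : H13.refl Q8 n ∉ Ω := by
  rw [nd.mem_commutator_iff_two good rfl, nd.rk_refl (by simp [h])]; decide

/-- `g + 1` -/
def N (g : O8) (x : W) : W := g.1 x + x

variable {g g' : O8} {v x y : W}

theorem Nadd (g : O8) (x y : W) : N g (x + y) = N g x + N g y := by
  simp only [N, map_add]; abel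
theorem Nsm (g : O8) (c : ZMod 2) (x : W) : N g (c • x) = c • N g x := by
  simp only [N, map_smul, smul_add]
theorem N0 : N g x = 0 ↔ g.1 x = x := by
  rw [N, add_eq_zero_iff_eq_neg, neg_eq_of_add_eq_zero_left (xx x)]
theorem yy (h2 : g * g = 1) (x : W) : g.1 (g.1 x) = x := by rw [← H13.OG_mul_apply, h2]; rfl
theorem NN (h2 : g * g = 1) (x : W) : N g (N g x) = 0 := by
  rw [N0, N, map_add, yy h2, add_comm]
theorem sy (h2 : g * g = 1) (x z : W) : polar Q8 (N g x) z = polar Q8 x (N g z) := by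
  rw [N, N, pl, pr, ← H13.OG_polar g (g.1 x), yy h2]
theorem qN (g : O8) (x : W) : Q8 (N g x) = polar Q8 x (N g x) := (qw g x).trans (pc _ _)
theorem iso (h2 : g * g = 1) (x z : W) : polar Q8 (N g x) (N g z) = 0 := by
  rw [sy h2, NN h2, polar_zero_right]
theorem Nv (h2 : g * g = 1) (hv : g.1 v = v) (x : W) : polar Q8 (N g x) v = 0 := by
  rw [sy h2, N0.2 hv, polar_zero_right]
theorem pre (r : R4 g) (hv : g.1 v = v) (q : Q8 v = 0) : ∃ y, v = N g y ∧ polar Q8 y v = 0 := by
  obtain ⟨y, e⟩ := r v hv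
  have e' : v = N g y := e
  exact ⟨y, e', by rw [e', ← qN, ← e', q]⟩

theorem key (h2 : g * g = 1) (r : R4 g) (hv : g.1 v = v) (q : Q8 v = 0) (hx : polar Q8 x v = 1) (hy : polar Q8 y v = 0)
    (c : Cg v (N g x) (N g y)) : False := by
  have k : ∀ y, polar Q8 y v = 0 → N g x ≠ N g y := fun y hy e => by
    obtain ⟨z, hz⟩ := r (x + y) (N0.1 (by rw [Nadd, e, xx]))
    have := Nv h2 hv z
    rw [N, ← hz, pl, hx, hy] at this
    exact absurd this (by decide)
  rcases c with c | c
  · exact k y hy c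
  · obtain ⟨y', e, p⟩ := pre r hv q
    exact k (y + y') (by rw [pl, hy, p, add_zero]) (by rw [Nadd, ← e, c])

theorem cgN (h : Ag v g g') (hx : polar Q8 x v = 0) : Cg v (N g x) (N g' x) :=
  (h.2.2 x hx).imp (fun e => by rw [N, N, e]) fun e => by rw [N, N, e]; abel

theorem cg_trans {a b c : W} (h1 : Cg v a b) (h2 : Cg v b c) : Cg v a c := by
  rcases h1 with rfl | rfl <;> rcases h2 with rfl | rfl
  exacts [.inl rfl, .inr rfl, .inr rfl, .inl (cancel _ _)]

theorem q0 : Q8 vv = 0 := by decide +kernel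

theorem rad {a : W} (h : ∀ x, polar Q8 x vv = 0 → polar Q8 x a = 0) : a = 0 ∨ a = vv := by
  have h0 : polar Q8 (Pi.single (Sum.inr 0) 1 : W) vv = 1 := by decide +kernel
  generalize (Pi.single (Sum.inr 0) 1 : W) = b at h0
  have k : ∀ a, (∀ x, polar Q8 x vv = 0 → polar Q8 x a = 0) → polar Q8 b a = 0 → a = 0 := fun a h e =>
    nd a fun x => (z2 (polar Q8 x vv)).elim (fun e1 => by rw [pc, h x e1]) fun e1 => by
      have := h _ (pb h0 e1)
      rwa [pl, e, add_zero, pc] at this
  refine (z2 (polar Q8 b a)).imp (k a h) fun e => ?_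
  have := k (a + vv) (fun x hx => by rw [pr, h x hx, hx, add_zero]) (by rw [pr, e, h0, rr])
  rw [← cancel a vv, this, zero_add]

theorem ex (h2 : g * g = 1) (r : R4 g) (hv : g.1 vv = vv) :
    ∃ a b, polar Q8 a vv = 0 ∧ polar Q8 b vv = 0 ∧ polar Q8 a (N g b) = 1 := by
  by_contra! hc
  obtain ⟨y', e, p⟩ := pre r hv q0
  have k : ∀ x, polar Q8 x vv = 0 → ∃ c : ZMod 2, ∃ z, x + c • y' = N g z := fun x hx => by
    rcases rad (a := N g x) (fun a ha => (z2 _).resolve_right (hc a x ha hx)) with t | t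
    · obtain ⟨z, hz⟩ := r x (N0.1 t)
      exact ⟨0, z, by rw [zero_smul, add_zero]; exact hz⟩
    · obtain ⟨z, hz⟩ := r (x + y') (N0.1 (by rw [Nadd, t, ← e, xx]))
      exact ⟨1, z, by rw [one_smul]; exact hz⟩
  have m : ∀ {x x' z z' : W} {c c' : ZMod 2}, x + c • y' = N g z → x' + c' • y' = N g z' →
      polar Q8 x x' + c' * polar Q8 x y' + c * polar Q8 x' y' = 0 := fun {x x' z z' c c'} e1 e2 => by
    have := iso h2 z z'
    rw [← e1, ← e2, pl, pr, pr, polar_smul_left, polar_smul_right, polar_smul_left, polar_smul_right, ps, pc y' x'] at this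
    simpa using this
  obtain ⟨c1, z1, e1⟩ := k (Pi.single (Sum.inl 1) 1) (by decide +kernel)
  obtain ⟨c2, z2, e2⟩ := k (Pi.single (Sum.inr 1) 1) (by decide +kernel)
  obtain ⟨c3, z3, e3⟩ := k (Pi.single (Sum.inl 2) 1) (by decide +kernel)
  obtain ⟨c4, z4, e4⟩ := k (Pi.single (Sum.inr 2) 1) (by decide +kernel)
  have m12 := m e1 e2
  have m34 := m e3 e4
  have m13 := m e1 e3
  have m14 := m e1 e4
  have m23 := m e2 e3
  have m24 := m e2 e4
  rw [show polar Q8 (Pi.single (Sum.inl 1) 1 : W) (Pi.single (Sum.inr 1) 1) = 1 by decide +kernel] at m12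
  rw [show polar Q8 (Pi.single (Sum.inl 2) 1 : W) (Pi.single (Sum.inr 2) 1) = 1 by decide +kernel] at m34
  rw [show polar Q8 (Pi.single (Sum.inl 1) 1 : W) (Pi.single (Sum.inl 2) 1) = 0 by decide +kernel] at m13
  rw [show polar Q8 (Pi.single (Sum.inl 1) 1 : W) (Pi.single (Sum.inr 2) 1) = 0 by decide +kernel] at m14
  rw [show polar Q8 (Pi.single (Sum.inr 1) 1 : W) (Pi.single (Sum.inl 2) 1) = 0 by decide +kernel] at m23
  rw [show polar Q8 (Pi.single (Sum.inr 1) 1 : W) (Pi.single (Sum.inr 2) 1) = 0 by decide +kernel] at m24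
  revert m12 m34 m13 m14 m23 m24
  generalize polar Q8 (Pi.single (Sum.inl 1) 1 : W) y' = d1
  generalize polar Q8 (Pi.single (Sum.inr 1) 1 : W) y' = d2
  generalize polar Q8 (Pi.single (Sum.inl 2) 1 : W) y' = d3
  generalize polar Q8 (Pi.single (Sum.inr 2) 1 : W) y' = d4
  clear e1 e2 e3 e4
  revert c1 c2 c3 c4 d1 d2 d3 d4
  decide +kernel

theorem sub1 (g : O8) (x : W) : H13.subOne g x = N g x := by
  rw [H13.subOne_apply, sub_eq_add_neg, neg_eq_of_add_eq_zero_left (xx _), N]

theorem rk4 (h2 : g * g = 1) : H13.rk g ≤ 4 := by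
  have e2 := H13.rk_add_finrank_fixS g
  have e3 : H13.rk g ≤ finrank (ZMod 2) (H13.fixS g) := Submodule.finrank_mono (by
    rintro _ ⟨x, rfl⟩
    exact H13.mem_fixS.2 (by rw [sub1]; exact N0.1 (NN h2 x)))
  rw [show finrank (ZMod 2) W = 8 by simp] at e2
  omega

theorem two {n a b : W} (h2 : g * g = 1) (r : R4 g) (hv : g.1 vv = vv) (su : SU vv g) (qn : Q8 n = 1) (gn : g.1 n = n)
    (ha : polar Q8 a vv = 0) (hb : polar Q8 b vv = 0) (ab : polar Q8 a (N g b) = 1) (hx : polar Q8 x vv = 0)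
    (xa : polar Q8 a (N g x) = 0) (xb : polar Q8 b (N g x) = 0) : N g x = 0 ∨ N g x = vv := by
  by_contra! hc
  obtain ⟨y', e, p⟩ := pre r hv q0
  obtain ⟨m, hm⟩ := r n gn
  have hm' : n = N g m := hm
  let f : Fin 5 → LinearMap.range (H13.subOne g) := fun i => ⟨_, ![m, y', a, b, x] i, rfl⟩
  have li : LinearIndependent (ZMod 2) f := by
    refine Fintype.linearIndependent_iff.2 fun c hc' => ?_
    have h0 := congrArg Subtype.val hc'
    simp only [f, Fin.sum_univ_five, Submodule.coe_add, Submodule.coe_smul, Matrix.cons_val, sub1, ZeroMemClass.coe_zero,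
      ← hm', ← e] at h0
    have h1 : c 0 • n = N g (c 1 • y' + c 2 • a + c 3 • b + c 4 • x) := by
      rw [Nadd, Nadd, Nadd, Nsm, Nsm, Nsm, Nsm, ← e]
      refine add_right_cancel (b := c 1 • vv + c 2 • N g a + c 3 • N g b + c 4 • N g x) ?_
      rw [xx, ← h0]; abel
    have c0 : c 0 = 0 := by
      have := su (c 1 • y' + c 2 • a + c 3 • b + c 4 • x) (by
        rw [pl, pl, pl, polar_smul_left, polar_smul_left, polar_smul_left, polar_smul_left, p, ha, hb, hx]; simp)
      change Q8 (N g _) = 0 at this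
      rw [← h1] at this
      refine (z2 _).resolve_right fun t => ?_
      rw [t, one_smul, qn] at this
      exact one_ne_zero this
    have aa : polar Q8 a (N g a) = 0 := (qN g a).symm.trans (su a ha)
    have bb : polar Q8 b (N g b) = 0 := (qN g b).symm.trans (su b hb)
    have ba : polar Q8 b (N g a) = 1 := by rw [← sy h2, pc, ab]
    rw [c0, zero_smul, zero_add] at h0
    have e1 := congrArg (polar Q8 a) h0
    have e2 := congrArg (polar Q8 b) h0
    simp only [pr, polar_smul_right, ha, hb, aa, bb, ab, ba, xa, xb, polar_zero_right, smul_eq_mul, mul_zero, mul_one, zero_add,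
      add_zero] at e1 e2
    rw [e1, e2, zero_smul, zero_smul, add_zero, add_zero] at h0
    have v0 : vv ≠ 0 := by decide +kernel
    have c14 : c 1 = 0 ∧ c 4 = 0 := by
      rcases z2 (c 1) with t | t <;> rcases z2 (c 4) with t' | t' <;> rw [t, t'] at h0
      · exact ⟨t, t'⟩
      · exact absurd (by simpa using h0) hc.1
      · exact absurd (by simpa using h0) v0
      · rw [one_smul, one_smul] at h0
        exact absurd (by rw [← cancel (N g x) vv, add_comm (N g x), h0, zero_add]) hc.2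
    intro i
    fin_cases i
    exacts [c0, c14.1, e2, e1, c14.2]
  have := li.fintype_card_le_finrank.trans (rk4 h2)
  simp at this

theorem prod_apply {n u : W} (qn : Q8 n = 1) (qu : Q8 u = 0) (nu : polar Q8 n u = 0) (x : W) :
    (H13.refl Q8 n * H13.refl Q8 (n + u)).1 x = x + polar Q8 u x • n + (polar Q8 n x + polar Q8 u x) • u := by
  have q' : Q8 (n + u) = 1 := by rw [qadd, qn, qu, nu]; rfl
  rw [H13.OG_mul_apply, rf qn, rf q', pr, polar_smul_right, pr, ps, nu, pl]
  have := xx (polar Q8 n x • n)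
  linear_combination (norm := module) this

theorem sw {n u a : W} (nv : polar Q8 n vv = 0) (qn : Q8 n = 1) (qu : Q8 u = 0) (nu : polar Q8 n u = 0) (uv : polar Q8 u vv = 0)
    (ha : polar Q8 a vv = 0) (au : polar Q8 a u = 1) : SW vv n (H13.refl Q8 n * H13.refl Q8 (n + u)) := by
  have q' : Q8 (n + u) = 1 := by rw [qadd, qn, qu, nu]; rfl
  have un : polar Q8 u n = 0 := (pc _ _).trans nu
  have ap := prod_apply qn qu nu
  refine ⟨(mul_mem_iff_of_index_two idx).2 (iff_of_false (rn qn) (rn q')), by rw [ap]; simp [nv, uv], ?_,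
    .inl (by rw [ap, un, ps]; simp), ?_⟩
  · have : H13.refl Q8 n * H13.refl Q8 (n + u) * (H13.refl Q8 n * H13.refl Q8 (n + u)) = 1 := H13.OG_ext fun x => by
      rw [H13.OG_mul_apply, ap, ap, H13.OG_one_apply]
      simp only [pr, polar_smul_right, ps, nu, un, smul_zero, add_zero]
      have h1 := xx (polar Q8 u x • n)
      have h2 := xx ((polar Q8 n x + polar Q8 u x) • u)
      linear_combination (norm := module) h1 + h2
    rw [this]
    exact ee_one
  · obtain ⟨x, x1, x2, x3⟩ : ∃ x, polar Q8 x vv = 0 ∧ polar Q8 x n = 1 ∧ polar Q8 x u = 1 := by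
      obtain ⟨b, b1, b2⟩ : ∃ b, polar Q8 b vv = 0 ∧ polar Q8 b n = 1 := by
        by_contra! hc
        rcases rad (a := n) (fun x hx => (z2 _).resolve_right (hc x hx)) with t | t <;> rw [t] at qn
        · simp at qn
        · exact absurd (q0.symm.trans qn) (by decide)
      rcases z2 (polar Q8 b u) with t | t
      · rcases z2 (polar Q8 a n) with s | s
        · exact ⟨a + b, by rw [pl, ha, b1, add_zero], by rw [pl, s, b2, zero_add], by rw [pl, au, t, add_zero]⟩
        · exact ⟨a, ha, s, au⟩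
      · exact ⟨b, b1, b2, t⟩
    exact ⟨x, x1, x2, .inl (by rw [ap, pc u, pc n, x2, x3, rr, one_smul, zero_smul, add_zero])⟩

end I3

open I3

theorem f10 : ∀ y ∈ Ω, y * y = 1 → R4 y → y.1 vv = vv → SU vv y → ∀ n, polar Q8 n vv = 0 → Q8 n = 1 → y.1 n = n →
    ∃ g1 g2 g3, SW vv n g1 ∧ SW vv n g2 ∧ SW vv n g3 ∧ EE vv ((g1 * g2 * g3)⁻¹ * y) := by
  intro g _ h2 r hv su n nv qn gn
  obtain ⟨a, b, ha, hb, ab⟩ := ex h2 r hv
  have aa : polar Q8 a (N g a) = 0 := (qN g a).symm.trans (su a ha)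
  have bb : polar Q8 b (N g b) = 0 := (qN g b).symm.trans (su b hb)
  have ba : polar Q8 b (N g a) = 1 := by rw [← sy h2, pc, ab]
  have nu : ∀ z, polar Q8 n (N g z) = 0 := fun z => by rw [← sy h2, N0.2 gn, polar_zero_left]
  have un : ∀ z, polar Q8 (N g z) n = 0 := fun z => (pc _ _).trans (nu z)
  have hab : polar Q8 (a + b) vv = 0 := by rw [pl, ha, hb, add_zero]
  have qa : Q8 (N g a) = 0 := su a ha
  have qb : Q8 (N g b) = 0 := su b hb
  have qab : Q8 (N g (a + b)) = 0 := su _ hab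
  refine ⟨_, _, _, sw nv qn qa (nu a) (Nv h2 hv a) hb ba, sw nv qn qb (nu b) (Nv h2 hv b) ha ab,
    sw nv qn qab (nu _) (Nv h2 hv _) ha (by rw [Nadd, pr, aa, ab, zero_add]), ?_⟩
  generalize hP : H13.refl Q8 n * H13.refl Q8 (n + N g a) * (H13.refl Q8 n * H13.refl Q8 (n + N g b)) *
    (H13.refl Q8 n * H13.refl Q8 (n + N g (a + b))) = P
  have ap : ∀ x, P.1 x = x + polar Q8 (N g b) x • N g a + polar Q8 (N g a) x • N g b := fun x => by
    rw [← hP, H13.OG_mul_apply, H13.OG_mul_apply, prod_apply qn qa (nu a), prod_apply qn qb (nu b), prod_apply qn qab (nu _)]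
    simp only [Nadd, pl, pr, polar_smul_right, ps, nu, un, iso h2, smul_zero, add_zero]
    have h1 := xx ((polar Q8 (N g a) x + polar Q8 (N g b) x) • n)
    have h3 := xx ((polar Q8 n x + polar Q8 (N g a) x) • N g a)
    have h4 := xx ((polar Q8 n x + polar Q8 (N g b) x) • N g b)
    linear_combination (norm := module) h1 + h3 + h4
  have Pv : P.1 vv = vv := by rw [ap]; simp [Nv h2 hv]
  have Pi : (P⁻¹).1 vv = vv := by rw [← Pv, H13.OG_inv_apply_apply, Pv]
  refine ⟨by rw [H13.OG_mul_apply, hv, Pi], fun x hx => ?_⟩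
  have t := two (x := x + polar Q8 (N g b) x • a + polar Q8 (N g a) x • b) h2 r hv su qn gn ha hb ab
    (by rw [pl, pl, polar_smul_left, polar_smul_left, hx, ha, hb]; simp)
    (by rw [Nadd, Nadd, Nsm, Nsm, pr, pr, polar_smul_right, polar_smul_right, aa, ab, ← sy h2]; simp [rr])
    (by rw [Nadd, Nadd, Nsm, Nsm, pr, pr, polar_smul_right, polar_smul_right, ba, bb, ← sy h2]; simp [rr])
  rw [Nadd, Nadd, Nsm, Nsm] at t
  have e : g.1 x = P.1 x + (N g x + polar Q8 (N g b) x • N g a + polar Q8 (N g a) x • N g b) := by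
    rw [ap]
    have h1 := xx x
    have h3 := xx (polar Q8 (N g b) x • N g a)
    have h4 := xx (polar Q8 (N g a) x • N g b)
    have h5 : N g x = g.1 x + x := rfl
    linear_combination (norm := module) -h1 - h3 - h4 - h5
  rw [H13.OG_mul_apply, e]
  refine t.imp (fun t => ?_) fun t => ?_
  · rw [t, add_zero, H13.OG_inv_apply_apply]
  · rw [t, map_add, H13.OG_inv_apply_apply, Pi]

end Cfsg.Agent.CoT
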