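import Cfsg.Agent.CoT.L

/-! Three involutions of rank four that agree on `v^⊥ / v`. -/

set_option autoImplicit false

namespace Cfsg.Agent.CoT

open Cfsg Cfsg.Agent.H10 Subgroup QuadraticMap PL

namespace I4

variable {v x y u : W} {g g' : O8}

theorem gg (h : g * g = 1) (x : W) : g.1 (g.1 x) = x := by
  rw [← H13.OG_mul_apply, h, H13.OG_one_apply]

theorem adj (h : g * g = 1) (x y : W) : polar Q8 (g.1 x + x) y = polar Q8 x (g.1 y + y) := by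
  rw [pl, pr]
  congr 1
  conv_lhs => rw [← gg h y]
  rw [H13.OG_polar]

theorem nn (h : g * g = 1) (x : W) : g.1 (g.1 x + x) + (g.1 x + x) = 0 := by
  rw [map_add, gg h, add_comm x, xx]

theorem p0 (x : W) : polar Q8 x 0 = 0 := polar_zero_right _ _

theorem self (x : W) : polar Q8 x x = 0 := by rw [polar_self]; exact CharTwo.two_nsmul _

theorem key (h : g * g = 1) (r : R4 g) (hv : Q8 v = 0) (e : g.1 v = v) (hx : polar Q8 x v = 1) (hy : polar Q8 y v = 0) :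
    ¬ Cg v (g.1 x + x) (g.1 y + y) := by
  obtain ⟨t, ht⟩ := r v e
  have t0 : polar Q8 t v = 0 := by
    have := qw g t
    rw [← ht, hv] at this
    rw [pc, ← this]
  have k : ∀ y, polar Q8 y v = 0 → g.1 x + x ≠ g.1 y + y := fun y hy e' => by
    have e1 : g.1 (x + y) + (x + y) = 0 := by
      rw [map_add, add_add_add_comm, e', xx]
    have e2 : polar Q8 (x + y) v = 0 := by
      rw [ht, ← adj h, e1, pc, p0]
    rw [pl, hx, hy] at e2
    exact absurd e2 (by decide)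
  rintro (e' | e')
  · exact k y hy e'
  · refine k (y + t) (by rw [pl, hy, t0, add_zero]) ?_
    rw [e', map_add, add_add_add_comm, ← ht]

theorem cgN (a : Ag v g g') (hx : polar Q8 x v = 0) : Cg v (g.1 x + x) (g'.1 x + x) :=
  (a.2.2 x hx).imp (fun e => by rw [e]) fun e => by rw [e, add_right_comm]

theorem ctr {a b c : W} (h : Cg v a b) (h' : Cg v b c) : Cg v a c := by
  rcases h with rfl | rfl
  · exact h'
  · rcases h' with rfl | rfl
    · exact .inr rfl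
    · exact .inl (cancel _ _)

theorem nv (e : g.1 v = v) (h : g * g = 1) (x : W) : polar Q8 (g.1 x + x) v = 0 := by
  rw [adj h, e, xx, p0]

theorem nd : H13.ND Q8 := H13.nd_QPlus

end I4

open I4

theorem f11' {v : W} (hv : Q8 v = 0) : ∀ g1 ∈ Ω, ∀ g2 ∈ Ω, ∀ g3 ∈ Ω, g1 * g1 = 1 → g2 * g2 = 1 → g3 * g3 = 1 → R4 g1 → R4 g2 → R4 g3 → SU v g1 →
    Ag v g1 g2 → Ag v g1 g3 → ∀ x1 x2 x3, polar Q8 x1 v = 1 → polar Q8 x2 v = 1 → polar Q8 x3 v = 1 →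
    Cg v (g3.1 x3 + x3) (g1.1 x1 + x1 + (g2.1 x2 + x2)) →
    polar Q8 (g1.1 x1 + x1) (g2.1 x2 + x2) = 1 ∧
      (Q8 (g1.1 x1 + x1) = 1 ∨ Q8 (g2.1 x2 + x2) = 1 ∨ Q8 (g3.1 x3 + x3) = 1) := by
  intro g1 _ g2 _ g3 _ s1 s2 s3 r1 r2 r3 _ a2 a3 x1 x2 x3 p1 p2 p3 c
  have main : polar Q8 (g1.1 x1 + x1) (g2.1 x2 + x2) = 1 := by
    refine (z2 _).resolve_left fun e => ?_
    have k0 : ∀ x, polar Q8 x v = 0 → polar Q8 (g1.1 x + x) (g2.1 x2 + x2) = 0 := fun x hx => by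
      have : polar Q8 (g2.1 x + x) (g2.1 x2 + x2) = 0 := by rw [adj s2, nn s2, p0]
      rcases cgN a2 hx with e' | e' <;> rw [e']
      · exact this
      · rw [pl, this, pc, nv a2.2.1 s2, add_zero]
    have k1 : ∀ x, polar Q8 (g1.1 x + x) (g2.1 x2 + x2) = 0 := fun x => (z2 (polar Q8 x v)).elim (k0 x) fun hx => by
      have := k0 _ (pb p1 hx)
      rwa [map_add, add_add_add_comm, pl, e, add_zero] at this
    have k2 : g1.1 (g2.1 x2 + x2) + (g2.1 x2 + x2) = 0 := nd _ fun x => by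
      rw [pc, ← adj s1, k1]
    obtain ⟨y, hy⟩ := r1 (g2.1 x2 + x2) (by rw [← cancel (g1.1 _) (g2.1 x2 + x2), k2, zero_add])
    rcases z2 (polar Q8 y v) with h0 | h0
    · exact key s2 r2 hv a2.2.1 p2 h0 (hy ▸ cgN a2 h0)
    · have h1 := pb h0 p1
      refine key s3 r3 hv a3.2.1 p3 h1 (ctr c ?_)
      have := cgN a3 h1
      rwa [map_add g1.1, add_add_add_comm, ← hy] at this
  refine ⟨main, ?_⟩
  rcases z2 (Q8 (g1.1 x1 + x1)) with q1 | q1
  · rcases z2 (Q8 (g2.1 x2 + x2)) with q2 | q2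
    · refine .inr (.inr ?_)
      have q : Q8 (g1.1 x1 + x1 + (g2.1 x2 + x2)) = 1 := by rw [qadd, q1, q2, main, add_zero, zero_add]
      rcases c with c | c <;> rw [c]
      · exact q
      · rw [qadd, q, hv, pl, nv a2.1 s1, nv a2.2.1 s2, add_zero, add_zero, add_zero]
    · exact .inr (.inl q2)
  · exact .inl q1

theorem f11 : ∀ g1 ∈ Ω, ∀ g2 ∈ Ω, ∀ g3 ∈ Ω, g1 * g1 = 1 → g2 * g2 = 1 → g3 * g3 = 1 → R4 g1 → R4 g2 → R4 g3 → SU vv g1 →
    Ag vv g1 g2 → Ag vv g1 g3 → ∀ x1 x2 x3, polar Q8 x1 vv = 1 → polar Q8 x2 vv = 1 → polar Q8 x3 vv = 1 →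
    Cg vv (g3.1 x3 + x3) (g1.1 x1 + x1 + (g2.1 x2 + x2)) →
    polar Q8 (g1.1 x1 + x1) (g2.1 x2 + x2) = 1 ∧
      (Q8 (g1.1 x1 + x1) = 1 ∨ Q8 (g2.1 x2 + x2) = 1 ∨ Q8 (g3.1 x3 + x3) = 1) :=
  f11' (by decide +kernel)

end Cfsg.Agent.CoT
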