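import Cfsg.Agent.CoT.A
import Cfsg.Agent.H13.Spinor
import Cfsg.Agent.H13.Witt
import Cfsg.Agent.H29.OH1

/-! Facts on `Ω₈⁺(2)` and the stabiliser of a singular vector. -/

set_option autoImplicit false
set_option synthInstance.maxSize 4000
set_option synthInstance.maxHeartbeats 200000

namespace Cfsg.Agent.CoT

open Cfsg Cfsg.Agent.H13 Cfsg.Agent.H29 Subgroup QuadraticMap Module

namespace O

/-- basis vectors -/
def bv (i : Fin 4 ⊕ Fin 4) : W := fun j => if j = i then 1 else 0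
/-- standard pair, first vector -/
def a0 (e : ZMod 2) : W := bv (.inl 1) + e • bv (.inr 1)
/-- standard pair, second vector -/
def w0 (e : ZMod 2) : W := bv (.inl 2) + e • (bv (.inl 1) + bv (.inr 2))
/-- a non-singular vector orthogonal to the standard data -/
def n0 : W := bv (.inl 3) + bv (.inr 3)

theorem nd : ND Q8 := nd_QPlus
theorem good : Good Q8 := .inr (.inl (by simp))
theorem idx : Ω.index = 2 := nd.index_commutator_even good rfl (by simp)
theorem rn {n : W} (h : Q8 n = 1) : refl Q8 n ∉ Ω := by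
  rw [nd.mem_commutator_iff_two good rfl, nd.rk_refl (by simp [h])]; decide
theorem mulr {n : W} (h : Q8 n = 1) {g : O8} (hg : g ∉ Ω) : g * refl Q8 n ∈ Ω :=
  (mul_mem_iff_of_index_two idx).2 (iff_of_false hg (rn h))

theorem z2 (c : ZMod 2) : c = 0 ∨ c = 1 := by revert c; decide

theorem A0 (e : ZMod 2) : AP vv e (a0 e) (w0 e) := by
  unfold AP Cg; revert e; decide +kernel

theorem n1 : Q8 n0 = 1 := by decide +kernel
theorem n2 : polar Q8 n0 vv = 0 := by decide +kernel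
theorem n3 : ∀ e, polar Q8 n0 (a0 e) = 0 ∧ polar Q8 n0 (w0 e) = 0 := by decide +kernel

theorem cg {v x y : W} (c : ZMod 2) (h : x = y + c • v) : Cg v x y := by
  rcases z2 c with rfl | rfl
  · exact .inl (by simpa using h)
  · exact .inr (by simpa using h)

end O

open O

theorem v0 : vv ≠ 0 ∧ Q8 vv = 0 := by decide +kernel

theorem f8 : ∀ e, ∃ a w, AP vv e a w := fun e => ⟨_, _, A0 e⟩

theorem f1 : ∀ a, a ≠ 0 → Q8 a = 0 → ∃ g ∈ Ω, g.1 a = vv := by
  intro a h0 h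
  obtain ⟨g, g1, g2⟩ := witt_quad_family Q8 nd (fun _ : Unit => vv) (fun _ => a) (linearIndependent_unique_iff.2 v0.1)
    (linearIndependent_unique_iff.2 h0) (fun _ _ => by rw [polar_self2, polar_self2]) fun _ => h.trans v0.2.symm
  have e : ∀ k : O8, k.1 vv = a → k ∈ Ω → ∃ g ∈ Ω, g.1 a = vv := fun k h1 h2 =>
    ⟨k⁻¹, inv_mem h2, by rw [← h1, OG_inv_apply_apply]⟩
  by_cases hg : (⟨g, g1⟩ : O8) ∈ Ω
  · exact e _ (g2 ()) hg
  · refine e _ ?_ (mulr n1 hg)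
    rw [OG_mul_apply, refl_apply_of_perp n2]
    exact g2 ()

theorem O.li {e : ZMod 2} {a w : W} (h : AP vv e a w) : LinearIndependent (ZMod 2) ![vv, a, w] := by
  obtain ⟨-, -, -, -, -, h1, h2, h3⟩ := h
  refine Fintype.linearIndependent_iff.2 fun c hc => ?_
  simp only [Fin.sum_univ_three, Matrix.cons_val] at hc
  have k : c 1 = 0 ∧ c 2 = 0 := by
    rcases z2 (c 1) with e1 | e1 <;> rcases z2 (c 2) with e2 | e2 <;> rw [e1, e2] at hc
    · exact ⟨e1, e2⟩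
    · exact absurd (cg (c 0) (by linear_combination (norm := module) hc - add_self2 (c 0 • vv))) h2
    · exact absurd (cg (c 0) (by linear_combination (norm := module) hc - add_self2 (c 0 • vv))) h1
    · exact absurd (cg (c 0) (by linear_combination (norm := module) hc - add_self2 (c 0 • vv) - add_self2 w)) h3
  rw [k.1, k.2, zero_smul, zero_smul, add_zero, add_zero, smul_eq_zero_iff_left v0.1] at hc
  intro i
  fin_cases i
  exacts [hc, k.1, k.2]

theorem O.std {e : ZMod 2} {a w : W} (h : AP vv e a w) :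
    ∃ g ∈ Ω, g.1 vv = vv ∧ g.1 (a0 e) = a ∧ g.1 (w0 e) = w := by
  obtain ⟨g, g1, g2⟩ := witt_quad_family Q8 nd _ _ (li (A0 e)) (li h) (fun i j => by
    obtain ⟨h1, h2, -, -, h3, -⟩ := h
    obtain ⟨k1, k2, -, -, k3, -⟩ := A0 e
    fin_cases i <;> fin_cases j <;>
      simp [show (2 : ZMod 2) = 0 from rfl, h1, h2, h3, k1, k2, k3, polar_comm Q8 vv, polar_comm Q8 w a,
        polar_comm Q8 (w0 e) (a0 e)]) fun i => by
    fin_cases i
    exacts [rfl, h.2.2.1.trans (A0 e).2.2.1.symm, h.2.2.2.1.trans (A0 e).2.2.2.1.symm]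
  by_cases hg : (⟨g, g1⟩ : O8) ∈ Ω
  · exact ⟨_, hg, g2 0, g2 1, g2 2⟩
  · refine ⟨_, mulr n1 hg, ?_, ?_, ?_⟩
    · rw [OG_mul_apply, refl_apply_of_perp n2]; exact g2 0
    · rw [OG_mul_apply, refl_apply_of_perp (n3 e).1]; exact g2 1
    · rw [OG_mul_apply, refl_apply_of_perp (n3 e).2]; exact g2 2

theorem f5 : ∀ e a w a' w', AP vv e a w → AP vv e a' w' →
    ∃ g ∈ Ω, g.1 vv = vv ∧ Cg vv (g.1 a) a' ∧ Cg vv (g.1 w) w' := by
  intro e a w a' w' h h'
  obtain ⟨g, g0, g1, rfl, rfl⟩ := std h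
  obtain ⟨k, k0, k1, rfl, rfl⟩ := std h'
  refine ⟨k * g⁻¹, mul_mem k0 (inv_mem g0), ?_, .inl ?_, .inl ?_⟩
  · rw [OG_mul_apply, ← g1, OG_inv_apply_apply, g1, k1]
  all_goals rw [OG_mul_apply, OG_inv_apply_apply]

theorem sol : ∀ e a w, AP vv e a w → ∀ i j : ZMod 2,
    ∃ x, polar Q8 x vv = 0 ∧ polar Q8 x a = i ∧ polar Q8 x w = j := by
  intro e a w h i j
  obtain ⟨g, -, g1, rfl, rfl⟩ := std h
  refine ⟨g.1 (i • (bv (.inr 1) + e • bv (.inl 2)) + j • bv (.inr 2)), ?_⟩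
  rw [← g1, OG_polar, OG_polar, OG_polar]
  clear h g1
  revert e i j
  decide +kernel

theorem rad : ∀ a, (∀ x, polar Q8 x vv = 0 → polar Q8 x a = 0) → Cg vv a 0 := by
  intro a h
  have : ∀ a : W, polar Q8 (bv (.inl 1)) a = 0 → polar Q8 (bv (.inl 2)) a = 0 → polar Q8 (bv (.inl 3)) a = 0 →
      polar Q8 (bv (.inr 1)) a = 0 → polar Q8 (bv (.inr 2)) a = 0 → polar Q8 (bv (.inr 3)) a = 0 →
      polar Q8 (bv (.inl 0)) a = 0 → a = 0 ∨ a = 0 + vv := by decide +kernel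
  apply this a <;> exact h _ (by decide +kernel)

theorem f4 : ∀ u, Q8 u = 0 → polar Q8 u vv = 0 → u ≠ 0 → u ≠ vv → ∃ g ∈ Ω, g.1 vv = vv ∧ Q8 (u + g.1 u) = 1 := by
  intro u h1 h2 h3 h4
  obtain ⟨⟨n, n1, n2, n3⟩, m, m1, m2, m3⟩ := (by decide +kernel : ∀ u, Q8 u = 0 → polar Q8 u vv = 0 → u ≠ 0 → u ≠ vv →
    (∃ n, Q8 n = 1 ∧ polar Q8 n vv = 0 ∧ polar Q8 n u = 1) ∧
      ∃ n, Q8 n = 1 ∧ polar Q8 n vv = 0 ∧ polar Q8 n u = 0) u h1 h2 h3 h4
  refine ⟨_, mulr m1 (rn n1), ?_, ?_⟩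
  · rw [OG_mul_apply, refl_apply_of_perp m2, refl_apply_of_perp n2]
  · rw [OG_mul_apply, refl_apply_of_perp m3, refl2 n1, n3, one_smul, ← add_assoc, add_self2, zero_add, n1]

end Cfsg.Agent.CoT
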