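import Cfsg.Agent.CoT.I3
import Cfsg.Agent.CoT.O

/-! Normal forms of involutions of `Ω₈⁺(2)` relative to a singular vector. -/

set_option autoImplicit false

namespace Cfsg.Agent.CoT.I5

open Cfsg Cfsg.Agent.H10 Subgroup QuadraticMap Module PL I3

variable {g : O8}

theorem big (r : R4 g) (u1 u2 u3 : W) : ∃ x, ∀ i j k : ZMod 2, N g x + i • u1 + j • u2 + k • u3 ≠ 0 := by
  by_contra! hc
  have e2 := H13.rk_add_finrank_fixS g
  have e3 : finrank (ZMod 2) (H13.fixS g) ≤ H13.rk g := Submodule.finrank_mono (fun x hx => by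
    obtain ⟨y, e⟩ := r x (H13.mem_fixS.1 hx)
    exact ⟨y, (sub1 g y).trans e.symm⟩)
  have e4 : H13.rk g ≤ finrank (ZMod 2) (Submodule.span (ZMod 2) (Set.range ![u1, u2, u3])) := Submodule.finrank_mono (by
    rintro _ ⟨x, rfl⟩
    obtain ⟨i, j, k, e⟩ := hc x
    refine (Submodule.mem_span_range_iff_exists_fun _).2 ⟨![i, j, k], ?_⟩
    simp only [Fin.sum_univ_three, Matrix.cons_val, sub1]
    have := xx (N g x)
    linear_combination (norm := module) e - this)
  have e5 := finrank_range_le_card (R := ZMod 2) ![u1, u2, u3]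
  rw [show finrank (ZMod 2) W = 8 by simp] at e2
  have e6 := e4.trans e5
  simp at e6
  omega

theorem rad' {a b v : W} (h0 : polar Q8 b v = 1) (h : ∀ x, polar Q8 x v = 0 → polar Q8 x a = 0) : a = 0 ∨ a = v := by
  have k : ∀ a, (∀ x, polar Q8 x v = 0 → polar Q8 x a = 0) → polar Q8 b a = 0 → a = 0 := fun a h e =>
    I3.nd a fun x => (z2 (polar Q8 x v)).elim (fun e1 => by rw [pc, h x e1]) fun e1 => by
      have := h _ (pb h0 e1)
      rwa [pl, e, add_zero, pc] at this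
  refine (z2 (polar Q8 b a)).imp (k a h) fun e => ?_
  have := k (a + v) (fun x hx => by rw [pr, h x hx, hx, add_zero]) (by rw [pr, e, h0, rr])
  rw [← cancel a v, this, zero_add]

theorem sing (h2 : g * g = 1) (r : R4 g) {d : W} (hd : ∀ x, polar Q8 x (N g d) = Q8 (N g x)) : Q8 (N g d) = 0 := by
  refine (z2 _).resolve_right fun qc => ?_
  have dd : polar Q8 d (N g d) = 1 := (hd d).trans qc
  have A : ∀ x, polar Q8 x (N g d) = 0 → N g x ≠ 0 → ∃ x', polar Q8 x' (N g d) = 0 ∧ polar Q8 x' (N g x) = 1 := fun x hx h0 => by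
    by_contra! hc
    rcases rad' (a := N g x) dd (fun y hy => (z2 _).resolve_right (hc y hy)) with t | t
    · exact h0 t
    · rw [hd, t, qc] at hx
      exact one_ne_zero hx
  have J : ∀ x, polar Q8 (x + polar Q8 x (N g d) • d) (N g d) = 0 := fun x => by
    rw [pl, polar_smul_left, dd, smul_eq_mul, mul_one, rr]
  have al : ∀ x, polar Q8 x (N g d) = 0 → polar Q8 x (N g x) = 0 := fun x hx => by rw [← qN, ← hd, hx]
  obtain ⟨x1, h1⟩ := big r (N g d) 0 0
  have ha := J x1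
  have a0 : N g (x1 + polar Q8 x1 (N g d) • d) ≠ 0 := by
    have := h1 (polar Q8 x1 (N g d)) 0 0
    rwa [zero_smul, add_zero, add_zero, ← Nsm, ← Nadd] at this
  generalize x1 + polar Q8 x1 (N g d) • d = a at ha a0
  obtain ⟨b, hb, ba⟩ := A a ha a0
  have ab : polar Q8 a (N g b) = 1 := by rw [← sy h2, pc, ba]
  obtain ⟨x2, h3⟩ := big r (N g d) (N g a) (N g b)
  have h4 := J x2
  have h5 : ∀ j k : ZMod 2, N g (x2 + polar Q8 x2 (N g d) • d + j • a + k • b) ≠ 0 := fun j k => by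
    have := h3 (polar Q8 x2 (N g d)) j k
    rwa [← Nsm, ← Nsm, ← Nsm, ← Nadd, ← Nadd, ← Nadd] at this
  generalize x2 + polar Q8 x2 (N g d) • d = x3 at h4 h5
  obtain ⟨x, hx, x0, xa, xb⟩ : ∃ x, polar Q8 x (N g d) = 0 ∧ N g x ≠ 0 ∧ polar Q8 x (N g a) = 0 ∧ polar Q8 x (N g b) = 0 :=
    ⟨_, by rw [pl, pl, polar_smul_left, polar_smul_left, h4, ha, hb]; simp,
      h5 (polar Q8 x3 (N g b)) (polar Q8 x3 (N g a)),
      by rw [pl, pl, polar_smul_left, polar_smul_left, al a ha, ba]; simp [rr],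
      by rw [pl, pl, polar_smul_left, polar_smul_left, al b hb, ab]; simp [rr]⟩
  obtain ⟨x', hx', x'x⟩ := A x hx x0
  have xx' : polar Q8 x (N g x') = 1 := by rw [← sy h2, pc, x'x]
  have ax : polar Q8 a (N g x) = 0 := by rw [← sy h2, pc, xa]
  have bx : polar Q8 b (N g x) = 0 := by rw [← sy h2, pc, xb]
  let f : Fin 5 → LinearMap.range (H13.subOne g) := fun i => ⟨_, ![d, a, b, x, x'] i, rfl⟩
  have li : LinearIndependent (ZMod 2) f := by
    refine Fintype.linearIndependent_iff.2 fun c hc' => ?_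
    have h0 := congrArg Subtype.val hc'
    simp only [f, Fin.sum_univ_five, Submodule.coe_add, Submodule.coe_smul, Matrix.cons_val, sub1, ZeroMemClass.coe_zero] at h0
    have c0 : c 0 = 0 := by
      have := hd (c 0 • d + c 1 • a + c 2 • b + c 3 • x + c 4 • x')
      rw [Nadd, Nadd, Nadd, Nadd, Nsm, Nsm, Nsm, Nsm, Nsm, h0, map_zero] at this
      simpa [pl, dd, ha, hb, hx, hx'] using this
    rw [c0, zero_smul, zero_add] at h0
    have e0 := congrArg (polar Q8 x) h0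
    simp only [pr, polar_smul_right, xa, xb, al x hx, xx', polar_zero_right, smul_eq_mul, mul_zero, mul_one, zero_add] at e0
    rw [e0, zero_smul, add_zero] at h0
    have e1 := congrArg (polar Q8 a) h0
    have e2 := congrArg (polar Q8 b) h0
    simp only [pr, polar_smul_right, al a ha, al b hb, ab, ba, ax, bx, polar_zero_right, smul_eq_mul, mul_zero, mul_one, zero_add,
      add_zero] at e1 e2
    rw [e1, e2, zero_smul, zero_smul, add_zero, zero_add] at h0
    have c3 : c 3 = 0 := (smul_eq_zero.1 h0).resolve_right x0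
    intro i
    fin_cases i
    exacts [c0, e2, e1, c3, e0]
  have := li.fintype_card_le_finrank.trans (rk4 h2)
  simp at this

theorem f3 : ∀ y ∈ Ω, y * y = 1 → R4 y → ∃ g ∈ Ω, SU vv (g * y * g⁻¹) ∧ ∃ x, (g * y * g⁻¹).1 x + x = vv := by
  intro y _ h2 r
  let φ : W →ₗ[ZMod 2] ZMod 2 :=
    { toFun := fun x => Q8 (N y x)
      map_add' := fun a b => by rw [Nadd, qadd, iso h2, add_zero]
      map_smul' := fun c a => by rcases z2 c with rfl | rfl <;> simp [N] }
  obtain ⟨c, hc⟩ := I3.nd.exists_polar_eq_dual φ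
  have hc' : ∀ x, polar Q8 x c = Q8 (N y x) := fun x => (pc _ _).trans (hc x)
  obtain ⟨d, hd⟩ := r c (N0.1 (I3.nd _ fun x => by rw [sy h2, pc, hc', NN h2, map_zero]))
  change c = N y d at hd
  obtain ⟨x0, n0, n1, n2⟩ : ∃ x0, N y x0 ≠ 0 ∧ Q8 (N y x0) = 0 ∧ ∀ x, polar Q8 x (N y x0) = 0 → Q8 (N y x) = 0 := by
    by_cases c0 : c = 0
    · have k : ∀ x, Q8 (N y x) = 0 := fun x => by rw [← hc', c0, polar_zero_right]
      obtain ⟨x, hx⟩ := big r 0 0 0
      exact ⟨x, by simpa using hx 0 0 0, k x, fun x _ => k x⟩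
    · subst hd
      exact ⟨d, c0, sing h2 r hc', fun x hx => by rw [← hc', hx]⟩
  obtain ⟨g, g0, g1⟩ := f1 _ n0 n1
  have ap : ∀ x, (g * y * g⁻¹).1 (g.1 x) + g.1 x = g.1 (N y x) := fun x => by
    rw [H13.OG_mul_apply, H13.OG_mul_apply, H13.OG_inv_apply_apply, N, map_add]
  refine ⟨g, g0, fun x hx => ?_, g.1 x0, by rw [ap, g1]⟩
  obtain ⟨x, rfl⟩ := g.1.surjective x
  rw [← g1, H13.OG_polar] at hx
  rw [ap, H13.OG_map, n2 x hx]

theorem f2 : ∀ y ∈ Ω, y * y = 1 → (∃ g ∈ Ω, EE vv (g * y * g⁻¹)) ∨ R4 y := by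
  intro y hy h2
  have yN : ∀ x, y.1 (N y x) = N y x := fun x => N0.1 (NN h2 x)
  have e1 := (I3.nd.mem_commutator_iff_two I3.good rfl y).1 hy
  have e2 := H13.rk_add_finrank_fixS y
  have le : LinearMap.range (H13.subOne y) ≤ H13.fixS y := by
    rintro _ ⟨x, rfl⟩
    exact H13.mem_fixS.2 (by rw [sub1]; exact yN x)
  have e3 := rk4 h2
  rw [show finrank (ZMod 2) W = 8 by simp] at e2
  rcases (by rw [Nat.even_iff] at e1; omega : H13.rk y = 0 ∨ H13.rk y = 2 ∨ H13.rk y = 4) with r | r | r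
  · have : ∀ x, y.1 x = x := fun x => by
      have := (Submodule.finrank_eq_zero.1 r).le (LinearMap.mem_range_self (H13.subOne y) x)
      rwa [Submodule.mem_bot, H13.subOne_apply, sub_eq_zero] at this
    exact .inl ⟨1, one_mem _, by simpa using this _, fun a _ => .inl (by simpa using this a)⟩
  swap
  · refine .inr fun x hx => ?_
    have := Submodule.eq_of_le_of_finrank_eq le (by change H13.rk y = _; omega)
    obtain ⟨z, hz⟩ := this.ge (H13.mem_fixS.2 hx)
    exact ⟨z, hz.symm.trans (sub1 y z)⟩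
  left
  let φ := (finBasisOfFinrankEq (ZMod 2) _ r).equivFun
  have sp : ∀ p s t : LinearMap.range (H13.subOne y), p ≠ 0 → s ≠ 0 → p ≠ s → ∃ α β : ZMod 2, t = α • p + β • s :=
    fun p s t h1 h2 h3 => by
      obtain ⟨α, β, e⟩ := (by decide : ∀ c d e : Fin 2 → ZMod 2, c ≠ 0 → d ≠ 0 → c ≠ d → ∃ α β : ZMod 2, e = α • c + β • d)
        (φ p) (φ s) (φ t) (φ.map_ne_zero_iff.2 h1) (φ.map_ne_zero_iff.2 h2) (φ.injective.ne h3)
      exact ⟨α, β, φ.injective (by rw [e, map_add, map_smul, map_smul])⟩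
  obtain ⟨⟨_, b, rfl⟩, u0, u1⟩ : ∃ u : LinearMap.range (H13.subOne y), u ≠ 0 ∧ Q8 u = 0 := by
    rcases z2 (Q8 (φ.symm ![1, 0])) with c1 | c1
    · exact ⟨_, φ.symm.map_ne_zero_iff.2 (by decide), c1⟩
    rcases z2 (Q8 (φ.symm ![0, 1])) with c2 | c2
    · exact ⟨_, φ.symm.map_ne_zero_iff.2 (by decide), c2⟩
    refine ⟨φ.symm (![1, 0] + ![0, 1]), φ.symm.map_ne_zero_iff.2 (by decide), ?_⟩
    rw [map_add, Submodule.coe_add, qadd, c1, c2]
    obtain ⟨x, hx⟩ := (φ.symm ![1, 0]).2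
    obtain ⟨x', hx'⟩ := (φ.symm ![0, 1]).2
    rw [← hx, ← hx', sub1, sub1, iso h2]
    rfl
  have u0' : N y b ≠ 0 := fun e => u0 (Subtype.ext ((sub1 y b).trans e))
  have u1' : Q8 (N y b) = 0 := by rw [← sub1]; exact u1
  obtain ⟨g, g0, g1⟩ := f1 _ u0' u1'
  refine ⟨g, g0, by rw [← g1, H13.OG_mul_apply, H13.OG_mul_apply, H13.OG_inv_apply_apply, yN], fun a ha => ?_⟩
  obtain ⟨a, rfl⟩ := g.1.surjective a
  rw [← g1, H13.OG_polar] at ha
  rw [H13.OG_mul_apply, H13.OG_mul_apply, H13.OG_inv_apply_apply, ← g1, ← map_add, g.1.injective.eq_iff, g.1.injective.eq_iff]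
  by_contra! hc
  refine u0' (I3.nd _ fun x => ?_)
  obtain ⟨α, β, e⟩ := sp ⟨_, b, rfl⟩ ⟨_, a, rfl⟩ ⟨_, x, rfl⟩ u0
    (fun e => hc.1 (sub_eq_zero.1 ((H13.subOne_apply y a).symm.trans (congrArg Subtype.val e))))
    fun e => hc.2 (by
      rw [← sub1, show H13.subOne y b = H13.subOne y a from congrArg Subtype.val e, H13.subOne_apply, add_sub_cancel])
  have e' : N y x = α • N y b + β • N y a := by
    rw [← sub1, ← sub1, ← sub1]; exact congrArg Subtype.val e
  rw [sy h2, e', pr, polar_smul_right, polar_smul_right, ← qN, u1', ← sy h2, pc, ha, smul_zero, smul_zero, add_zero]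

end Cfsg.Agent.CoT.I5
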