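import Cfsg.Agent.CoT.G3

/-! Involutions of the second kind are not conjugate to `z`. -/

set_option autoImplicit false

namespace Cfsg.Agent.CoT

open Cfsg Cfsg.Agent.H10 Subgroup QuadraticMap

variable {G : Type*} [Group G]

theorem fix16 {g : O8} (hg : g * g = 1) : 16 ≤ Nat.card {f : W // g.1 f = f} := by
  let N : W →+ W := { toFun := fun x => g.1 x + x, map_zero' := by simp, map_add' := fun x y => by rw [map_add]; abel }
  have h1 : N.range ≤ N.ker := by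
    rintro _ ⟨x, rfl⟩
    show g.1 (g.1 x + x) + (g.1 x + x) = 0
    rw [map_add, ← H13.OG_mul_apply, hg, H13.OG_one_apply, add_comm x, ww]
  have h2 := N.ker.card_mul_index
  rw [AddSubgroup.index_ker] at h2
  have h3 : Nat.card W = 256 := by simp [W]
  have h4 := AddSubgroup.card_le_of_le h1
  have h5 : Nat.card N.ker = Nat.card {f : W // g.1 f = f} :=
    Nat.card_congr (Equiv.subtypeEquivRight fun x => weq)
  rw [← h5]
  by_contra n
  nlinarith

theorem Co.cen16 {z w : G} {Q : Subgroup G} {ρ : centralizer ({z} : Set G) →* O8} {p : G → W} (h : Co z Q ρ p)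
    (wz : w * z = z * w) : ∃ c : {f : W // (sg ρ w).1 f = f} → G, Function.Injective c ∧ ∀ f, c f ∈ Q ∧ w * c f = c f * w := by
  classical
  choose l lQ pl using h.surj
  have d : ∀ f, (sg ρ w).1 f = f → w * l f ≠ l f * w → w * l f * w⁻¹ = z * l f := fun f hf n =>
    (h.peq (h.lx.conj_mem wz (lQ f)) (lQ f) (by rw [h.sg_act wz (lQ f), pl, hf])).resolve_left
      fun e => n (mul_inv_eq_iff_eq_mul.1 e)
  obtain ⟨f0, hf0⟩ : ∃ f0, ∀ f, (sg ρ w).1 f = f → w * l f ≠ l f * w → w * l (f + f0) = l (f + f0) * w := by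
    by_cases n : ∃ f0, (sg ρ w).1 f0 = f0 ∧ w * l f0 ≠ l f0 * w
    · obtain ⟨f0, e0, n0⟩ := n
      refine ⟨f0, fun f e1 n1 => ?_⟩
      have c : w * (l f * l f0) = l f * l f0 * w := by
        rw [← mul_inv_eq_iff_eq_mul]
        calc _ = w * l f * w⁻¹ * (w * l f0 * w⁻¹) := by group
          _ = z * (l f * z) * l f0 := by rw [d f e1 n1, d f0 e0 n0]; group
          _ = _ := by rw [h.lx.cent _ (lQ f), ← mul_assoc, h.lx.zz, one_mul]
      rcases h.peq (lQ (f + f0)) (mul_mem (lQ f) (lQ f0)) (by rw [h.mul (lQ f) (lQ f0), pl, pl, pl]) with e | e <;> rw [e]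
      · exact c
      · exact (Commute.mul_right wz c :)
    · exact ⟨0, fun f e1 n1 => absurd ⟨f, e1, n1⟩ n⟩
  have pzl : ∀ f, p (z * l f) = f := fun f => by rw [h.mul h.lx.mem (lQ f), h.pz, zero_add, pl]
  have ne : ∀ f f', l f ≠ z * l f' := fun f f' e => by
    have := congrArg p e
    rw [pl, pzl] at this
    rw [this] at e
    exact h.lx.ne_one (by simpa using e)
  refine ⟨fun f => if w * l f.1 = l f.1 * w then l f.1 else z * l (f.1 + f0), fun f f' e => Subtype.ext ?_, fun f => ?_⟩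
  · dsimp only at e
    split_ifs at e
    · simpa only [pl] using congrArg p e
    · exact absurd e (ne _ _)
    · exact absurd e.symm (ne _ _)
    · simpa only [pzl, add_left_inj] using congrArg p e
  · dsimp only
    split_ifs with n
    · exact ⟨lQ _, n⟩
    · exact ⟨mul_mem h.lx.mem (lQ _), (Commute.mul_right wz (hf0 _ f.2 n) :)⟩

namespace Cx
variable {z : G} {Q : Subgroup G} {ρ : centralizer ({z} : Set G) →* O8} {p : G → W} {v : W} {s b m y t u : G}
  (h : Cx z Q ρ p v s b m) [Finite G]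
include h

theorem tb_nQ {e : ZMod 2} (hy : TB Q p v s m e y) : y ∉ Q := fun yQ => by
  obtain ⟨a, ha, a', ha', hs, hs', ap, rfl⟩ := hy
  have w := h.wpsi ha' hs'
  rw [← h.sg_tb ha ha' hs', h.co.sg_Q yQ, H13.OG_one_apply, ww] at w
  exact ap.2.2.2.2.2.2.1 (Cg.symm w)

theorem tb_not {e : ZMod 2} (hy : TB Q p v s m e y) (ht : t ∈ Q) : ¬ In Q z y t := fun i => by
  have nQ := h.tb_nQ hy
  have yz := h.tb_z hy
  by_cases e0 : t = z
  · exact nQ ((e0 ▸ i).mem h.lx)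
  obtain ⟨q, hq, e1⟩ : ∃ q ∈ Q, y * q * y⁻¹ = z * q := by
    obtain ⟨a, ha, a', ha', hs, hs', ap, rfl⟩ := hy
    obtain ⟨x, x1, x2, x3⟩ := h.of.sol _ _ _ ap 1 0
    obtain ⟨q, hq, rfl⟩ := h.co.surj x
    have k := h.k0 hq ((h.perp hq).2 x1) ha' hs' x3
    have n := h.co.ncm ha hq (polar_comm Q8 _ _ ▸ x2)
    refine ⟨q, hq, ?_⟩
    generalize m * a' * m⁻¹ = r at *
    calc _ = a * (r * q) * r⁻¹ * a⁻¹ := by group
      _ = a * q * a⁻¹ := by rw [k]; group
      _ = _ := by rw [n]; group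
  obtain ⟨c, cz, e2⟩ := toS h.co h.of h.sQ h.ps ht (i.tt h.lx) (i.ne h.lx) e0
  obtain ⟨a, ha, hs, e3⟩ := h.psiS (e2 ▸ i.cj c) (cz_cj cz yz)
  have hq' := h.lx.conj_mem cz hq
  have e4 : m * a * m⁻¹ * (c * q * c⁻¹) * (m * a * m⁻¹)⁻¹ = z * (c * q * c⁻¹) := by
    calc _ = c * (y * q * y⁻¹) * c⁻¹ := by rw [e3]; group
      _ = c * z * q * c⁻¹ := by rw [e1]; group
      _ = _ := by rw [cz]; group
  generalize c * q * c⁻¹ = q' at *
  rcases z2 (polar Q8 (p q') v) with e5 | e5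
  · have k := h.kk hq' ((h.perp hq').2 e5) ha hs
    rw [e4, mul_inv_cancel_right] at k
    rcases k with k | k
    · exact h.lx.ne_one k
    · exact h.cP.ne h.lx (by simpa using k)
  · have e6 := h.co.sg_act (h.psiz ha hs) hq'
    rw [e4, h.co.mul h.lx.mem hq', h.co.pz, zero_add] at e6
    have e7 := ee_im h.hv h.hβ (h.eeA ha hs) e5
    rw [← e6, ww] at e7
    have e8 := ee_ext h.hv h.hβ (h.eeA ha hs) ee_one (by rw [H13.OG_one_apply, ww]; exact Cg.symm e7)
    have e9 := h.lx.conj_mem (cz_inv cz) ((h.co.sg_one (h.psiz ha hs)).1 e8)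
    rw [e3] at e9
    exact nQ (by convert e9 using 1; group)

theorem tb_inf {e : ZMod 2} (hy : TB Q p v s m e y) (hu : u ∈ Q) (i : In Q z u y) : u = 1 := by
  by_contra n
  have nQ := h.tb_nQ hy
  have u2 : u * u = 1 := (i.sq h.lx).resolve_right fun e => nQ (e ▸ mul_mem hu hu)
  obtain ⟨j, hj⟩ := isConj_iff.1 (h.in_conj (in_of_mem hu) u2 n).symm
  exact h.tb_not hy hu (i.symm h.lx (hj ▸ (in_of_mem h.lx.mem).cj j) fun e => nQ (e ▸ hu))

theorem tb_nc {e : ZMod 2} (hy : TB Q p v s m e y) : ¬ IsConj z y := fun hc => by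
  obtain ⟨k, e0⟩ := isConj_iff.1 hc
  have yz := h.tb_z hy
  have wz : k⁻¹ * z * k⁻¹⁻¹ * z = z * (k⁻¹ * z * k⁻¹⁻¹) := by
    have := cj_cm k⁻¹ yz.symm
    rwa [show k⁻¹ * y * k⁻¹⁻¹ = z by rw [← e0]; group] at this
  have g2 : sg ρ (k⁻¹ * z * k⁻¹⁻¹) * sg ρ (k⁻¹ * z * k⁻¹⁻¹) = 1 := by
    rw [← sg_mul wz wz, cj_sq h.zz, h.co.sg_Q Q.one_mem]
  obtain ⟨c, ci, hc⟩ := h.co.cen16 wz
  have cy : ∀ f, In Q z (k * c f * k⁻¹) y := fun f => e0 ▸ (in_of_mem (hc f).1).cj k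
  have cz : ∀ f, k * c f * k⁻¹ * z = z * (k * c f * k⁻¹) := fun f => by
    have := cj_cm k (hc f).2.symm
    rwa [show k * (k⁻¹ * z * k⁻¹⁻¹) * k⁻¹ = z by group] at this
  have hy2 := hy
  obtain ⟨a, ha, a', ha', hs, hs', ap, ey⟩ := hy2
  have fx : ∀ f x, polar Q8 x v = 0 → polar Q8 x (p a) = 0 → polar Q8 x (p a') = 0 → (sg ρ (k * c f * k⁻¹)).1 x = x :=
    fun f x x1 x2 x3 => by
      obtain ⟨u, hu, rfl⟩ := h.co.surj x
      have uy : u * y = y * u := ey ▸
        (Commute.mul_right ((h.co.cm hu ha).2 x2) (h.k0 hu ((h.perp hu).2 x1) ha' hs' x3).symm :)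
      have := h.tb_inf hy (mul_mem (h.lx.conj_mem (cz f) hu) (inv_mem hu))
        (by convert (cy f).mul h.lx ((cy f).inv.cj' uy) using 1; group)
      rw [← h.co.sg_act (cz f) hu, mul_inv_eq_one.1 this]
  haveI : Finite O8 := Finite.of_injective (fun g : O8 => (g.1 : W → W)) fun g g' e => H13.OG_ext fun x => congrFun e x
  have := Nat.card_le_card_of_injective
    (fun f => (⟨sg ρ (k * c f * k⁻¹), h.co.sg_mem (cz f), fx f⟩ : {g : O8 // g ∈ Ω ∧ ∀ x, polar Q8 x v = 0 →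
      polar Q8 x (p a) = 0 → polar Q8 x (p a') = 0 → g.1 x = x})) fun f f' e => ci (by
      have := h.tb_inf hy (h.co.sg_quo (cz f) (cz f') (congrArg Subtype.val e)) ((cy f).mul h.lx (cy f').inv)
      simpa using mul_inv_eq_one.1 this)
  exact absurd ((fix16 g2).trans this) (not_le.2 (h.of.cnt _ _ _ ap))

end Cx

end Cfsg.Agent.CoT
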