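import Cfsg.Agent.CoT.U2
import Cfsg.Agent.CoT.N

/-! Elements of order five with a fixed space of minus type and dimension four. -/

set_option autoImplicit false

namespace Cfsg.Agent.CoT

open Cfsg Cfsg.Agent.H10 Subgroup QuadraticMap

abbrev Ω4 : Type := Cfsg.Omega (ZMod 2) (Cfsg.quadFormMinus 1 (ZMod 2) 1 1)

/-- `v, β, a, w` is a basis of a four-space of minus type -/
def Fr (v β a w : W) : Prop := Q8 v = 0 ∧ polar Q8 β v = 1 ∧ AP v 1 a w ∧ polar Q8 β a = 0 ∧ polar Q8 β w = 0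

/-- `x` is orthogonal to the four-space -/
def Pp (v β a w x : W) : Prop := polar Q8 x v = 0 ∧ polar Q8 x β = 0 ∧ polar Q8 x a = 0 ∧ polar Q8 x w = 0

/-- `x` lies in the four-space -/
def Sp (v β a w x : W) : Prop := ∃ i j k l : ZMod 2, x = i • v + j • β + k • a + l • w

/-- pointwise stabiliser of the four-space -/
def S0 (v β a w : W) : Subgroup O8 where
  carrier := {k | k ∈ Ω ∧ k.1 v = v ∧ k.1 β = β ∧ k.1 a = a ∧ k.1 w = w}
  one_mem' := ⟨one_mem _, rfl, rfl, rfl, rfl⟩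
  mul_mem' := fun ⟨h0, h1, h2, h3, h4⟩ ⟨k0, k1, k2, k3, k4⟩ => ⟨mul_mem h0 k0, by rw [H13.OG_mul_apply, k1, h1],
    by rw [H13.OG_mul_apply, k2, h2], by rw [H13.OG_mul_apply, k3, h3], by rw [H13.OG_mul_apply, k4, h4]⟩
  inv_mem' := fun {k} ⟨h0, h1, h2, h3, h4⟩ => ⟨inv_mem h0, k.1.symm_apply_eq.2 h1.symm, k.1.symm_apply_eq.2 h2.symm,
    k.1.symm_apply_eq.2 h3.symm, k.1.symm_apply_eq.2 h4.symm⟩

/-- pointwise stabiliser of its orthogonal complement -/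
def S1 (v β a w : W) : Subgroup O8 where
  carrier := {k | k ∈ Ω ∧ ∀ x, Pp v β a w x → k.1 x = x}
  one_mem' := ⟨one_mem _, fun _ _ => rfl⟩
  mul_mem' := fun ⟨h0, h1⟩ ⟨k0, k1⟩ => ⟨mul_mem h0 k0, fun x hx => by rw [H13.OG_mul_apply, k1 x hx, h1 x hx]⟩
  inv_mem' := fun {k} ⟨h0, h1⟩ => ⟨inv_mem h0, fun x hx => k.1.symm_apply_eq.2 (h1 x hx).symm⟩

/-- the linear algebra used -/
structure LA (v β a w : W) : Prop where
  l0 : Nonempty (S0 v β a w ≃* alternatingGroup (Fin 5))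
  l1 : Nonempty (S1 v β a w ≃* Ω4)
  l3 : ∀ g ∈ S0 v β a w, g ^ 5 = 1 → g ≠ 1 → ∀ k ∈ Ω, k * g = g * k → ∃ i : ℕ, g ^ i * k ∈ S1 v β a w
  l4 : ∀ g ∈ S0 v β a w, g ^ 5 = 1 → g ≠ 1 → ∀ x, Pp v β a w x → g.1 x = x → x = 0
  l5 : ∀ g ∈ S0 v β a w, ∀ k ∈ S1 v β a w, g * k = k * g
  l6 : ∀ x, ∃ y, Sp v β a w y ∧ Pp v β a w (x + y)
  l7 : ∀ i j k l : ZMod 2, ∃ y, Sp v β a w y ∧ polar Q8 y v = i ∧ polar Q8 y β = j ∧ polar Q8 y a = k ∧ polar Q8 y w = l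

/-- the configuration centralised by `f` -/
structure Fv {G : Type*} [Group G] (z : G) (Q : Subgroup G) (ρ : centralizer ({z} : Set G) →* O8) (p : G → W)
    (s b m f a a' : G) : Prop where
  cx : Cx z Q ρ p vv s b m
  f5 : orderOf f = 5
  fD : ∀ d ∈ ({z, s, b, a, a', m} : Set G), d * f = f * d
  aQ : a ∈ Q
  aQ' : a' ∈ Q
  fr : Fr vv (p b) (p a) (p a')

/-- the group `X` -/
abbrev XX {G : Type*} [Group G] (z s b m a a' : G) : Subgroup G := centralizer ({z, s, b, a, a', m} : Set G)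

end Cfsg.Agent.CoT
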