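import Cfsg.Agent.CoT.J0
import Cfsg.Agent.CoT.L
import Cfsg.Agent.H13.Low
import Cfsg.Agent.H13.Witt
import Cfsg.Agent.S0824

/-! The pointwise stabilisers of a four-space of minus type and of its complement. -/

set_option autoImplicit false
set_option synthInstance.maxSize 4000
set_option synthInstance.maxHeartbeats 200000

namespace Cfsg.Agent.CoT

open Cfsg Cfsg.Agent.H13 Subgroup QuadraticMap PL

namespace K0

abbrev V4 : Type := (Fin 1 ⊕ Fin 1) ⊕ Fin 2 → ZMod 2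
noncomputable abbrev QM : QuadraticForm (ZMod 2) V4 := QMinus 1 (ZMod 2) 1 1

theorem ndM : ND QM := nd_QMinus' (by decide)

theorem pol {ι : V4 →ₗ[ZMod 2] W} (hι : ∀ x, Q8 (ι x) = QM x) (x y : V4) :
    polar Q8 (ι x) (ι y) = polar QM x y := by
  simp only [polar, ← map_add, hι]

theorem inj {ι : V4 →ₗ[ZMod 2] W} (hι : ∀ x, Q8 (ι x) = QM x) : Function.Injective ι :=
  (injective_iff_map_eq_zero ι).2 fun x hx => ndM x fun y => by
    rw [← pol hι, hx, polar_zero_left]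

theorem gen (ι : V4 →ₗ[ZMod 2] W) (hι : ∀ x, Q8 (ι x) = QM x) (S : Subgroup O8)
    (hS : ∀ k, k ∈ S ↔ k ∈ Ω ∧ ∀ z, (∀ x, polar Q8 (ι x) z = 0) → k.1 z = z) :
    Nonempty (S ≃* Ω4) := by
  have nd : ND Q8 := nd_QPlus
  have gd : Good Q8 := .inr (.inl (by simp))
  let s : SemiSim QM (Q8.restrict (LinearMap.range ι)) :=
    .ofIsometry (LinearEquiv.ofInjective ι (inj hι)) hι
  have nU := s.nd ndM
  have hW := nd.isCompl nU
  have gU : Good (Q8.restrict (LinearMap.range ι)) := .inr (.inr (by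
    rintro ⟨_, x, rfl⟩ ⟨_, y, rfl⟩ h1 h2 h3 h4
    rcases (by decide +kernel : ∀ x y : V4, QM x = 0 → QM y = 0 → polar QM x y = 0 → x ≠ 0 →
      y = 0 ∨ y = x) x y ((hι x).symm.trans h1) ((hι y).symm.trans h2) ((pol hι x y).symm.trans h3)
      (fun e => h4 (Subtype.ext (by simp [e]))) with rfl | rfl
    · exact Submodule.mem_span_singleton.2 ⟨0, Subtype.ext (by simp)⟩
    · exact Submodule.mem_span_singleton_self _))
  have e : S = (Om _).map (extOG hW) := by
    ext k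
    rw [hS]
    constructor
    · rintro ⟨h1, h2⟩
      obtain ⟨g, rfl⟩ := (nd.mem_range_extOG hW).2 fun z hz => h2 z fun x => hz _ ⟨x, rfl⟩
      exact ⟨g, (extOG_mem_Om_iff nd gd hW nU gU g).1 h1, rfl⟩
    · rintro ⟨g, hg, rfl⟩
      exact ⟨(extOG_mem_Om_iff nd gd hW nU gU g).2 hg, fun z hz => extOG_apply_perp hW g (by
        rintro _ ⟨x, rfl⟩; exact hz x)⟩
  exact ⟨(MulEquiv.subgroupCongr e).trans (((Om _).equivMapOfInjective _
    (extOG_injective hW)).symm.trans ((commutatorEquiv s.conj).symm.trans (omegaEquiv QM).symm))⟩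

/-- the linear map with given images of the basis -/
def lin (p q r t : W) : V4 →ₗ[ZMod 2] W where
  toFun x := x (.inl (.inl 0)) • p + x (.inl (.inr 0)) • q + x (.inr 0) • r + x (.inr 1) • t
  map_add' x y := by simp only [Pi.add_apply, add_smul]; abel
  map_smul' c x := by simp [mul_smul, smul_add]

theorem lin_apply (p q r t : W) (x : V4) : lin p q r t x =
    x (.inl (.inl 0)) • p + x (.inl (.inr 0)) • q + x (.inr 0) • r + x (.inr 1) • t := rfl

variable {v β a w : W}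

theorem iso (h : Fr v β a w) (x : V4) : Q8 (lin v (β + Q8 β • v) a w x) = QM x := by
  obtain ⟨h1, h2, ⟨h3, h4, h5, h6, h7, -⟩, h8, h9⟩ := h
  have h0 : polar Q8 v v = 0 := by rw [polar_self, h1, smul_zero]
  rw [lin_apply, QMinus_apply]
  simp only [qadd, QuadraticMap.map_smul, pl, pr, polar_smul_left, polar_smul_right, pc v β,
    pc v a, pc v w, h0, h1, h2, h3, h4, h5, h6, h7, h8, h9, smul_eq_mul, Finset.univ_unique,
    Finset.sum_singleton, Fin.default_eq_zero]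
  generalize Q8 β = c
  generalize x (.inl (.inl 0)) = i
  generalize x (.inl (.inr 0)) = j
  generalize x (.inr 0) = k
  generalize x (.inr 1) = l
  revert c i j k l
  decide

theorem pts (v β a w : W) : ∃ x1 x2 x3 x4, lin v (β + Q8 β • v) a w x1 = v ∧
    lin v (β + Q8 β • v) a w x2 = β ∧ lin v (β + Q8 β • v) a w x3 = a ∧
    lin v (β + Q8 β • v) a w x4 = w :=
  ⟨Pi.single (.inl (.inl 0)) 1, Pi.single (.inl (.inr 0)) 1 + Q8 β • Pi.single (.inl (.inl 0)) 1,
    Pi.single (.inr 0) 1, Pi.single (.inr 1) 1, by simp [lin_apply], by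
      rw [map_add, map_smul]; simpa [lin_apply] using cancel _ _, by simp [lin_apply],
    by simp [lin_apply]⟩

/-- basis vectors -/
def bv (i : Fin 4 ⊕ Fin 4) : W := fun j => if j = i then 1 else 0

/-- the standard four-space -/
def i0 : V4 →ₗ[ZMod 2] W := lin (bv (.inl 0)) (bv (.inr 0)) (bv (.inl 1) + bv (.inr 1))
  (bv (.inl 2) + bv (.inl 1) + bv (.inr 2))

/-- its orthogonal complement -/
def i1 : V4 →ₗ[ZMod 2] W := lin (bv (.inl 3)) (bv (.inr 3)) (bv (.inl 2) + bv (.inr 2))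
  (bv (.inl 1) + bv (.inr 1) + bv (.inl 2))

theorem q0 : ∀ x, Q8 (i0 x) = QM x := by decide +kernel
theorem q1 : ∀ x, Q8 (i1 x) = QM x := by decide +kernel
theorem q2 : ∀ x y, polar Q8 (i1 x) (i0 y) = 0 := by decide +kernel
theorem q3 : ∀ z, (∀ x, polar Q8 (i1 x) z = 0) → ∃ y, z = i0 y := by decide +kernel

theorem witt {ι : V4 →ₗ[ZMod 2] W} (hι : ∀ x, Q8 (ι x) = QM x) :
    ∃ g : O8, ∀ x, g.1 (i0 x) = ι x := by
  have b := (Pi.basisFun (ZMod 2) ((Fin 1 ⊕ Fin 1) ⊕ Fin 2)).linearIndependent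
  obtain ⟨g, g1, g2⟩ := witt_quad_family Q8 nd_QPlus _ _
    (b.map' i0 (LinearMap.ker_eq_bot.2 (inj q0))) (b.map' ι (LinearMap.ker_eq_bot.2 (inj hι)))
    (fun i j => (pol hι _ _).trans (pol q0 _ _).symm) fun i => (hι _).trans (q0 _).symm
  exact ⟨⟨g, g1⟩, fun x => LinearMap.congr_fun
    ((Pi.basisFun (ZMod 2) _).ext (f₁ := g.toLinearMap ∘ₗ i0) (f₂ := ι) g2) x⟩

theorem oA5 : Nonempty (Ω4 ≃* alternatingGroup (Fin 5)) := by
  obtain ⟨e⟩ := S0824.result (F := ZMod 2) (ZMod.card 2)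
  refine ⟨(e.subgroupMap _).trans (MulEquiv.subgroupCongr ?_)⟩
  refine Eq.trans ?_ (alternatingGroup.commutator_perm_eq (by simp))
  rw [Omega, _root_.commutator_def, _root_.commutator_def, map_commutator,
    map_top_of_surjective _ e.surjective]

end K0

open K0

variable {v β a w : W}

theorem K0.l1' (h : Fr v β a w) : Nonempty (S1 v β a w ≃* Ω4) := by
  refine gen _ (iso h) _ fun k => and_congr_right fun _ => forall_congr' fun z =>
    imp_congr_left ⟨fun ⟨h1, h2, h3, h4⟩ x => ?_, fun H => ?_⟩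
  · rw [pc, lin_apply]
    simp only [pr, polar_smul_right, h1, h2, h3, h4, smul_zero, add_zero]
  · obtain ⟨x1, x2, x3, x4, e1, e2, e3, e4⟩ := pts v β a w
    exact ⟨pc _ _ ▸ e1 ▸ H x1, pc _ _ ▸ e2 ▸ H x2, pc _ _ ▸ e3 ▸ H x3, pc _ _ ▸ e4 ▸ H x4⟩

theorem l0' (h : Fr v β a w) : Nonempty (S0 v β a w ≃* Ω4) := by
  obtain ⟨g, hg⟩ := witt (iso h)
  refine gen (g.1.toLinearMap ∘ₗ i1) (fun x => (OG_map g _).trans (q1 x)) _ fun k =>
    and_congr_right fun _ => ⟨fun ⟨h1, h2, h3, h4⟩ z hz => ?_, fun H => ?_⟩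
  · obtain ⟨z, rfl⟩ := g.1.surjective z
    obtain ⟨y, rfl⟩ := q3 z fun x => (OG_polar g _ _).symm.trans (hz x)
    rw [hg, lin_apply]
    simp only [map_add, map_smul, h1, h2, h3, h4]
  · have k0 : ∀ y, k.1 (lin v (β + Q8 β • v) a w y) = lin v (β + Q8 β • v) a w y := fun y =>
      H _ fun x => by rw [← hg]; exact (OG_polar g _ _).trans (q2 x y)
    obtain ⟨x1, x2, x3, x4, e1, e2, e3, e4⟩ := pts v β a w
    exact ⟨by simpa only [e1] using k0 x1, by simpa only [e2] using k0 x2,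
      by simpa only [e3] using k0 x3, by simpa only [e4] using k0 x4⟩

theorem l0 (h : Fr v β a w) : Nonempty (S0 v β a w ≃* alternatingGroup (Fin 5)) :=
  ⟨(l0' h).some.trans oA5.some⟩

end Cfsg.Agent.CoT
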