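import Cfsg.Agent.CoT.K1
import Cfsg.Agent.S0824

/-! The pointwise stabiliser of a four-space of minus type. -/

set_option autoImplicit false
set_option synthInstance.maxSize 4000
set_option synthInstance.maxHeartbeats 200000
set_option maxRecDepth 100000

namespace Cfsg.Agent.CoT.K0b

open Cfsg Cfsg.Agent.H10 Cfsg.Agent.H13 Subgroup QuadraticMap Cfsg.Agent.CoT.K1

theorem oA5 : Nonempty (Ω4 ≃* alternatingGroup (Fin 5)) := by
  obtain ⟨e⟩ := S0824.result (F := ZMod 2) (ZMod.card 2)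
  refine ⟨(e.subgroupMap _).trans (MulEquiv.subgroupCongr ?_)⟩
  refine Eq.trans ?_ (alternatingGroup.commutator_perm_eq (by simp))
  rw [Omega, _root_.commutator_def, _root_.commutator_def, map_commutator,
    map_top_of_surjective _ e.surjective]

/-- basis vectors -/
def bv (i : Fin 4 ⊕ Fin 4) : W := fun j => if j = i then 1 else 0

/-- the first standard four-space -/
def L0 : V4 →ₗ[ZMod 2] W :=
  L (bv (.inl 0)) (bv (.inr 0)) (bv (.inl 2) + bv (.inr 2)) (bv (.inr 2) + bv (.inl 3) + bv (.inr 3))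

/-- its complement -/
def L2 : V4 →ₗ[ZMod 2] W :=
  L (bv (.inl 1)) (bv (.inr 1)) (bv (.inl 3) + bv (.inr 3)) (bv (.inr 3) + bv (.inl 2) + bv (.inr 2))

theorem q0 (u : V4) : Q8 (L0 u) = q4 u := by
  refine QL ?_ ?_ ?_ ?_ ?_ ?_ ?_ ?_ ?_ ?_ u <;> simp only [polar, QPlus_apply] <;> decide

theorem q2 (u : V4) : Q8 (L2 u) = q4 u := by
  refine QL ?_ ?_ ?_ ?_ ?_ ?_ ?_ ?_ ?_ ?_ u <;> simp only [polar, QPlus_apply] <;> decide

theorem p02 : ∀ u u' : V4, polar Q8 (L2 u') (L0 u) = 0 := by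
  simp only [polar_QPlus]
  decide +kernel

theorem inj {T : V4 →ₗ[ZMod 2] W} (hQ : ∀ u, Q8 (T u) = q4 u) : Function.Injective T :=
  (injective_iff_map_eq_zero _).2 fun x hx => nd4 x fun y => by
    have : polar Q8 (T x) (T y) = polar q4 x y := by simp only [polar, ← map_add, hQ]
    rw [← this, hx, polar_zero_left]

theorem l0 {v β a w : W} (h : Fr v β a w) : Nonempty (S0 v β a w ≃* alternatingGroup (Fin 5)) := by
  obtain ⟨hv, h1, ⟨h2, h3, ha, hw, h6, -⟩, h4, h5⟩ := h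
  have nd : ND Q8 := nd_QPlus
  have vv0 : polar Q8 v v = 0 := by rw [polar_self, hv, smul_zero]
  have hQ : ∀ u, Q8 (L v (β + Q8 β • v) a w u) = q4 u := by
    refine QL (β := β + Q8 β • v) hv ?_ ha hw ?_ (polar_comm Q8 a v ▸ h2) (polar_comm Q8 w v ▸ h3) ?_ ?_ h6
    · rw [QuadraticMap.map_add Q8, QuadraticMap.map_smul, polar_smul_right, hv, h1, smul_zero, add_zero, smul_eq_mul, mul_one]
      exact CharTwo.add_self_eq_zero _
    · rw [polar_add_right, polar_smul_right, vv0, smul_zero, add_zero, polar_comm, h1]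
    · rw [polar_add_left, polar_smul_left, h4, polar_comm Q8 v a, h2, smul_zero, add_zero]
    · rw [polar_add_left, polar_smul_left, h5, polar_comm Q8 v w, h3, smul_zero, add_zero]
  let e0 := LinearEquiv.ofInjective _ (inj q0)
  have hφ : ∀ x, Q8 ((L v (β + Q8 β • v) a w ∘ₗ e0.symm.toLinearMap) x) = Q8 x := fun x => by
    obtain ⟨u, rfl⟩ := e0.surjective x
    simp only [LinearMap.comp_apply, LinearEquiv.coe_coe, LinearEquiv.symm_apply_apply, hQ]
    exact (q0 u).symm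
  obtain ⟨g, -, g1, g2⟩ := (wittData_quad Q8 nd).extend (LinearMap.range L0) (L v (β + Q8 β • v) a w ∘ₗ e0.symm.toLinearMap)
    ((inj hQ).comp e0.symm.injective) (fun x y => by
      simp only [polarBilin_apply_apply, polar, ← map_add, hφ, Submodule.coe_add]) hφ
  have g3 : ∀ u, g (L0 u) = L v (β + Q8 β • v) a w u := fun u => (g2 (e0 u)).trans (by simp)
  have g4 : ∀ u, L (g (bv (.inl 1))) (g (bv (.inr 1))) (g (bv (.inl 3) + bv (.inr 3)))
      (g (bv (.inr 3) + bv (.inl 2) + bv (.inr 2))) u = g (L2 u) := fun u => by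
    simp only [L2, L, LinearMap.coe_mk, AddHom.coe_mk, map_add g (_ + _ + _), map_add g (_ • _ + _), map_add g (_ • _), map_smul]
  have hQ' := fun u => (congrArg Q8 (g4 u)).trans ((g1 _).trans (q2 u))
  have pe : LinearMap.range (L v (β + Q8 β • v) a w) = perp Q8 (LinearMap.range (L (g (bv (.inl 1))) (g (bv (.inr 1)))
      (g (bv (.inl 3) + bv (.inr 3))) (g (bv (.inr 3) + bv (.inl 2) + bv (.inr 2))))) := by
    refine Submodule.eq_of_le_of_finrank_eq ?_ ?_
    · rintro _ ⟨u, rfl⟩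
      refine mem_perp.2 ?_
      rintro _ ⟨u', rfl⟩
      rw [g4, ← g3, ← p02 u u']
      simp only [polar, ← map_add, g1]
    · have := nd.finrank_perp (LinearMap.range (L (g (bv (.inl 1))) (g (bv (.inr 1)))
        (g (bv (.inl 3) + bv (.inr 3))) (g (bv (.inr 3) + bv (.inl 2) + bv (.inr 2)))))
      rw [LinearMap.finrank_range_of_inj (inj hQ')] at this
      rw [LinearMap.finrank_range_of_inj (inj hQ)]
      simp at this ⊢
      omega
  obtain ⟨f⟩ := gen hQ' (S0 v β a w) fun k => by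
    rw [← pe]
    refine and_congr_right fun _ => ⟨fun ⟨p1, p2, p3, p4⟩ => ?_, fun hk => ?_⟩
    · rintro _ ⟨u, rfl⟩
      simp only [L, LinearMap.coe_mk, AddHom.coe_mk, map_add, map_smul, p1, p2, p3, p4]
    · have k1 := hk _ ⟨Pi.single (.inl (.inl 0)) 1, rfl⟩
      have k2 := hk _ ⟨Pi.single (.inl (.inr 0)) 1, rfl⟩
      have k3 := hk _ ⟨Pi.single (.inr 0) 1, rfl⟩
      have k4 := hk _ ⟨Pi.single (.inr 1) 1, rfl⟩
      simp [L, Pi.single_apply] at k1 k3 k4
      simp [L, Pi.single_apply, k1] at k2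
      exact ⟨k1, k2, k3, k4⟩
  obtain ⟨f'⟩ := oA5
  exact ⟨f.trans f'⟩

end Cfsg.Agent.CoT.K0b
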