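import Cfsg.Agent.CoT.J0
import Cfsg.Agent.H13.Low

/-! The pointwise stabiliser of the complement of a four-space of minus type. -/

set_option autoImplicit false
set_option synthInstance.maxSize 4000
set_option synthInstance.maxHeartbeats 200000
set_option maxRecDepth 100000

namespace Cfsg.Agent.CoT

open Cfsg Cfsg.Agent.H10 Cfsg.Agent.H13 Subgroup QuadraticMap

namespace K1

abbrev V4 : Type := (Fin 1 ⊕ Fin 1) ⊕ Fin 2 → ZMod 2
noncomputable abbrev q4 : QuadraticForm (ZMod 2) V4 := QMinus 1 (ZMod 2) 1 1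

theorem nd4 : ND q4 := nd_QMinus' (by decide)

theorem g4 : ∀ u a : V4, q4 u = 0 → q4 a = 0 → polar q4 u a = 0 → u ≠ 0 → a = 0 ∨ a = u := by
  simp only [polar, QMinus_apply]
  decide

/-- the embedding `{k ∈ Ω fixing U^⊥ pointwise} ≃ Ω (U)` -/
theorem fixEquiv {U : Submodule (ZMod 2) W} (hU : ND (Q8.restrict U)) (hG : Good (Q8.restrict U)) (S : Subgroup O8)
    (hS : ∀ k, k ∈ S ↔ k ∈ Ω ∧ ∀ z ∈ perp Q8 U, k.1 z = z) : Nonempty (S ≃* Om (Q8.restrict U)) := by
  have nd : ND Q8 := nd_QPlus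
  have hW := nd.isCompl hU
  have e : (Om (Q8.restrict U)).map (extOG hW) = S := by
    ext k
    rw [hS, ← nd.mem_range_extOG hW]
    constructor
    · rintro ⟨g, hg, rfl⟩
      exact ⟨(extOG_mem_Om_iff nd (.inr (.inl (by simp))) hW hU hG g).2 hg, g, rfl⟩
    · rintro ⟨hk, g, rfl⟩
      exact ⟨g, (extOG_mem_Om_iff nd (.inr (.inl (by simp))) hW hU hG g).1 hk, rfl⟩
  exact ⟨(((Om (Q8.restrict U)).equivMapOfInjective _ (extOG_injective hW)).trans (MulEquiv.subgroupCongr e)).symm⟩

/-- the linear map with given images of the basis -/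
def L (v β a w : W) : V4 →ₗ[ZMod 2] W where
  toFun u := u (.inl (.inl 0)) • v + u (.inl (.inr 0)) • β + u (.inr 0) • a + u (.inr 1) • w
  map_add' x y := by simp only [Pi.add_apply, add_smul]; abel
  map_smul' c x := by simp only [Pi.smul_apply, smul_eq_mul, mul_smul, smul_add, RingHom.id_apply]

theorem QL {v β a w : W} (hv : Q8 v = 0) (hβ : Q8 β = 0) (ha : Q8 a = 1) (hw : Q8 w = 1) (h1 : polar Q8 v β = 1)
    (h2 : polar Q8 v a = 0) (h3 : polar Q8 v w = 0) (h4 : polar Q8 β a = 0) (h5 : polar Q8 β w = 0)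
    (h6 : polar Q8 a w = 1) (u : V4) : Q8 (L v β a w u) = q4 u := by
  change Q8 (u (.inl (.inl 0)) • v + u (.inl (.inr 0)) • β + u (.inr 0) • a + u (.inr 1) • w) = _
  simp only [QuadraticMap.map_add Q8, QuadraticMap.map_smul, polar_add_left, polar_smul_left, polar_smul_right, hv, hβ, ha, hw,
    h1, h2, h3, h4, h5, h6, smul_eq_mul, QMinus_apply, Finset.univ_unique, Finset.sum_singleton, Fin.default_eq_zero]
  ring

theorem gen {v β a w : W} (hQ : ∀ u, Q8 (L v β a w u) = q4 u) (S : Subgroup O8)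
    (hS : ∀ k, k ∈ S ↔ k ∈ Ω ∧ ∀ z ∈ perp Q8 (LinearMap.range (L v β a w)), k.1 z = z) : Nonempty (S ≃* Ω4) := by
  have pl : ∀ x y, polar Q8 (L v β a w x) (L v β a w y) = polar q4 x y := fun x y => by
    simp only [polar, ← map_add, hQ]
  have inj : Function.Injective (L v β a w) := (injective_iff_map_eq_zero _).2 fun x hx =>
    nd4 x fun y => by rw [← pl, hx, polar_zero_left]
  let e := LinearEquiv.ofInjective _ inj
  have he : ∀ u, (Q8.restrict (LinearMap.range (L v β a w))) (e u) = q4 u := hQ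
  let s := SemiSim.ofIsometry e he
  have hG : Good (Q8.restrict (LinearMap.range (L v β a w))) := .inr (.inr fun u x h1 h2 h3 h4 => by
    obtain ⟨u, rfl⟩ := e.surjective u
    obtain ⟨x, rfl⟩ := e.surjective x
    rw [he] at h1 h2
    rcases g4 u x h1 h2 (by simpa only [polar, ← map_add, he] using h3) (fun h => h4 (by rw [h, map_zero])) with rfl | rfl
    · rw [map_zero]; exact zero_mem _
    · exact Submodule.mem_span_singleton_self _)
  obtain ⟨f⟩ := fixEquiv (s.nd nd4) hG S hS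
  exact ⟨f.trans ((commutatorEquiv s.conj).symm.trans (omegaEquiv q4).symm)⟩

end K1

open K1 in
theorem l1 {v β a w : W} (h : Fr v β a w) : Nonempty (S1 v β a w ≃* Ω4) := by
  obtain ⟨hv, h1, ⟨h2, h3, ha, hw, h6, -⟩, h4, h5⟩ := h
  have vv0 : polar Q8 v v = 0 := by rw [polar_self, hv, smul_zero]
  refine gen (QL (β := β + Q8 β • v) hv ?_ ha hw ?_ (polar_comm Q8 a v ▸ h2) (polar_comm Q8 w v ▸ h3) ?_ ?_ h6) _ fun k => ?_
  · rw [QuadraticMap.map_add Q8, QuadraticMap.map_smul, polar_smul_right, hv, h1, smul_zero, add_zero, smul_eq_mul, mul_one]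
    exact CharTwo.add_self_eq_zero _
  · rw [polar_add_right, polar_smul_right, vv0, smul_zero, add_zero, polar_comm, h1]
  · rw [polar_add_left, polar_smul_left, h4, polar_comm Q8 v a, h2, smul_zero, add_zero]
  · rw [polar_add_left, polar_smul_left, h5, polar_comm Q8 v w, h3, smul_zero, add_zero]
  · refine and_congr_right fun _ => forall_congr' fun x => imp_congr_left ⟨fun ⟨p1, p2, p3, p4⟩ => ?_, fun hx => ?_⟩
    · rintro _ ⟨u, rfl⟩
      change polar Q8 (u (.inl (.inl 0)) • v + u (.inl (.inr 0)) • (β + Q8 β • v) + u (.inr 0) • a + u (.inr 1) • w) x = 0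
      rw [polar_comm]
      simp only [polar_add_right, polar_smul_right, p1, p2, p3, p4, smul_zero, add_zero]
    · have k : ∀ u : V4, polar Q8 x (u (.inl (.inl 0)) • v + u (.inl (.inr 0)) • (β + Q8 β • v) + u (.inr 0) • a +
          u (.inr 1) • w) = 0 := fun u => polar_comm Q8 _ x ▸ hx _ ⟨u, rfl⟩
      have k1 := k (Pi.single (.inl (.inl 0)) 1)
      have k2 := k (Pi.single (.inl (.inr 0)) 1)
      have k3 := k (Pi.single (.inr 0) 1)
      have k4 := k (Pi.single (.inr 1) 1)
      simp [Pi.single_apply] at k1 k3 k4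
      simp [Pi.single_apply, k1] at k2
      exact ⟨k1, k2, k3, k4⟩

end Cfsg.Agent.CoT
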