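import Cfsg.Agent.CoT.J0

/-! Linear algebra for a four-space of minus type and its orthogonal complement. -/

set_option autoImplicit false

namespace Cfsg.Agent.CoT

open Cfsg Cfsg.Agent.H10 Subgroup QuadraticMap PL

variable {v β a w : W}

namespace K3

theorem nd : H13.ND Q8 := H13.nd_QPlus

theorem ps (x : W) : polar Q8 x x = 0 := by
  have := qadd x x
  rw [xx, map_zero, rr, zero_add] at this
  exact this.symm

theorem gram (h : Fr v β a w) (i j k l : ZMod 2) :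
    polar Q8 (i • v + j • β + k • a + l • w) v = j ∧ polar Q8 (i • v + j • β + k • a + l • w) β = i ∧
    polar Q8 (i • v + j • β + k • a + l • w) a = l ∧ polar Q8 (i • v + j • β + k • a + l • w) w = k := by
  obtain ⟨-, bv, ⟨av, wv, -, -, aw, -⟩, ba, bw⟩ := h
  simp only [pl, polar_smul_left, smul_eq_mul, ps, pc v β, pc v a, pc v w, pc a β, pc w β, pc w a,
    bv, av, wv, aw, ba, bw, mul_zero, mul_one, add_zero, zero_add, and_self]

theorem sp_pp {x y : W} (hy : Sp v β a w y) (hx : Pp v β a w x) : polar Q8 x y = 0 := by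
  obtain ⟨i, j, k, l, rfl⟩ := hy
  simp only [pr, polar_smul_right, hx.1, hx.2.1, hx.2.2.1, hx.2.2.2, smul_zero, add_zero]

theorem fixS {g : O8} (hg : g ∈ S0 v β a w) {y : W} (hy : Sp v β a w y) : g.1 y = y := by
  obtain ⟨i, j, k, l, rfl⟩ := hy
  obtain ⟨-, h1, h2, h3, h4⟩ := hg
  simp only [map_add, map_smul, h1, h2, h3, h4]

theorem gP {g : O8} (hg : g ∈ S0 v β a w) {x : W} (hx : Pp v β a w x) : Pp v β a w (g.1 x) := by
  obtain ⟨-, h1, h2, h3, h4⟩ := hg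
  exact ⟨by rw [← h1, H13.OG_polar]; exact hx.1, by rw [← h2, H13.OG_polar]; exact hx.2.1,
    by rw [← h3, H13.OG_polar]; exact hx.2.2.1, by rw [← h4, H13.OG_polar]; exact hx.2.2.2⟩

theorem mvP {g : O8} (hg : g ∈ S0 v β a w) (x : W) : Pp v β a w (g.1 x + x) := by
  obtain ⟨-, h1, h2, h3, h4⟩ := hg
  have k : ∀ t, g.1 t = t → polar Q8 (g.1 x + x) t = 0 := fun t ht => by
    have := H13.OG_polar g x t
    rw [ht] at this
    rw [pl, this, rr]
  exact ⟨k _ h1, k _ h2, k _ h3, k _ h4⟩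

end K3

open K3

theorem l7 (h : Fr v β a w) : ∀ i j k l : ZMod 2, ∃ y, Sp v β a w y ∧ polar Q8 y v = i ∧
    polar Q8 y β = j ∧ polar Q8 y a = k ∧ polar Q8 y w = l :=
  fun i j k l => ⟨_, ⟨j, i, l, k, rfl⟩, gram h j i l k⟩

theorem l6 (h : Fr v β a w) : ∀ x, ∃ y, Sp v β a w y ∧ Pp v β a w (x + y) := fun x => by
  obtain ⟨y, hy, h1, h2, h3, h4⟩ := l7 h (polar Q8 x v) (polar Q8 x β) (polar Q8 x a) (polar Q8 x w)
  exact ⟨y, hy, by rw [pl, h1, rr], by rw [pl, h2, rr], by rw [pl, h3, rr], by rw [pl, h4, rr]⟩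

namespace K3

theorem ndP (h : Fr v β a w) {u : W} (hu : Pp v β a w u) (e : ∀ x, Pp v β a w x → polar Q8 u x = 0) :
    u = 0 := nd _ fun x => by
  obtain ⟨y, hy, hx⟩ := l6 h x
  rw [← cancel x y, pr, e _ hx, sp_pp hy hu, add_zero]

theorem kS (h : Fr v β a w) {k : O8} (hk : k ∈ S1 v β a w) {y : W} (hy : Sp v β a w y) :
    Sp v β a w (k.1 y) := by
  obtain ⟨y', hy', hx⟩ := l6 h (k.1 y)
  have := ndP h hx fun x hx' => by
    have e := H13.OG_polar k y x
    rw [hk.2 x hx'] at e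
    rw [pl, e, pc y, pc y', sp_pp hy hx', sp_pp hy' hx', add_zero]
  rw [← cancel (k.1 y) y', this, zero_add]
  exact hy'

abbrev T4 : Type := Fin 4 → ZMod 2

def T (c : T4) : T4 := ![c 3, c 0 + c 3, c 1 + c 3, c 2 + c 3]

def bil (p q : ZMod 2) (c d : T4) : ZMod 2 :=
  p * (c 0 * d 1 + c 1 * d 0 + c 1 * d 2 + c 2 * d 1 + c 2 * d 3 + c 3 * d 2) +
    q * (c 0 * d 2 + c 2 * d 0 + c 1 * d 3 + c 3 * d 1 + c 0 * d 3 + c 3 * d 0)

theorem d1 : ∀ c : T4, c ≠ 0 → ∃ d : T4,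
    d 0 • c + d 1 • T c + d 2 • T (T c) + d 3 • T (T (T c)) = ![1, 0, 0, 0] := by decide +kernel

theorem d2 : ∀ c : T4, T c = c → c = 0 := by decide +kernel

theorem d3 : ∀ (p q : ZMod 2) (c : T4), ¬ (p = 0 ∧ q = 0) → bil p q c (T c) = p →
    bil p q c (T (T c)) = q → ∃ i : Fin 5, T^[i.1] c = ![1, 0, 0, 0] := by decide +kernel

noncomputable def E (g : O8) (u : W) : T4 →ₗ[ZMod 2] W :=
  Fintype.linearCombination (ZMod 2) ![u, g.1 u, g.1 (g.1 u), g.1 (g.1 (g.1 u))]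

theorem E_ap (g : O8) (u : W) (c : T4) :
    E g u c = c 0 • u + c 1 • g.1 u + c 2 • g.1 (g.1 u) + c 3 • g.1 (g.1 (g.1 u)) := by
  simp only [E, Fintype.linearCombination_apply, Fin.sum_univ_four, Matrix.cons_val]

theorem E1 (g : O8) (u : W) : E g u ![1, 0, 0, 0] = u := by
  simp only [E_ap, Matrix.cons_val, one_smul, zero_smul, add_zero]

theorem cyc (h : Fr v β a w) {g : O8} (hg : g ∈ S0 v β a w) (h5 : g ^ 5 = 1) (h1 : g ≠ 1) :
    ∃ x0 u, u = g.1 x0 + x0 ∧ u ≠ 0 ∧ (∀ c, g.1 (E g u c) = E g u (T c)) ∧ Function.Injective (E g u) ∧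
      (∀ x, Pp v β a w x → ∃ c, x = E g u c) ∧
      ∀ c d, polar Q8 (E g u c) (E g u d) = bil (polar Q8 u (g.1 u)) (polar Q8 u (g.1 (g.1 u))) c d := by
  have g5 : ∀ x, g.1 (g.1 (g.1 (g.1 (g.1 x)))) = x := fun x => by
    have : (g * (g * (g * (g * g)))).1 x = x := by
      rw [show g * (g * (g * (g * g))) = g ^ 5 by simp only [pow_succ', pow_zero, mul_one], h5]; rfl
    simpa only [H13.OG_mul_apply] using this
  obtain ⟨x0, hx0⟩ : ∃ x0, g.1 x0 ≠ x0 := by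
    by_contra hn
    push Not at hn
    exact h1 (H13.OG_ext hn)
  obtain ⟨u, hu⟩ : ∃ u, u = g.1 x0 + x0 := ⟨_, rfl⟩
  have u0 : u ≠ 0 := fun e => hx0 (by rw [← cancel (g.1 x0) x0, ← hu, e, zero_add])
  have uP : Pp v β a w u := hu ▸ mvP hg x0
  have h4 : g.1 (g.1 (g.1 (g.1 u))) = u + g.1 u + g.1 (g.1 u) + g.1 (g.1 (g.1 u)) := by
    simp only [hu, map_add, g5]
    rw [← add_zero (x0 + _), ← add_zero (0 : W), ← add_zero (0 : W)]
    nth_rewrite 1 [← xx (g.1 x0)]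
    nth_rewrite 1 [← xx (g.1 (g.1 x0))]
    nth_rewrite 1 [← xx (g.1 (g.1 (g.1 x0)))]
    nth_rewrite 1 [← xx 0]
    abel
  have gE : ∀ c, g.1 (E g u c) = E g u (T c) := fun c => by
    simp only [E_ap, map_add, map_smul, h4, T, Matrix.cons_val, add_smul, smul_add]
    abel
  have inj0 : ∀ c, E g u c = 0 → c = 0 := fun c e => by
    by_contra hc
    obtain ⟨d, hd⟩ := d1 c hc
    have := congrArg (E g u) hd
    simp only [map_add, map_smul, ← gE, e, map_zero, smul_zero, add_zero, E1] at this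
    exact u0 this.symm
  have EP : ∀ c, Pp v β a w (E g u c) := fun c => by
    have p1 := gP hg uP
    have p2 := gP hg p1
    have p3 := gP hg p2
    simp only [Pp, E_ap, pl, polar_smul_left, uP.1, uP.2.1, uP.2.2.1, uP.2.2.2, p1.1, p1.2.1, p1.2.2.1,
      p1.2.2.2, p2.1, p2.2.1, p2.2.2.1, p2.2.2.2, p3.1, p3.2.1, p3.2.2.1, p3.2.2.2, smul_zero,
      add_zero, and_self]
  have dz : ∀ (c d : T4), Pp v β a w (E g u c + Fintype.linearCombination (ZMod 2) ![v, β, a, w] d) →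
      d = 0 := fun c d e => by
    have p := EP c
    have q := gram h (d 0) (d 1) (d 2) (d 3)
    simp only [Pp, Fintype.linearCombination_apply, Fin.sum_univ_four, Matrix.cons_val, pl (E g u c),
      p.1, p.2.1, p.2.2.1, p.2.2.2, zero_add, q.1, q.2.1, q.2.2.1, q.2.2.2] at e
    funext i
    fin_cases i
    exacts [e.2.1, e.1, e.2.2.2, e.2.2.1]
  have bij := (Function.Injective.bijective_of_nat_card_le
    (f := (E g u).coprod (Fintype.linearCombination (ZMod 2) ![v, β, a, w]))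
    ((injective_iff_map_eq_zero _).2 fun ⟨c, d⟩ e => by
      rw [LinearMap.coprod_apply] at e
      have d0 := dz c d (by
        simp only at e
        rw [e]; simp only [Pp, polar_zero_left, and_self])
      subst d0
      simp only [map_zero, add_zero] at e
      rw [inj0 c e]; rfl) (by simp [Nat.card_eq_fintype_card])).2
  refine ⟨x0, u, hu, u0, gE, (injective_iff_map_eq_zero _).2 inj0, fun x hx => ?_, fun c d => ?_⟩
  · obtain ⟨⟨c, d⟩, e⟩ := bij x
    rw [LinearMap.coprod_apply] at e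
    have d0 := dz c d (by simp only at e; rw [e]; exact hx)
    subst d0
    exact ⟨c, by rw [← e, map_zero, add_zero]⟩
  · have b3 : polar Q8 u (g.1 (g.1 (g.1 u))) = polar Q8 u (g.1 (g.1 u)) := by
      rw [← H13.OG_polar g, ← H13.OG_polar g, g5, pc]
    simp only [E_ap, pl, pr, polar_smul_left, polar_smul_right, smul_eq_mul, H13.OG_polar, ps,
      pc (g.1 _) u, b3, bil]
    ring

end K3

theorem l5 (h : Fr v β a w) : ∀ g ∈ S0 v β a w, ∀ k ∈ S1 v β a w, g * k = k * g :=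
  fun g hg k hk => H13.OG_ext fun x => by
    obtain ⟨y, hy, hx⟩ := l6 h x
    rw [H13.OG_mul_apply, H13.OG_mul_apply, ← cancel x y, map_add k.1 (x + y), map_add g.1 (x + y),
      hk.2 _ hx, map_add g.1 (x + y), map_add k.1 (g.1 (x + y)), hk.2 _ (gP hg hx), fixS hg hy,
      fixS hg (kS h hk hy)]

theorem l4 (h : Fr v β a w) : ∀ g ∈ S0 v β a w, g ^ 5 = 1 → g ≠ 1 → ∀ x, Pp v β a w x → g.1 x = x →
    x = 0 := fun g hg h5 h1 x hx e => by
  obtain ⟨-, u, -, -, gE, inj, sur, -⟩ := cyc h hg h5 h1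
  obtain ⟨c, rfl⟩ := sur x hx
  rw [gE] at e
  rw [d2 c (inj e), map_zero]

theorem l3 (h : Fr v β a w) : ∀ g ∈ S0 v β a w, g ^ 5 = 1 → g ≠ 1 → ∀ k ∈ Ω, k * g = g * k →
    ∃ i : ℕ, g ^ i * k ∈ S1 v β a w := fun g hg h5 h1 k hk kg => by
  obtain ⟨x0, u, hu, u0, gE, -, sur, bl⟩ := cyc h hg h5 h1
  have ka : ∀ x, k.1 (g.1 x) = g.1 (k.1 x) := fun x => by
    rw [← H13.OG_mul_apply, kg, H13.OG_mul_apply]
  obtain ⟨c, hc⟩ := sur (k.1 u) (by rw [hu, map_add, ka]; exact mvP hg _)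
  obtain ⟨i, hi⟩ := d3 (polar Q8 u (g.1 u)) (polar Q8 u (g.1 (g.1 u))) c
    (fun ⟨p, q⟩ => u0 (ndP h (hu ▸ mvP hg x0) fun x hx => by
      obtain ⟨d, rfl⟩ := sur x hx
      have := bl ![1, 0, 0, 0] d
      rw [E1, p, q] at this
      rw [this, bil, zero_mul, zero_mul, add_zero]))
    (by rw [← bl, ← gE, ← hc, ← ka, H13.OG_polar])
    (by rw [← bl, ← gE, ← gE, ← hc, ← ka, ← ka, H13.OG_polar])
  have gi : ∀ (n : ℕ) d, (g ^ n).1 (E g u d) = E g u (T^[n] d) := fun n => by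
    induction n with
    | zero => exact fun d => rfl
    | succ n ih => exact fun d => by rw [pow_succ, H13.OG_mul_apply, gE, ih]; rfl
  have m1 : (g ^ i.1 * k).1 u = u := by rw [H13.OG_mul_apply, hc, gi, hi, E1]
  have m2 : ∀ x, (g ^ i.1 * k).1 (g.1 x) = g.1 ((g ^ i.1 * k).1 x) := fun x => by
    rw [← H13.OG_mul_apply, ← H13.OG_mul_apply g, mul_assoc, kg, ← mul_assoc, ← mul_assoc,
      ← pow_succ, ← pow_succ']
  refine ⟨i.1, mul_mem (pow_mem hg.1 _) hk, fun x hx => ?_⟩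
  obtain ⟨d, rfl⟩ := sur x hx
  simp only [E_ap, map_add, map_smul, m2, m1]

end Cfsg.Agent.CoT
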