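import Cfsg.Agent.CoT.J0
import Cfsg.Agent.CoT.I3

/-! Linear algebra for an element of order five with a four-dimensional fixed space. -/

set_option autoImplicit false

namespace Cfsg.Agent.CoT.K4

open Cfsg Cfsg.Agent.H10 Subgroup QuadraticMap Module PL I3

variable {v β a w : W}

theorem l7 (h : Fr v β a w) : ∀ i j k l : ZMod 2, ∃ y, Sp v β a w y ∧ polar Q8 y v = i ∧ polar Q8 y β = j ∧
    polar Q8 y a = k ∧ polar Q8 y w = l := by
  obtain ⟨-, h1, ⟨h2, h3, -, -, h4, -⟩, h5, h6⟩ := h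
  refine fun i j k l => ⟨_, ⟨j, i, l, k, rfl⟩, ?_, ?_, ?_, ?_⟩ <;>
    simp only [pl, polar_smul_left, ps, h1, h2, h3, h4, h5, h6, pc v β, pc v a, pc v w, pc a β, pc w β, pc w a, smul_eq_mul,
      mul_one, mul_zero, add_zero, zero_add]

theorem l6 (h : Fr v β a w) : ∀ x, ∃ y, Sp v β a w y ∧ Pp v β a w (x + y) := fun x => by
  obtain ⟨y, h0, h1, h2, h3, h4⟩ := l7 h (polar Q8 x v) (polar Q8 x β) (polar Q8 x a) (polar Q8 x w)
  exact ⟨y, h0, by rw [pl, h1, rr], by rw [pl, h2, rr], by rw [pl, h3, rr], by rw [pl, h4, rr]⟩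

theorem ps0 {x y : W} (hx : Pp v β a w x) (hy : Sp v β a w y) : polar Q8 x y = 0 := by
  obtain ⟨i, j, k, l, rfl⟩ := hy
  simp only [pr, polar_smul_right, hx.1, hx.2.1, hx.2.2.1, hx.2.2.2, smul_zero, add_zero]

theorem zero (h : Fr v β a w) {x : W} (hx : Pp v β a w x) (k : ∀ y, Pp v β a w y → polar Q8 x y = 0) : x = 0 :=
  I3.nd x fun z => by
    obtain ⟨y, h1, h2⟩ := l6 h z
    have := k _ h2
    rwa [pr, ps0 hx h1, add_zero] at this

theorem Nfix {g : O8} {t : W} (ht : g.1 t = t) (x : W) : polar Q8 (N g x) t = 0 := by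
  have := H13.OG_polar g x t
  rw [ht] at this
  rw [N, pl, this, rr]

theorem NP {g : O8} (hg : g ∈ S0 v β a w) (x : W) : Pp v β a w (N g x) :=
  ⟨Nfix hg.2.1 x, Nfix hg.2.2.1 x, Nfix hg.2.2.2.1 x, Nfix hg.2.2.2.2 x⟩

theorem l5 (h : Fr v β a w) : ∀ g ∈ S0 v β a w, ∀ k ∈ S1 v β a w, g * k = k * g := fun g hg k hk => H13.OG_ext fun x => by
  have e1 : k.1 (N g x) = N g x := hk.2 _ (NP hg x)
  have e2 : g.1 (N k x) = N k x := by
    obtain ⟨y, h1, h2⟩ := l6 h (N k x)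
    have := zero h h2 fun z hz => by rw [pl, Nfix (hk.2 z hz), pc, ps0 hz h1, add_zero]
    rw [← cancel (N k x) y, this, zero_add]
    obtain ⟨i, j, k, l, rfl⟩ := h1
    simp only [map_add, map_smul, hg.2.1, hg.2.2.1, hg.2.2.2.1, hg.2.2.2.2]
  rw [N, map_add] at e1 e2
  rw [H13.OG_mul_apply, H13.OG_mul_apply]
  have h1 := xx (g.1 x)
  have h2 := xx (k.1 x)
  linear_combination (norm := module) e2 - e1 - h1 + h2

/-- companion matrix -/
def T (c : Fin 4 → ZMod 2) : Fin 4 → ZMod 2 := ![c 3, c 0 + c 3, c 1 + c 3, c 2 + c 3]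

/-- coordinates -/
def L (g : O8) (u : W) (c : Fin 4 → ZMod 2) : W :=
  c 0 • u + c 1 • g.1 u + c 2 • g.1 (g.1 u) + c 3 • g.1 (g.1 (g.1 u))

theorem Ladd (g : O8) (u : W) (c d : Fin 4 → ZMod 2) : L g u (c + d) = L g u c + L g u d := by
  simp only [L, Pi.add_apply]; module

theorem Lsm (g : O8) (u : W) (r : ZMod 2) (c : Fin 4 → ZMod 2) : L g u (r • c) = r • L g u c := by
  simp only [L, Pi.smul_apply, smul_eq_mul]; module

theorem L1 (g : O8) (u : W) : L g u ![1, 0, 0, 0] = u := by simp [L]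

theorem g5 {g : O8} (h5 : g ^ 5 = 1) (x : W) : g.1 (g.1 (g.1 (g.1 (g.1 x)))) = x := by
  have : g * (g * (g * (g * g))) = 1 := by rw [← h5]; simp only [pow_succ, pow_zero, one_mul, mul_assoc]
  exact congrArg (fun k : O8 => k.1 x) this

theorem LT {g : O8} (h5 : g ^ 5 = 1) (y : W) (c : Fin 4 → ZMod 2) : g.1 (L g (N g y) c) = L g (N g y) (T c) := by
  simp only [L, T, N, map_add, map_smul, g5 h5, Matrix.cons_val]
  have h1 := xx (c 3 • g.1 y)
  have h2 := xx (c 3 • g.1 (g.1 y))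
  have h3 := xx (c 3 • g.1 (g.1 (g.1 y)))
  linear_combination (norm := module) -h1 - h2 - h3

theorem Linj {g : O8} (h5 : g ^ 5 = 1) {y : W} (h0 : N g y ≠ 0) {c : Fin 4 → ZMod 2} (hc : L g (N g y) c = 0) : c = 0 := by
  by_contra c0
  obtain ⟨i, j, k, l, e⟩ := (by decide +kernel : ∀ c : Fin 4 → ZMod 2, c ≠ 0 → ∃ i j k l : ZMod 2,
    ![1, 0, 0, 0] = i • c + j • T c + k • T (T c) + l • T (T (T c))) c c0
  apply h0
  rw [← L1 g (N g y), e, Ladd, Ladd, Ladd, Lsm, Lsm, Lsm, Lsm, ← LT h5, ← LT h5, ← LT h5, ← LT h5, ← LT h5, ← LT h5, hc]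
  simp

theorem Lsur (h : Fr v β a w) {g : O8} (hg : g ∈ S0 v β a w) (h5 : g ^ 5 = 1) {y : W} (h0 : N g y ≠ 0) {x : W}
    (hx : Pp v β a w x) : ∃ c, L g (N g y) c = x := by
  let φ : W →ₗ[ZMod 2] (Fin 4 → ZMod 2) :=
    { toFun := fun x => ![polar Q8 x v, polar Q8 x β, polar Q8 x a, polar Q8 x w]
      map_add' := fun x y => by ext i; fin_cases i <;> simp [pl]
      map_smul' := fun r x => by ext i; fin_cases i <;> simp }
  let ψ : (Fin 4 → ZMod 2) →ₗ[ZMod 2] W := { toFun := L g (N g y), map_add' := Ladd _ _, map_smul' := Lsm _ _ }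
  have mk : ∀ x, Pp v β a w x → x ∈ LinearMap.ker φ := fun x hx => by
    change ![polar Q8 x v, polar Q8 x β, polar Q8 x a, polar Q8 x w] = 0
    rw [hx.1, hx.2.1, hx.2.2.1, hx.2.2.2]; decide
  have s : LinearMap.range φ = ⊤ := LinearMap.range_eq_top.2 fun c => by
    obtain ⟨y, -, h1, h2, h3, h4⟩ := l7 h (c 0) (c 1) (c 2) (c 3)
    refine ⟨y, ?_⟩
    change ![polar Q8 y v, polar Q8 y β, polar Q8 y a, polar Q8 y w] = c
    rw [h1, h2, h3, h4]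
    ext i; fin_cases i <;> rfl
  have e1 := LinearMap.finrank_range_add_finrank_ker φ
  rw [s, finrank_top, show finrank (ZMod 2) W = 8 by simp, show finrank (ZMod 2) (Fin 4 → ZMod 2) = 4 by simp] at e1
  have e2 := LinearMap.finrank_range_of_inj (f := ψ) ((injective_iff_map_eq_zero ψ).2 fun c hc => Linj h5 h0 hc)
  rw [show finrank (ZMod 2) (Fin 4 → ZMod 2) = 4 by simp] at e2
  have le : LinearMap.range ψ ≤ LinearMap.ker φ := by
    rintro _ ⟨c, rfl⟩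
    have : ψ c = N g (c 0 • y + c 1 • g.1 y + c 2 • g.1 (g.1 y) + c 3 • g.1 (g.1 (g.1 y))) := by
      change L g (N g y) c = _
      simp only [L, N, map_add, map_smul]; module
    exact mk _ (this ▸ NP hg _)
  exact (Submodule.eq_of_le_of_finrank_eq le (by omega)).ge (mk x hx)

theorem exN {g : O8} (h1 : g ≠ 1) : ∃ y, N g y ≠ 0 := by
  by_contra! hc
  exact h1 (H13.OG_ext fun x => N0.1 (hc x))

theorem l4 (h : Fr v β a w) : ∀ g ∈ S0 v β a w, g ^ 5 = 1 → g ≠ 1 → ∀ x, Pp v β a w x → g.1 x = x → x = 0 := by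
  intro g hg h5 h1 x hx e
  obtain ⟨y, h0⟩ := exN h1
  obtain ⟨c, rfl⟩ := Lsur h hg h5 h0 hx
  rw [LT h5] at e
  have := Linj h5 h0 (c := T c + c) (by rw [Ladd, e, xx])
  rw [(by decide +kernel : ∀ c : Fin 4 → ZMod 2, T c + c = 0 → c = 0) c this]
  simp [L]

/-- the form in coordinates -/
def Qf (q b1 b2 : ZMod 2) (c : Fin 4 → ZMod 2) : ZMod 2 :=
  q * (c 0 * c 0 + c 1 * c 1 + c 2 * c 2 + c 3 * c 3) + b1 * (c 0 * c 1 + c 1 * c 2 + c 2 * c 3) +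
    b2 * (c 0 * c 2 + c 1 * c 3 + c 0 * c 3)

theorem b3 {g : O8} (h5 : g ^ 5 = 1) (u : W) : polar Q8 u (g.1 (g.1 (g.1 u))) = polar Q8 u (g.1 (g.1 u)) := by
  rw [← H13.OG_polar g u, ← H13.OG_polar g (g.1 u), g5 h5, pc]

theorem QL {g : O8} (h5 : g ^ 5 = 1) (u : W) (c : Fin 4 → ZMod 2) :
    Q8 (L g u c) = Qf (Q8 u) (polar Q8 u (g.1 u)) (polar Q8 u (g.1 (g.1 u))) c := by
  simp only [L, Qf, qadd, pl, polar_smul_left, polar_smul_right, QuadraticMap.map_smul, H13.OG_map, H13.OG_polar, b3 h5,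
    smul_eq_mul]
  ring

theorem l3 (h : Fr v β a w) : ∀ g ∈ S0 v β a w, g ^ 5 = 1 → g ≠ 1 → ∀ k ∈ Ω, k * g = g * k →
    ∃ i : ℕ, g ^ i * k ∈ S1 v β a w := by
  intro g hg h5 h1 k hk c
  obtain ⟨y, h0⟩ := exN h1
  have kg : ∀ x, k.1 (g.1 x) = g.1 (k.1 x) := fun x => congrArg (fun k : O8 => k.1 x) c
  obtain ⟨d, hd⟩ := Lsur h hg h5 h0 (x := k.1 (N g y)) (by rw [N, map_add, kg]; exact NP hg _)
  have kL : ∀ c, k.1 (L g (N g y) c) = L g (k.1 (N g y)) c := fun c => by simp only [L, map_add, map_smul, kg]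
  have nz : ¬ (polar Q8 (N g y) (g.1 (N g y)) = 0 ∧ polar Q8 (N g y) (g.1 (g.1 (N g y))) = 0) := fun ⟨e1, e2⟩ =>
    h0 (zero h (NP hg y) fun z hz => by
      obtain ⟨c, rfl⟩ := Lsur h hg h5 h0 hz
      simp only [L, pr, polar_smul_right, ps, b3 h5, e1, e2, smul_zero, add_zero])
  have q0 := QL h5 (N g y) (T ![0, 0, 0, 1])
  rw [← LT h5, H13.OG_map, QL h5] at q0
  have q1 := QL h5 (N g y) d
  rw [hd, H13.OG_map] at q1
  have q2 := QL h5 (N g y) (d + T d)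
  rw [Ladd, ← LT h5, hd, ← kg, ← map_add, H13.OG_map, qadd, H13.OG_map, rr, zero_add] at q2
  have q3 := QL h5 (N g y) (d + T (T d))
  rw [Ladd, ← LT h5, ← LT h5, hd, ← kg, ← kg, ← map_add, H13.OG_map, qadd, H13.OG_map, H13.OG_map, rr, zero_add] at q3
  obtain ⟨i, hi⟩ := (by decide +kernel : ∀ q b1 b2 : ZMod 2, ¬ (b1 = 0 ∧ b2 = 0) →
    Qf q b1 b2 ![0, 0, 0, 1] = Qf q b1 b2 (T ![0, 0, 0, 1]) → ∀ d, q = Qf q b1 b2 d → b1 = Qf q b1 b2 (d + T d) →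
      b2 = Qf q b1 b2 (d + T (T d)) → ∃ i : Fin 5, T^[i] d = ![1, 0, 0, 0]) _ _ _ nz q0 d q1 q2 q3
  have it : ∀ (n : ℕ) c, (g ^ n).1 (L g (N g y) c) = L g (N g y) (T^[n] c) := fun n => by
    induction n with
    | zero => intro c; rfl
    | succ n ih => intro c; rw [pow_succ, H13.OG_mul_apply, LT h5, ih, Function.iterate_succ_apply]
  refine ⟨i, mul_mem (pow_mem hg.1 _) hk, fun x hx => ?_⟩
  obtain ⟨c', rfl⟩ := Lsur h hg h5 h0 hx
  have fu : (g ^ (i : ℕ) * k).1 (N g y) = N g y := by rw [H13.OG_mul_apply, ← hd, it, hi, L1]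
  have cg : ∀ x, (g ^ (i : ℕ) * k).1 (g.1 x) = g.1 ((g ^ (i : ℕ) * k).1 x) := fun x => by
    rw [← H13.OG_mul_apply, ← H13.OG_mul_apply g, mul_assoc, c, ← mul_assoc, ← mul_assoc, ← pow_succ, ← pow_succ']
  generalize g ^ (i : ℕ) * k = t at fu cg
  simp only [L, map_add, map_smul, cg, fu]

end Cfsg.Agent.CoT.K4
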