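/-
The layer of `Z₅ × E`, `E` simple of order `604800`.
-/
import Cfsg.Prelude.Def_Local

set_option autoImplicit false

namespace Cfsg.Agent.CoT

open Subgroup
open scoped commutatorElement

theorem ly {M : Type*} [Group M] [Finite M] (E : Subgroup M) [IsSimpleGroup E] (c : Nat.card E = 604800) {f : M}
    (hf : orderOf f = 5) (fc : ∀ x, f * x = x * f) (cM : Nat.card M = 5 * 604800) : Cfsg.layer M = E := by
  have nc : ¬ IsMulCommutative E := fun h => by
    letI : CommGroup E := { (inferInstance : Group E) with mul_comm := h.1.1 }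
    have := IsSimpleGroup.prime_card (α := E)
    rw [c] at this
    norm_num at this
  have hz : center E = ⊥ := (IsSimpleGroup.eq_bot_or_eq_top_of_normal (center E) inferInstance).resolve_right fun h =>
    nc ⟨⟨fun a b => (mem_center_iff.1 (h ▸ mem_top b : b ∈ center E) a)⟩⟩
  have fE : f ∉ E := fun h => by
    have : (⟨f, h⟩ : E) ∈ center E := mem_center_iff.2 fun g => Subtype.ext (fc g).symm
    rw [hz, mem_bot] at this
    have e : f = 1 := congrArg Subtype.val this
    rw [e, orderOf_one] at hf
    norm_num at hf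
  have hi : E.index = 5 := by
    have := E.card_mul_index
    rw [c, cM] at this
    omega
  have fz : zpowers f ≤ center M := zpowers_le.2 (mem_center_iff.2 fun g => (fc g).symm)
  haveI : (zpowers f).Normal := ⟨fun a ha g => by
    rw [mem_center_iff.1 (fz ha) g, mul_inv_cancel_right]; exact ha⟩
  have top : E ⊔ zpowers f = ⊤ := by
    have h1 := relIndex_mul_index (le_sup_left : E ≤ E ⊔ zpowers f)
    rw [hi] at h1
    rcases (Nat.dvd_prime Nat.prime_five).1 (Dvd.intro _ h1) with h | h
    · exact (fE (relIndex_eq_one.1 h (mem_sup_right (mem_zpowers f)))).elim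
    · rw [h] at h1
      exact index_eq_one.1 (by omega)
  have dec : ∀ g : M, ∃ e ∈ E, ∃ z ∈ center M, e * z = g := fun g => by
    have : g ∈ ((E ⊔ zpowers f : Subgroup M) : Set M) := top ▸ mem_top g
    rw [mul_normal] at this
    obtain ⟨e, he, z, hz', rfl⟩ := this
    exact ⟨e, he, z, fz hz', rfl⟩
  have cj : ∀ (e z a : M), z ∈ center M → e * z * a * (e * z)⁻¹ = e * a * e⁻¹ := fun e z a h => by
    rw [mul_assoc e z a, ← mem_center_iff.1 h a]; group
  haveI hn : E.Normal := ⟨fun a ha g => by
    obtain ⟨e, he, z, h, rfl⟩ := dec g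
    rw [cj e z a h]
    exact mul_mem (mul_mem he ha) (inv_mem he)⟩
  have com : ∀ a b : M, ⁅a, b⁆ ∈ E := fun a b => by
    obtain ⟨e, he, z, h, rfl⟩ := dec a
    obtain ⟨e', he', z', h', rfl⟩ := dec b
    rw [commutatorElement_def, cj e z _ h]
    have : e * (e' * z') * e⁻¹ * (e' * z')⁻¹ = e * (e' * e⁻¹ * e'⁻¹) := by
      rw [← cj e' z' e⁻¹ h']; group
    rw [this]
    exact mul_mem he (mul_mem (mul_mem he' (inv_mem he)) (inv_mem he'))
  refine le_antisymm (sSup_le fun K hK => ?_) (le_sSup ⟨hn.isSubnormal, ⟨?_⟩, ?_⟩)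
  · have hp : _root_.commutator K = ⊤ := hK.2.1.1
    have : _root_.commutator K ≤ E.subgroupOf K :=
      commutator_le.2 fun a _ b _ => com a b
    intro x hx
    exact this (hp ▸ mem_top (⟨x, hx⟩ : K))
  · refine (IsSimpleGroup.eq_bot_or_eq_top_of_normal (_root_.commutator E) inferInstance).resolve_left fun h => nc ?_
    refine ⟨⟨fun a b => commutatorElement_eq_one_iff_mul_comm.1 ?_⟩⟩
    exact mem_bot.1 (h ▸ commutator_mem_commutator (mem_top a) (mem_top b))
  · exact ((QuotientGroup.quotientMulEquivOfEq hz).trans QuotientGroup.quotientBot).isSimpleGroup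

end Cfsg.Agent.CoT
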