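import Cfsg.Agent.CoT.A
import Cfsg.Agent.H11.Syl

/-! Fusion control for elements whose centralizer recognises `z`. -/

set_option autoImplicit false

namespace Cfsg.Agent.CoT

open Cfsg Subgroup
open Cfsg.Agent.H11 (cj IsSylIn mem_cj)

variable {G : Type*} [Group G] [Finite G]

theorem St.syl {z y : G} (h : St z y) : ∃ T, IsSylIn 2 T (centralizer {y}) ∧
    (∀ d ∈ T, d * z = z * d) ∧ ∀ t, IsConj z t → (∀ d ∈ T, d * t = t * d) → t = z := by
  obtain ⟨D, b, s, hD, -, hc, bz, bY, bN, z2, z1, bs, ht⟩ := h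
  obtain ⟨k, m, hm, e⟩ := Nat.exists_eq_two_pow_mul_odd (orderOf_pos b).ne'
  have pw : ∀ n : ℕ, b ^ n * s * (b ^ n)⁻¹ = z ^ n * s := fun n => by
    induction n with
    | zero => simp
    | succ n ih =>
      calc b ^ (n + 1) * s * (b ^ (n + 1))⁻¹ = b * (b ^ n * s * (b ^ n)⁻¹) * b⁻¹ := by group
        _ = (b * z ^ n) * s * b⁻¹ := by rw [ih]; group
        _ = z ^ n * (b * s * b⁻¹) := by rw [(show Commute b z from bz).pow_right n]; group
        _ = _ := by rw [bs]; group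
  have bs' := pw m
  obtain ⟨j, rfl⟩ := hm
  rw [pow_succ z, pow_mul z, pow_two z, z2, one_pow, one_mul] at bs'
  have cz : b ^ (2 * j + 1) * z = z * b ^ (2 * j + 1) := (show Commute b z from bz).pow_left _
  have cy : b ^ (2 * j + 1) * y = y * b ^ (2 * j + 1) := (show Commute b y from bY).pow_left _
  have cN := pow_mem bN (2 * j + 1)
  have c2 : (b ^ (2 * j + 1)) ^ 2 ^ k = 1 := by rw [← pow_mul, mul_comm, ← e, pow_orderOf_eq_one]
  generalize b ^ (2 * j + 1) = c at bs' cz cy cN c2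
  have hp : IsPGroup 2 (zpowers c) := fun ⟨_, n, rfl⟩ => ⟨k, Subtype.ext (by
    show (c ^ n) ^ 2 ^ k = 1
    rw [← zpow_natCast, ← zpow_mul, mul_comm, zpow_mul, zpow_natCast, c2, one_zpow])⟩
  have hD' : IsPGroup 2 ↥(D ⊔ zpowers c) :=
    hD.to_sup_of_normal_left' hp (zpowers_le_of_mem cN)
  obtain ⟨T, hT, le⟩ := H11.exists_isSylIn_le (H := centralizer {y}) hD' (sup_le
    (fun d hd => mem_centralizer_singleton_iff.2 (hc d hd).2)
    (zpowers_le_of_mem (mem_centralizer_singleton_iff.2 cy)))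
  have lz : D ⊔ zpowers c ≤ centralizer {z} := sup_le
    (fun d hd => mem_centralizer_singleton_iff.2 (hc d hd).1)
    (zpowers_le_of_mem (mem_centralizer_singleton_iff.2 cz))
  have key : ∀ t, IsConj z t → (∀ d ∈ D ⊔ zpowers c, d * t = t * d) → t = z := fun t h1 h2 => by
    have h3 := h2 c (mem_sup_right (mem_zpowers c))
    rcases ht t h1 fun d hd => h2 d (mem_sup_left hd) with e | rfl | rfl
    · exact e
    · rw [h3, mul_inv_cancel_right] at bs'
      exact absurd (right_eq_mul.1 bs') z1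
    · have : s = z * s := by
        rw [← bs', eq_mul_inv_iff_mul_eq]
        apply mul_left_cancel (a := z)
        rw [← mul_assoc, ← h3, ← mul_assoc, cz, mul_assoc]
      exact absurd (right_eq_mul.1 this) z1
  refine ⟨T, hT, fun d hd => ?_, fun t h1 h2 => key t h1 fun d hd => h2 d (le hd)⟩
  by_contra hne
  obtain ⟨g, g1, g2, g3⟩ := H11.exists_mem_normalizer_of_lt (M := T ⊓ centralizer {z}) hT.pg
    (inf_lt_left.2 fun e => hne (mem_centralizer_singleton_iff.1 (e hd)))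
  have := key (g * z * g⁻¹) (isConj_iff.2 ⟨g, rfl⟩) fun d hd => by
    have := mem_centralizer_singleton_iff.1
      (H11.conj_mem_of_mem_normalizer' g3 ⟨le hd, lz hd⟩).2
    calc d * (g * z * g⁻¹) = g * (g⁻¹ * d * g * z) * g⁻¹ := by group
      _ = _ := by rw [this]; group
  exact g2 ⟨g1, mem_centralizer_singleton_iff.2 (mul_inv_eq_iff_eq_mul.1 this)⟩

theorem sy {z y1 y2 : G} (h1 : St z y1) (h2 : St z y2) (c : IsConj y1 y2) :
    ∃ h, h * z = z * h ∧ h * y1 * h⁻¹ = y2 := by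
  obtain ⟨T1, a1, b1, -⟩ := h1.syl
  obtain ⟨T2, a2, -, c2⟩ := h2.syl
  obtain ⟨k, rfl⟩ := isConj_iff.1 c
  have := a1.cj k
  rw [H11.cj_cent1] at this
  obtain ⟨g, hg, e⟩ := this.exists_cj_eq a2
  rw [← H11.cj_mul] at e
  refine ⟨g * k, mul_inv_eq_iff_eq_mul.1 (c2 _ (isConj_iff.2 ⟨g * k, rfl⟩) fun d hd => ?_), ?_⟩
  · have := b1 _ (mem_cj.1 (e ▸ hd))
    calc d * (g * k * z * (g * k)⁻¹) = g * k * ((g * k)⁻¹ * d * (g * k) * z) * (g * k)⁻¹ := by group
      _ = _ := by rw [this]; group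
  · calc g * k * y1 * (g * k)⁻¹ = g * (k * y1 * k⁻¹) * g⁻¹ := by group
      _ = _ := by rw [mem_centralizer_singleton_iff.1 hg]; group

end Cfsg.Agent.CoT
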