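import Cfsg.Agent.CoT.G3

/-! Involutions of the second kind: conjugacy inside `C(z) ∩ C(s)` and the recognition property. -/

set_option autoImplicit false

namespace Cfsg.Agent.CoT

open Cfsg Cfsg.Agent.H10 Subgroup QuadraticMap

variable {G : Type*} [Group G]

namespace PT

/-- `z ^ i * s ^ j` -/
def vz (z s : G) (i j : ZMod 2) : G := (if i = 0 then 1 else z) * (if j = 0 then 1 else s)

theorem vz_vm (z s : G) (i j : ZMod 2) : Vm z s (vz z s i j) := by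
  rcases z2 i with rfl | rfl <;> rcases z2 j with rfl | rfl <;> simp [vz, Vm]

theorem vm_vz {z s u : G} (hu : Vm z s u) : ∃ i j, u = vz z s i j := by
  rcases hu with e | e | e | e
  exacts [⟨0, 0, by simp [vz, e]⟩, ⟨1, 0, by simp [vz, e]⟩, ⟨0, 1, by simp [vz, e]⟩, ⟨1, 1, by simp [vz, e]⟩]

theorem vz_mul {z s : G} (zz : z * z = 1) (ss : s * s = 1) (sz : s * z = z * s) (i j k l : ZMod 2) :
    vz z s i j * vz z s k l = vz z s (i + k) (j + l) := by
  have a1 : ∀ x, z * (z * x) = x := fun x => by rw [← mul_assoc, zz, one_mul]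
  have a2 : ∀ x, s * (s * x) = x := fun x => by rw [← mul_assoc, ss, one_mul]
  have a3 : ∀ x, s * (z * x) = z * (s * x) := fun x => by rw [← mul_assoc, sz, mul_assoc]
  have t : (1 : ZMod 2) + 1 = 0 := by decide
  rcases z2 i with rfl | rfl <;> rcases z2 j with rfl | rfl <;> rcases z2 k with rfl | rfl <;> rcases z2 l with rfl | rfl <;>
    simp [vz, t, mul_assoc, a1, a2, a3, zz, ss, sz]

theorem four {A R B S u1 u2 u3 u4 : G} (h1 : A * B = u1 * (B * A)) (h2 : R * B = u2 * (B * R)) (h3 : A * S = u3 * (S * A))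
    (h4 : R * S = u4 * (S * R)) (c2 : A * u2 = u2 * A) (c3 : B * u3 = u3 * B) (c4 : A * u4 = u4 * A) (c5 : B * u4 = u4 * B) :
    A * R * (B * S) = u2 * u4 * u1 * u3 * (B * S * (A * R)) := by
  calc _ = A * (R * B) * S := by group
    _ = A * u2 * B * (R * S) := by rw [h2]; group
    _ = u2 * A * (B * u4) * (S * R) := by rw [c2, h4]; group
    _ = u2 * (A * u4) * B * (S * R) := by rw [c5]; group
    _ = u2 * u4 * (A * B) * (S * R) := by rw [c4]; group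
    _ = u2 * u4 * u1 * B * (A * S) * R := by rw [h1]; group
    _ = u2 * u4 * u1 * (B * u3) * (S * A) * R := by rw [h3]; group
    _ = _ := by rw [c3]; group

theorem ee_mul {v : W} {g g' : O8} (h : EE v g) (h' : EE v g') : EE v (g * g') := by
  refine ⟨by rw [H13.OG_mul_apply, h'.1, h.1], fun a ha => ?_⟩
  rw [H13.OG_mul_apply]
  rcases h'.2 a ha with e | e <;> rw [e]
  · exact h.2 a ha
  · rw [map_add, h.1]
    rcases h.2 a ha with e | e <;> rw [e]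
    · exact .inr rfl
    · exact .inl (PL.cancel _ _)

theorem ee_inv {v : W} {g : O8} (h : EE v g) : EE v g⁻¹ := by
  have hi : (g⁻¹).1 v = v := by
    have := H13.OG_inv_apply_apply g v
    rwa [h.1] at this
  refine ⟨hi, fun a ha => ?_⟩
  have := H13.OG_inv_apply_apply g a
  rcases h.2 a ha with e | e <;> rw [e] at this
  · exact .inl this
  · rw [map_add, hi] at this
    right
    conv_rhs => rw [← this]
    exact (PL.cancel _ _).symm

theorem cg_pol {v x a w : W} (h : Cg v a w) (hx : polar Q8 x v = 0) : polar Q8 x a = polar Q8 x w := by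
  rcases h with e | e <;> rw [e]
  rw [PL.pr, hx, add_zero]

theorem cg_add {v x y : W} (h : Cg v x y) (w : W) : Cg v (x + w) (y + w) :=
  h.imp (fun e => by rw [e]) fun e => by rw [e, add_right_comm]

theorem ap_add {v x a w : W} {e : ZMod 2} (hv : Q8 v = 0) (h : AP v e a w) (hx : Cg v x (a + w)) : AP v e x w := by
  obtain ⟨h1, h2, h3, h4, h5, h6, h7, h8⟩ := h
  have p0 : polar Q8 (a + w) v = 0 := by rw [PL.pl, h1, h2, add_zero]
  have q0 : Q8 (a + w) = e := by rw [PL.qadd, h3, h4, h5, PL.rr, zero_add]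
  refine ⟨?_, h2, ?_, h4, ?_, fun n => h8 ?_, h7, fun n => h6 ?_⟩
  · rw [PL.pc, cg_pol hx (pvv v), PL.pc, p0]
  · rcases hx with e' | e' <;> rw [e']
    · exact q0
    · rw [PL.qadd, q0, hv, p0, add_zero, add_zero]
  · rw [PL.pc, cg_pol hx h2, PL.pr, pvv, add_zero, PL.pc, h5]
  · have := cg_add (hx.symm.trans n) w
    rwa [PL.cancel, zero_add] at this
  · have := cg_add (hx.symm.trans n) w
    rwa [PL.cancel, ww] at this

theorem fin4 : ∀ i j k l : ZMod 2, k + 0 + i + j = 0 → k + l + 0 + j = 0 →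
    (i = 0 ∧ k = 0 ∨ j = 0 ∧ l = 0 ∨ i = j ∧ k = l) → i = 0 ∧ j = 0 := by decide

end PT

open PT

namespace Cx
variable {z : G} {Q : Subgroup G} {ρ : centralizer ({z} : Set G) →* O8} {p : G → W} {v : W} {s b m a a' r u x y y' c t : G}
  (h : Cx z Q ρ p v s b m) [Finite G]
include h

omit [Finite G] in
theorem vz_one {i j : ZMod 2} (e : vz z s i j = 1) : i = 0 ∧ j = 0 := by
  have n1 := h.lx.ne_one
  have n2 := h.cP.ne h.lx
  have n3 : z * s ≠ 1 := fun e => h.snz (by rw [← h.lx.inv_z]; exact (inv_eq_of_mul_eq_one_right e).symm)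
  rcases z2 i with rfl | rfl <;> rcases z2 j with rfl | rfl <;> simp [vz, n1, n2, n3] at e ⊢

/-- the commutator of two elements of `R` -/
theorem cmR {a3 a4 a5 a6 : G} (q3 : a3 ∈ Q) (s3 : a3 * s = s * a3) (q4 : a4 ∈ Q) (s4 : a4 * s = s * a4)
    (q5 : a5 ∈ Q) (s5 : a5 * s = s * a5) (q6 : a6 ∈ Q) (s6 : a6 * s = s * a6) :
    a3 * (m * a4 * m⁻¹) * (a5 * (m * a6 * m⁻¹)) =
      vz z s (polar Q8 (p a4) (p a5) + 0 + polar Q8 (p a3) (p a5) + polar Q8 (p a3) (p a6))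
        (polar Q8 (p a4) (p a5) + polar Q8 (p a4) (p a6) + 0 + polar Q8 (p a3) (p a6)) *
        (a5 * (m * a6 * m⁻¹) * (a3 * (m * a4 * m⁻¹))) := by
  have z3 := h.lx.cent _ q3
  have z5 := h.lx.cent _ q5
  have zs2 : z * s * (z * s) = 1 := by rw [mul_assoc, ← mul_assoc s, h.sz, mul_assoc, h.ss, mul_one, h.zz]
  rw [← vz_mul h.zz h.ss h.sz, ← vz_mul h.zz h.ss h.sz, ← vz_mul h.zz h.ss h.sz]
  refine four ?_ ?_ ?_ ?_ ((vz_vm _ _ _ _).cm z3 s3) ((vz_vm _ _ _ _).cm z5 s5) ((vz_vm _ _ _ _).cm z3 s3)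
    ((vz_vm _ _ _ _).cm z5 s5)
  · rcases z2 (polar Q8 (p a3) (p a5)) with e | e <;> rw [e]
    · simpa [vz] using (h.co.cm q3 q5).2 e
    · simpa [vz] using h.co.ncm q3 q5 e
  · rcases z2 (polar Q8 (p a4) (p a5)) with e | e <;> rw [e]
    · simpa [vz] using h.k0 q5 s5 q4 s4 (PL.pc _ _ ▸ e)
    · rw [h.k1 q5 s5 q4 s4 (PL.pc _ _ ▸ e)]; simp [vz, mul_assoc]
  · rcases z2 (polar Q8 (p a3) (p a6)) with e | e <;> rw [e]
    · simpa [vz] using (h.k0 q3 s3 q6 s6 e).symm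
    · rw [h.k1 q3 s3 q6 s6 e]
      have : vz z s 1 1 = z * s := by simp [vz]
      rw [this, ← mul_assoc (z * s), ← mul_assoc (z * s), zs2, one_mul]
  · have e0 : m * a4 * m⁻¹ * (m * a6 * m⁻¹) = m * (a4 * a6) * m⁻¹ := by group
    rcases z2 (polar Q8 (p a4) (p a6)) with e | e <;> rw [e]
    · have : vz z s 0 0 = 1 := by simp [vz]
      rw [this, e0, (h.co.cm q4 q6).2 e]; group
    · have : vz z s 0 1 = s := by simp [vz]
      rw [this, e0, h.co.ncm q4 q6 e, ← h.mz]; group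

theorem tbV {e : ZMod 2} (hy : TB Q p v s m e y) (hu : Vm z s u) :
    ∃ c, c * z = z * c ∧ c * s = s * c ∧ c * y * c⁻¹ = u * y := by
  obtain ⟨a, ha, a', ha', hs, hs', ap, rfl⟩ := hy
  obtain ⟨i, j, rfl⟩ := vm_vz hu
  obtain ⟨x, x0, x1, x2⟩ := h.of.sol _ _ _ ap (i + j) j
  obtain ⟨q, hq, rfl⟩ := h.co.surj x
  have qs := (h.perp hq).2 x0
  have := h.cmR hq qs Q.one_mem (by simp) ha hs ha' hs'
  rw [x1, x2, h.co.p1, polar_zero_left, polar_zero_left] at this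
  simp only [mul_one, mul_inv_cancel, zero_add, add_zero, add_assoc, PL.rr] at this
  exact ⟨q, h.lx.cent _ hq, qs, by rw [this]; group⟩

theorem tb_conj {e : ZMod 2} (hy : TB Q p v s m e y) (hy' : TB Q p v s m e y') :
    ∃ c, c * z = z * c ∧ c * s = s * c ∧ c * y * c⁻¹ = y' := by
  obtain ⟨a, ha, a', ha', hs, hs', ap, rfl⟩ := hy
  have hy2 := hy'
  obtain ⟨d, hd, d', hd', ds, ds', dp, rfl⟩ := hy'
  obtain ⟨g, hg, e, e1, e2⟩ := h.of.f5 _ _ _ _ _ ap dp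
  obtain ⟨c, cz, cs, rfl⟩ := h.liftv hg e
  have v1 := h.pv2 (h.lx.conj_mem cz ha) hd (h.co.sg_act cz ha ▸ e1)
  have z2 := cz_cj cz (h.psiz ha' hs')
  have i2 := (h.psiP ha').cj' cs
  have e3 := ee_ext h.hv h.hβ (h.eeB i2 z2) (h.eeA hd' ds') (((h.cjw cz cs ha' hs').trans e2).trans (Cg.symm (h.wpsi hd' ds')))
  have v2 := h.QP (h.co.sg_quo z2 (h.psiz hd' ds') e3) (i2.mul h.lx (h.psiP hd').inv)
  have c2 := v2.cm (h.lx.cent _ hd) ds
  obtain ⟨k, kz, ks, ek⟩ := h.tbV hy2 (h.vmul v1 v2)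
  refine ⟨k⁻¹ * c, cz_mul (cz_inv kz) cz, cz_mul (cz_inv ks) cs, ?_⟩
  generalize m * a' * m⁻¹ = r at *
  generalize m * d' * m⁻¹ = r' at *
  calc _ = k⁻¹ * (c * a * c⁻¹ * d⁻¹ * (d * (c * r * c⁻¹ * r'⁻¹)) * r') * k := by group
    _ = k⁻¹ * (c * a * c⁻¹ * d⁻¹ * (c * r * c⁻¹ * r'⁻¹) * (d * r')) * k := by rw [c2]; group
    _ = _ := by rw [← ek]; group

theorem tb_b {e : ZMod 2} (hy : TB Q p v s m e y) : TB Q p v s m e (b * y * b⁻¹) := by
  obtain ⟨a, ha, a', ha', hs, hs', ap, rfl⟩ := hy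
  have rz := h.psiz ha' hs'
  have w := h.wpsi ha' hs'
  have pc := h.pcb rz
  set r := m * a' * m⁻¹ with hr
  have a1 : b * r * b⁻¹ * r⁻¹ ∈ Q := by convert mul_mem h.bQ (h.lx.conj_mem rz (inv_mem h.bQ)) using 1; group
  have a2 := h.lx.conj_mem h.bz ha
  have q := mul_mem a2 a1
  have ap' : AP v e (p (b * a * b⁻¹ * (b * r * b⁻¹ * r⁻¹))) (p a') := by
    refine ap_add h.hv ap ?_
    rw [h.co.mul a2 a1, h.co.sg_act h.bz ha, h.co.sg_Q h.bQ, H13.OG_one_apply, pc, add_comm, add_comm (p a)]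
    exact cg_add w _
  exact ⟨_, q, a', ha', (h.perp q).2 ap'.1, hs', ap', by rw [← hr]; group⟩

theorem tb_st (hnc : ∀ e y, TB Q p v s m e y → ¬ IsConj z y) {e : ZMod 2} (hy : TB Q p v s m e y) : St z y := by
  let D : Subgroup G :=
    { carrier := {d | d * z = z * d ∧ d * s = s * d ∧ d * y = y * d ∧ EE v (sg ρ d)}
      mul_mem' := fun {d d'} hd hd' => ⟨cz_mul hd.1 hd'.1, cz_mul hd.2.1 hd'.2.1, cz_mul hd.2.2.1 hd'.2.2.1, by
        rw [sg_mul hd.1 hd'.1]; exact ee_mul hd.2.2.2 hd'.2.2.2⟩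
      one_mem' := ⟨by simp, by simp, by simp, by rw [h.co.sg_Q Q.one_mem]; exact ee_one⟩
      inv_mem' := fun {d} hd => ⟨cz_inv hd.1, cz_inv hd.2.1, cz_inv hd.2.2.1, by rw [sg_inv hd.1]; exact ee_inv hd.2.2.2⟩ }
  have mD : ∀ d, d ∈ D ↔ d * z = z * d ∧ d * s = s * d ∧ d * y = y * d ∧ EE v (sg ρ d) := fun _ => Iff.rfl
  have zD : z ∈ D := ⟨rfl, h.sz.symm, (h.tb_z hy).symm, by rw [h.co.sg_Q h.lx.mem]; exact ee_one⟩
  have sD : s ∈ D := ⟨h.sz, rfl, (h.tb_s hy).symm, by rw [h.co.sg_Q h.sQ]; exact ee_one⟩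
  have dc : ∀ c, c * z = z * c → c * s = s * c → EE v (sg ρ c) →
      ∃ q ∈ Q, ∃ a ∈ Q, q * s = s * q ∧ a * s = s * a ∧ c = q * (m * a * m⁻¹) := fun c cz cs ee => by
    obtain ⟨q, hq, d, hd, ds, e⟩ := h.dec cz ee
    refine ⟨q, hq, d, hd, ?_, ds, e⟩
    have : q = c * (m * d * m⁻¹)⁻¹ := by rw [e]; group
    rw [this]; exact cz_mul cs (cz_inv (h.psis hd))
  obtain ⟨c, cz, cs, ec⟩ := h.tb_conj (h.tb_b hy) hy
  have b1z : c * b * z = z * (c * b) := cz_mul cz h.bz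
  have b1y : c * b * y = y * (c * b) := by
    conv_rhs => rw [← ec]
    group
  have b1s : c * b * s * (c * b)⁻¹ = z * s := by
    calc _ = c * (b * s * b⁻¹) * c⁻¹ := by group
      _ = c * z * s * c⁻¹ := by rw [h.bs]; group
      _ = z * (c * s) * c⁻¹ := by rw [cz]; group
      _ = _ := by rw [cs]; group
  generalize c * b = g at b1z b1y b1s
  refine ⟨D, g, s, fun d => ⟨2, Subtype.ext ?_⟩, zD, fun d hd => ⟨hd.1, hd.2.2.1⟩, b1z, b1y,
    mem_normalizer_fintype fun d hd => ?_, h.zz, h.lx.ne_one, b1s, fun t ht hc => ?_⟩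
  · obtain ⟨d, hd⟩ := d
    obtain ⟨q, hq, a, ha, qs, as, e⟩ := dc d hd.1 hd.2.1 hd.2.2.2
    obtain ⟨i, j, e'⟩ := vm_vz (e ▸ h.sqV hq qs ha as)
    show d ^ 2 ^ 2 = 1
    calc _ = d * d * (d * d) := by norm_num [pow_succ, mul_assoc]
      _ = _ := by rw [e', vz_mul h.zz h.ss h.sz, PL.rr, PL.rr]; simp [vz]
  · obtain ⟨d1, d2, d3, d4⟩ := hd
    have e1 : s = g * (z * s) * g⁻¹ := by
      calc _ = z * (g * s * g⁻¹) := by rw [b1s, ← mul_assoc, h.zz, one_mul]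
        _ = z * g * s * g⁻¹ := by group
        _ = _ := by rw [← b1z]; group
    refine ⟨cz_cj b1z d1, ?_, cz_cj b1y d3, ?_⟩
    · have : d * (z * s) = z * s * d := (Commute.mul_right d1 d2 :)
      have := cj_cm g this
      rwa [← e1] at this
    · rw [sg_cj b1z d1]
      refine (ee_conj h.hv h.hβ d4 ?_).1
      rw [← h.ps, ← h.co.sg_act b1z h.sQ, b1s, h.pzs, h.ps]
  · have tz : t * z = z * t := (hc z zD).symm
    have ts : t * s = s * t := (hc s sD).symm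
    obtain ⟨k, hk⟩ := isConj_iff.1 ht
    have t2 : t * t = 1 := hk ▸ cj_sq h.zz
    have t1 : t ≠ 1 := hk ▸ (h.lx.conj k).ne_one
    obtain ⟨a, ha, a', ha', hs, hs', ap, ey⟩ := hy
    have key : ∀ x, polar Q8 x v = 0 → ∃ a3 ∈ Q, ∃ a4 ∈ Q, a3 * s = s * a3 ∧ a4 * s = s * a4 ∧ p a3 = x ∧
        a3 * (m * a4 * m⁻¹) * t = t * (a3 * (m * a4 * m⁻¹)) := fun x hx => by
      obtain ⟨a3, q3, rfl⟩ := h.co.surj x
      obtain ⟨w, w0, w1, w2⟩ := h.of.sol _ _ _ ap (polar Q8 (p a3) (p a) + polar Q8 (p a3) (p a')) (polar Q8 (p a3) (p a))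
      obtain ⟨a4, q4, rfl⟩ := h.co.surj w
      have s3 := (h.perp q3).2 hx
      have s4 := (h.perp q4).2 w0
      refine ⟨a3, q3, a4, q4, s3, s4, rfl, hc _ ⟨cz_mul (h.lx.cent _ q3) (h.psiz q4 s4), cz_mul s3 (h.psis q4), ?_,
        h.sg_tb q3 q4 s4 ▸ h.eeA q4 s4⟩⟩
      rw [ey, h.cmR q3 s3 q4 s4 ha hs ha' hs', w1, w2]
      generalize polar Q8 (p a3) (p a) = i
      generalize polar Q8 (p a3) (p a') = j
      have e1 : i + j + 0 + i + j = 0 := by revert i j; decide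
      have e2 : i + j + i + 0 + j = 0 := by revert i j; decide
      rw [e1, e2]; simp [vz]
    have ee : EE v (sg ρ t) := by
      refine ⟨h.cv tz ts, fun x hx => ?_⟩
      obtain ⟨a3, q3, a4, q4, s3, s4, rfl, cy⟩ := key x hx
      have hP := h.psiP q4
      generalize m * a4 * m⁻¹ = r at *
      have e1 : a3⁻¹ * (t * a3 * t⁻¹) = r * (t * r * t⁻¹)⁻¹ := by
        calc _ = a3⁻¹ * (t * (a3 * r)) * r⁻¹ * t⁻¹ := by group
          _ = _ := by rw [← cy]; group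
      have q1 := mul_mem (inv_mem q3) (h.lx.conj_mem tz q3)
      have v1 := h.vp (h.QP q1 (e1 ▸ hP.mul h.lx (hP.cj' ts).inv))
      rw [h.co.mul (inv_mem q3) (h.lx.conj_mem tz q3), h.co.pinv q3, h.co.sg_act tz q3] at v1
      exact v1.imp (fun e => (weq.1 e).symm) fun e => by rw [← e, ← add_assoc, ww, zero_add]
    obtain ⟨a5, q5, a6, q6, s5, s6, et⟩ := dc t tz ts ee
    have cl := h.clsA q5 s5 q6 s6 (et ▸ t2)
    have fin : ∀ x, polar Q8 x v = 0 → polar Q8 x (p a5) = 0 ∧ polar Q8 x (p a6) = 0 := fun x hx => by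
      obtain ⟨a3, q3, a4, q4, s3, s4, rfl, cy⟩ := key x hx
      rw [et, h.cmR q3 s3 q4 s4 q5 s5 q6 s6, mul_eq_right] at cy
      have p4 := (h.perp q4).1 s4
      refine fin4 _ _ _ _ (h.vz_one cy).1 (h.vz_one cy).2 ?_
      rcases cl with e | e | e | ⟨e, he⟩
      · exact .inl ⟨by rw [cg_pol e hx, polar_zero_right], by rw [cg_pol e p4, polar_zero_right]⟩
      · exact .inr (.inl ⟨by rw [cg_pol e hx, polar_zero_right], by rw [cg_pol e p4, polar_zero_right]⟩)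
      · exact .inr (.inr ⟨cg_pol e hx, cg_pol e p4⟩)
      · exact absurd ht (hnc _ _ (et ▸ he))
    have v5 := h.pv q5 (by simpa [Cg] using h.of.rad _ fun x hx => (fin x hx).1)
    have v6 := h.pv q6 (by simpa [Cg] using h.of.rad _ fun x hx => (fin x hx).2)
    exact (et ▸ h.vmul v5 (h.QP (h.psiV v6) (h.psiP q6)) : Vm z s t).resolve_left t1

end Cx

end Cfsg.Agent.CoT
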