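import Cfsg.Agent.CoT.U2
import Cfsg.Agent.CoT.N
import Cfsg.Agent.CoT.S
import Cfsg.Agent.CoT.T

/-! The three classes of involutions. -/

set_option autoImplicit false

namespace Cfsg.Agent.CoT

open Cfsg Cfsg.Agent.H10 Subgroup QuadraticMap

variable {G : Type*} [Group G]

namespace Cx
variable {z : G} {Q : Subgroup G} {ρ : centralizer ({z} : Set G) →* O8} {p : G → W} {v : W} {s b m y y' : G}
  (h : Cx z Q ρ p v s b m) [Finite G]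
include h

theorem exT (e : ZMod 2) : ∃ y, TB Q p v s m e y := by
  obtain ⟨w, w', ap⟩ := h.of.f8 e
  obtain ⟨a, ha, rfl⟩ := h.co.surj w
  obtain ⟨a', ha', rfl⟩ := h.co.surj w'
  exact ⟨_, a, ha, a', ha', (h.perp ha).2 ap.1, (h.perp ha').2 ap.2.1, ap, rfl⟩

theorem ordT {e : ZMod 2} (hy : TB Q p v s m e y) : orderOf y = 2 :=
  orderOf_eq_prime (by rw [pow_two]; exact h.tb_2 hy) fun f => h.tb_nQ hy (f ▸ Q.one_mem)

theorem bc (hy : TB Q p v s m 0 y) (hy' : TB Q p v s m 1 y') : ¬ IsConj y y' := fun c => by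
  obtain ⟨k, kz, e⟩ := sy (h.tb_st (fun _ _ => h.tb_nc) hy) (h.tb_st (fun _ _ => h.tb_nc) hy') c
  have e1 := congrArg (sg ρ) e
  rw [sg_cj kz (h.tb_z hy)] at e1
  obtain ⟨a, ha, a', ha', -, hs', ⟨-, -, -, f, -⟩, rfl⟩ := hy
  obtain ⟨d, hd, d', hd', -, ds', ⟨-, -, -, g, -⟩, e2⟩ := hy'
  rw [e2, h.sg_tb ha ha' hs', h.sg_tb hd hd' ds'] at e1
  have := ee_sing h.hv h.hβ (h.eeA ha' hs') (by rw [h.wq ha' hs', f]) ((sg ρ k)⁻¹.1 (p b))
  rw [← H13.OG_map (sg ρ k), map_add, H13.OG_apply_inv, ← H13.OG_mul_apply, ← H13.OG_mul_apply, e1, h.wq hd' ds', g] at this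
  exact one_ne_zero this

theorem main (oi : OI v) : ∃ a b c : G, orderOf a = 2 ∧ orderOf b = 2 ∧ orderOf c = 2 ∧ ¬ IsConj a b ∧ ¬ IsConj a c ∧
    ¬ IsConj b c ∧ ∀ x : G, orderOf x = 2 → IsConj x a ∨ IsConj x b ∨ IsConj x c := by
  obtain ⟨y0, h0⟩ := h.exT 0
  obtain ⟨y1, h1⟩ := h.exT 1
  refine ⟨z, y0, y1, h.lx.ord, h.ordT h0, h.ordT h1, h.tb_nc h0, h.tb_nc h1, h.bc h0 h1, fun x hx => ?_⟩
  have x2 : x * x = 1 := by rw [← pow_two, ← hx, pow_orderOf_eq_one]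
  have x1 : x ≠ 1 := fun e => by simp [e] at hx
  obtain ⟨k, hk⟩ := syl h.lx x2
  obtain ⟨c, cz, ee⟩ := h.fuse oi hk (cj_sq x2)
  have j : IsConj x (c * (k * x * k⁻¹) * c⁻¹) := isConj_iff.2 ⟨c * k, by group⟩
  have j2 := cj_sq (c := c) (cj_sq (c := k) x2)
  have j1 : c * (k * x * k⁻¹) * c⁻¹ ≠ 1 := by simpa using x1
  rcases h.clsE cz j2 ee with i | i | i | ⟨e, i⟩
  · exact .inl (j.trans (h.in_conj i j2 j1))
  · exact .inl (j.trans (h.in_conj i j2 j1))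
  · exact .inl (j.trans (h.in_conj i j2 j1))
  · rcases z2 e with rfl | rfl
    · obtain ⟨d, -, -, f⟩ := h.tb_conj i h0
      exact .inr (.inl (j.trans (isConj_iff.2 ⟨d, f⟩)))
    · obtain ⟨d, -, -, f⟩ := h.tb_conj i h1
      exact .inr (.inr (j.trans (isConj_iff.2 ⟨d, f⟩)))

end Cx

theorem three_classes [Finite G] {z : G} {Q : Subgroup G} {ρ : centralizer ({z} : Set G) →* O8} {p : G → W} {v : W} {g : G}
    (co : Co z Q ρ p) (of : OF v) (oi : OI v) (hg : g * z * g⁻¹ ∈ Q) (ne : g * z * g⁻¹ ≠ z) :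
    ∃ a b c : G, orderOf a = 2 ∧ orderOf b = 2 ∧ orderOf c = 2 ∧ ¬ IsConj a b ∧ ¬ IsConj a c ∧
      ¬ IsConj b c ∧ ∀ x : G, orderOf x = 2 → IsConj x a ∨ IsConj x b ∨ IsConj x c := by
  obtain ⟨s, sQ, ps⟩ := co.surj v
  have lx := co.lx
  obtain ⟨c, -, e⟩ := toS co of sQ ps hg (cj_sq lx.zz) (lx.conj g).ne_one ne
  have sP : In Q z s s := e ▸ ((in_of_mem lx.mem).cj g).cj c
  have snz : s ≠ z := fun e => of.v0.1 (by rw [← ps, e, co.pz])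
  obtain ⟨b, hb, bs⟩ := (in_of_mem sQ).exb lx (sP.tt lx) (sP.ne lx) snz
  obtain ⟨d, hd, dz⟩ := ((in_of_mem sQ).symm lx sP snz).exb lx lx.zz lx.ne_one snz.symm
  have bQ := hb.mem lx
  refine Cx.main (s := s) (b := b) (m := b⁻¹ * d) ⟨co, of, sQ, ps, bQ, bs, by simpa using hd, ?_⟩ oi
  calc _ = b⁻¹ * (d * z * d⁻¹) * b := by group
    _ = _ := by rw [dz, lx.cent _ sQ, ← bs]; group

end Cfsg.Agent.CoT
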