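import Cfsg.Agent.CoT.A
import Cfsg.Agent.H13.Spinor
import Cfsg.Agent.H13.Witt
import Cfsg.Agent.H29.OH1

/-! Transitivity facts on `Ω₈⁺(2)` and the stabiliser of a singular vector. -/

set_option autoImplicit false
set_option synthInstance.maxSize 4000
set_option synthInstance.maxHeartbeats 200000

namespace Cfsg.Agent.CoT.O7

open Cfsg Cfsg.Agent.H13 Cfsg.Agent.H29 Subgroup QuadraticMap Module

instance (v x y : W) : Decidable (Cg v x y) := inferInstanceAs (Decidable (x = y ∨ x = y + v))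

/-- basis vectors -/
def bv (i : Fin 4 ⊕ Fin 4) : W := fun j => if j = i then 1 else 0
/-- the standard pairs -/
def sa (e : ZMod 2) : W := bv (.inl 1) + e • bv (.inr 1)
/-- the standard pairs -/
def sw (e : ZMod 2) : W := bv (.inl 2) + e • (bv (.inl 1) + bv (.inr 2))
/-- a non-singular vector orthogonal to the standard data -/
def n0 : W := bv (.inl 3) + bv (.inr 3)

theorem nd : ND Q8 := nd_QPlus
theorem good : Good Q8 := .inr (.inl (by simp))
theorem idx : Ω.index = 2 := nd.index_commutator_even good rfl (by simp)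
theorem rn {n : W} (h : Q8 n = 1) : refl Q8 n ∉ Ω := by
  rw [nd.mem_commutator_iff_two good rfl, nd.rk_refl (by simp [h])]; decide
theorem mulr {n : W} (h : Q8 n = 1) {g : O8} (hg : g ∉ Ω) : g * refl Q8 n ∈ Ω :=
  (mul_mem_iff_of_index_two idx).2 (iff_of_false hg (rn h))

theorem v0 : vv ≠ 0 ∧ Q8 vv = 0 := by decide +kernel

theorem A0 : ∀ e, AP vv e (sa e) (sw e) := by unfold AP; decide +kernel

theorem f8 (e : ZMod 2) : ∃ a w, AP vv e a w := ⟨_, _, A0 e⟩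

theorem N0 : Q8 n0 = 1 ∧ polar Q8 n0 vv = 0 ∧ ∀ e, polar Q8 n0 (sa e) = 0 ∧ polar Q8 n0 (sw e) = 0 := by decide +kernel

theorem f1 (a : W) (h0 : a ≠ 0) (h : Q8 a = 0) : ∃ g ∈ Ω, g.1 a = vv := by
  obtain ⟨g, g1, g2⟩ := witt_quad_family Q8 nd (fun _ : Unit => vv) (fun _ => a) (linearIndependent_unique_iff.2 v0.1)
    (linearIndependent_unique_iff.2 h0) (fun _ _ => by rw [polar_self2, polar_self2]) fun _ => h.trans v0.2.symm
  have e : ∀ k : O8, k.1 vv = a → k ∈ Ω → ∃ g ∈ Ω, g.1 a = vv := fun k h1 h2 =>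
    ⟨k⁻¹, inv_mem h2, by rw [← h1, OG_inv_apply_apply]⟩
  by_cases hg : (⟨g, g1⟩ : O8) ∈ Ω
  · exact e _ (g2 ()) hg
  · refine e _ ?_ (mulr N0.1 hg)
    rw [OG_mul_apply, refl_apply_of_perp N0.2.1]
    exact g2 ()

theorem f4 (u : W) (h1 : Q8 u = 0) (h2 : polar Q8 u vv = 0) (h3 : u ≠ 0) (h4 : u ≠ vv) :
    ∃ g ∈ Ω, g.1 vv = vv ∧ Q8 (u + g.1 u) = 1 := by
  obtain ⟨⟨n, n2, n1, n3⟩, m, m2, m1, m3⟩ := (by decide +kernel : ∀ u, Q8 u = 0 → polar Q8 u vv = 0 → u ≠ 0 → u ≠ vv →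
    (∃ n, polar Q8 n vv = 0 ∧ Q8 n = 1 ∧ polar Q8 n u = 1) ∧ ∃ n, polar Q8 n vv = 0 ∧ Q8 n = 1 ∧ polar Q8 n u = 0) u h1 h2 h3 h4
  refine ⟨_, mulr m1 (rn n1), ?_, ?_⟩
  · rw [OG_mul_apply, refl_apply_of_perp m2, refl_apply_of_perp n2]
  · rw [OG_mul_apply, refl_apply_of_perp m3, refl2 n1, n3, one_smul, ← add_assoc, add_self2, zero_add, n1]

theorem li {e : ZMod 2} {a w : W} (h : AP vv e a w) : LinearIndependent (ZMod 2) ![vv, a, w] := by
  obtain ⟨-, -, -, -, -, h1, h2, h3⟩ := h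
  refine Fintype.linearIndependent_iff.2 fun c hc => ?_
  simp only [Fin.sum_univ_three, Matrix.cons_val] at hc
  have z : ∀ c : ZMod 2, c = 0 ∨ c = 1 := by decide
  rcases z (c 0) with c0 | c0 <;> rcases z (c 1) with c1 | c1 <;> rcases z (c 2) with c2 | c2 <;>
    simp only [c0, c1, c2, zero_smul, one_smul, zero_add, add_zero] at hc
  · intro i
    fin_cases i
    exacts [c0, c1, c2]
  · exact absurd (.inl hc) h2
  · exact absurd (.inl hc) h1
  · exact absurd (.inl (by linear_combination (norm := module) hc - add_self2 w)) h3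
  · exact absurd hc v0.1
  · exact absurd (.inr (by linear_combination (norm := module) hc - add_self2 vv)) h2
  · exact absurd (.inr (by linear_combination (norm := module) hc - add_self2 vv)) h1
  · exact absurd (.inr (by linear_combination (norm := module) hc - add_self2 (w + vv))) h3

theorem std {e : ZMod 2} {a w : W} (h : AP vv e a w) : ∃ g ∈ Ω, g.1 vv = vv ∧ g.1 (sa e) = a ∧ g.1 (sw e) = w := by
  obtain ⟨g, g1, g2⟩ := witt_quad_family Q8 nd _ _ (li (A0 e)) (li h) (fun i j => by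
    obtain ⟨h1, h2, -, -, h3, -⟩ := h
    obtain ⟨k1, k2, -, -, k3, -⟩ := A0 e
    fin_cases i <;> fin_cases j <;> simp [show (2 : ZMod 2) = 0 from rfl, h1, h2, h3, k1, k2, k3, polar_comm Q8 vv,
      polar_comm Q8 w a, polar_comm Q8 (sw e) (sa e)]) fun i => by
    fin_cases i
    exacts [rfl, h.2.2.1.trans (A0 e).2.2.1.symm, h.2.2.2.1.trans (A0 e).2.2.2.1.symm]
  by_cases hg : (⟨g, g1⟩ : O8) ∈ Ω
  · exact ⟨_, hg, g2 0, g2 1, g2 2⟩
  · refine ⟨_, mulr N0.1 hg, ?_, ?_, ?_⟩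
    · rw [OG_mul_apply, refl_apply_of_perp N0.2.1]; exact g2 0
    · rw [OG_mul_apply, refl_apply_of_perp (N0.2.2 e).1]; exact g2 1
    · rw [OG_mul_apply, refl_apply_of_perp (N0.2.2 e).2]; exact g2 2

theorem f5 (e : ZMod 2) (a w a' w' : W) (h : AP vv e a w) (h' : AP vv e a' w') :
    ∃ g ∈ Ω, g.1 vv = vv ∧ Cg vv (g.1 a) a' ∧ Cg vv (g.1 w) w' := by
  obtain ⟨g, g0, g1, rfl, rfl⟩ := std h
  obtain ⟨k, k0, k1, rfl, rfl⟩ := std h'
  refine ⟨k * g⁻¹, mul_mem k0 (inv_mem g0), ?_, .inl ?_, .inl ?_⟩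
  · rw [OG_mul_apply, ← g1, OG_inv_apply_apply, g1, k1]
  all_goals rw [OG_mul_apply, OG_inv_apply_apply]

theorem sol (e : ZMod 2) (a w : W) (h : AP vv e a w) (i j : ZMod 2) :
    ∃ x, polar Q8 x vv = 0 ∧ polar Q8 x a = i ∧ polar Q8 x w = j := by
  obtain ⟨g, -, g1, rfl, rfl⟩ := std h
  obtain ⟨x, hx⟩ := (by decide +kernel : ∀ e i j : ZMod 2, ∃ x, polar Q8 x vv = 0 ∧ polar Q8 x (sa e) = i ∧
    polar Q8 x (sw e) = j) e i j
  exact ⟨g.1 x, by rwa [← g1, OG_polar, OG_polar, OG_polar]⟩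

theorem rad (a : W) (h : ∀ x, polar Q8 x vv = 0 → polar Q8 x a = 0) : Cg vv a 0 :=
  (by decide +kernel : ∀ a : W, (∀ i, polar Q8 (bv i) vv = 0 → polar Q8 (bv i) a = 0) → Cg vv a 0) a fun _ => h _

end Cfsg.Agent.CoT.O7
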