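import Cfsg.Agent.CoT.J0
import Cfsg.Agent.H26.ES4

/-! Passing to the quotient by a central subgroup of order five. -/

set_option autoImplicit false

namespace Cfsg.Agent.CoT

open Cfsg Cfsg.Agent.H10 Subgroup QuadraticMap

universe u

/-- the statement of the recognition theorem `j2` for the group `M` -/
def J2St (M : Type u) [Group M] : Prop :=
  ∀ {z s y m : M} (R : Subgroup M) (φ : centralizer ({z} : Set M) →* Ω4), Function.Surjective φ →
    (∀ h, φ h = 1 ↔ (h : M) ∈ R) → orderOf z = 2 → Cfsg.IsExtraspecial 2 R → Nat.card R = 32 →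
    R ≤ centralizer {z} → (∀ c, c * z = z * c → (∀ r ∈ R, r * c = c * r) → c ∈ R) → s ∈ R →
    m * z * m⁻¹ = s → s ≠ z → orderOf y = 2 → ¬ IsConj z y → Nat.card M = 604800

theorem qu' {M : Type u} [Group M] [Finite M] {z s y m f : M} (C0 R : Subgroup M) (φ : C0 →* Ω4)
    (sur : Function.Surjective φ) (ker : ∀ h, φ h = 1 ↔ (h : M) ∈ R) (hf : orderOf f = 5)
    (fc : ∀ x, f * x = x * f) (fn : f ∉ C0) (C0z : C0 ≤ centralizer {z}) (RC : R ≤ C0)
    (dec : ∀ h, h * z = z * h → ∃ i : ℕ, f ^ i * h ∈ C0) (hz : orderOf z = 2)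
    (RE : Cfsg.IsExtraspecial 2 R) (c32 : Nat.card R = 32)
    (cR : ∀ c ∈ C0, (∀ r ∈ R, r * c = c * r) → c ∈ R) (sR : s ∈ R) (e : m * z * m⁻¹ = s)
    (ne : s ≠ z) (hy : orderOf y = 2) (nc : ¬ IsConj z y)
    (J : ∀ (N : Subgroup M) [N.Normal], J2St (M ⧸ N)) : Nat.card M = 5 * 604800 := by
  have cen : ∀ x ∈ zpowers f, ∀ g : M, x * g = g * x := by
    rintro x ⟨k, rfl⟩ g
    exact (Commute.zpow_left (show Commute f g from fc g) k).eq
  have p5 : ∀ x ∈ zpowers f, x ^ 5 = 1 := by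
    rintro x ⟨k, rfl⟩
    show (f ^ k) ^ 5 = 1
    rw [← zpow_natCast, ← zpow_mul, mul_comm, zpow_mul, zpow_natCast, ← hf, pow_orderOf_eq_one, one_zpow]
  haveI : (zpowers f).Normal := ⟨fun x hx g => by rw [← cen x hx g, mul_inv_cancel_right]; exact hx⟩
  set N := zpowers f with hN
  have cN : Nat.card N = 5 := by rw [hN, Nat.card_zpowers, hf]
  have k1 : ∀ x ∈ N, x ∈ C0 → x = 1 := by
    intro x hx hc
    by_contra h1
    haveI : Fact (Nat.Prime 5) := ⟨by norm_num⟩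
    have o : orderOf x = 5 := orderOf_eq_prime (p5 x hx) h1
    have : zpowers x = N := Subgroup.eq_of_le_of_card_ge (zpowers_le.2 hx)
      (by rw [cN, Nat.card_zpowers, o])
    exact fn (zpowers_le.2 hc (this ▸ mem_zpowers f))
  set π := QuotientGroup.mk' N with hπ
  have pe : ∀ a b : M, π a = π b → a⁻¹ * b ∈ N := fun a b h => QuotientGroup.eq.1 h
  have k0 : ∀ a ∈ C0, ∀ b ∈ C0, π a = π b → a = b := fun a ha b hb h =>
    inv_mul_eq_one.1 (k1 _ (pe a b h) (mul_mem (inv_mem ha) hb))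
  have k2 : ∀ a b : M, a ^ 2 = 1 → b ^ 2 = 1 → π a = π b → a = b := by
    intro a b ha hb h
    have hx := pe a b h
    obtain ⟨x, hxe⟩ : ∃ x, x = a⁻¹ * b := ⟨_, rfl⟩
    rw [← hxe] at hx
    have hb' : b = a * x := by rw [hxe, mul_inv_cancel_left]
    have x2 : x ^ 2 = 1 := by
      have : Commute a x := (cen x hx a).symm
      rw [hb', this.mul_pow, ha, one_mul] at hb; exact hb
    have x1 : x = 1 := by
      have h5 := p5 x hx
      rw [show 5 = 2 * 2 + 1 from rfl, pow_succ, pow_mul, x2, one_pow, one_mul] at h5; exact h5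
    rw [hb', x1, mul_one]
  have sq : ∀ a : M, orderOf a = 2 → a ^ 2 = 1 := fun a h => h ▸ pow_orderOf_eq_one a
  have sqc : ∀ g : M, (g * z * g⁻¹) ^ 2 = 1 := fun g => by rw [conj_pow, sq z hz, mul_one, mul_inv_cancel]
  have o2 : ∀ a : M, orderOf a = 2 → orderOf (π a) = 2 := by
    intro a h
    refine orderOf_eq_prime (by rw [← map_pow, sq a h, map_one]) fun h1 => ?_
    have := k2 a 1 (sq a h) (one_pow 2) (by rw [h1, map_one])
    rw [this, orderOf_one] at h; omega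
  have k3 : ∀ c : M ⧸ N, c * π z = π z * c → ∃ h ∈ C0, π h = c := by
    intro c hc
    obtain ⟨h, rfl⟩ := QuotientGroup.mk'_surjective N c
    have h1 : h * z * h⁻¹ = z := k2 _ _ (sqc h) (sq z hz) (by
      rw [map_mul, map_mul, map_inv, hc, mul_inv_cancel_right])
    obtain ⟨i, hi⟩ := dec h (mul_inv_eq_iff_eq_mul.1 h1)
    refine ⟨_, hi, ?_⟩
    have : π (f ^ i) = 1 := (QuotientGroup.eq_one_iff _).2 (pow_mem (mem_zpowers f) i)
    rw [map_mul, this, one_mul]
  have mz : ∀ h ∈ C0, π h ∈ centralizer ({π z} : Set (M ⧸ N)) := fun h hh => by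
    rw [mem_centralizer_singleton_iff, ← map_mul, ← map_mul, mem_centralizer_singleton_iff.1 (C0z hh)]
  let ι : C0 →* centralizer ({π z} : Set (M ⧸ N)) :=
    (π.comp C0.subtype).codRestrict _ fun h => mz h h.2
  have ιb : Function.Bijective ι := by
    refine ⟨fun a b h => Subtype.ext (k0 a a.2 b b.2 (congrArg Subtype.val h)), fun c => ?_⟩
    obtain ⟨h, hh, e⟩ := k3 c (mem_centralizer_singleton_iff.1 c.2)
    exact ⟨⟨h, hh⟩, Subtype.ext e⟩
  let ε := MulEquiv.ofBijective ι ιb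
  have mR : ∀ c ∈ C0, π c ∈ R.map π → c ∈ R := by
    rintro c hc ⟨r, hr, e⟩
    rw [← k0 r (RC hr) c hc e]; exact hr
  have Rb : Function.Bijective (π.subgroupMap R) :=
    ⟨fun a b h => Subtype.ext (k0 a (RC a.2) b (RC b.2) (congrArg Subtype.val h)),
      π.subgroupMap_surjective R⟩
  let η := MulEquiv.ofBijective _ Rb
  haveI : Fact (Nat.Prime 2) := ⟨Nat.prime_two⟩
  have key := J N (z := π z) (s := π s) (y := π y) (m := π m) (R.map π) (φ.comp ε.symm.toMonoidHom)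
    (sur.comp ε.symm.surjective)
    (fun h => by
      obtain ⟨c, rfl⟩ := ε.surjective h
      have : (φ.comp ε.symm.toMonoidHom) (ε c) = φ c := by
        show φ (ε.symm (ε c)) = φ c
        rw [ε.symm_apply_apply]
      rw [this, ker]
      exact ⟨fun h => ⟨c, h, rfl⟩, fun h => mR c c.2 h⟩)
    (o2 z hz) (H26.isExtraspecial_congr RE η) (by rw [← Nat.card_congr η.toEquiv, c32])
    (by rintro _ ⟨r, hr, rfl⟩; exact mz r (RC hr))
    (fun c hc hr => by
      obtain ⟨h, hh, rfl⟩ := k3 c hc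
      refine ⟨h, cR h hh fun r hrR => k0 _ (mul_mem (RC hrR) hh) _ (mul_mem hh (RC hrR)) ?_, rfl⟩
      rw [map_mul, map_mul]; exact hr _ ⟨r, hrR, rfl⟩)
    ⟨s, sR, rfl⟩ (by rw [← e, map_mul, map_mul, map_inv])
    (fun h => ne (k2 s z (e ▸ sqc m) (sq z hz) h)) (o2 y hy)
    (fun h => by
      obtain ⟨c, hc⟩ := isConj_iff.1 h
      obtain ⟨g, rfl⟩ := QuotientGroup.mk'_surjective N c
      exact nc (isConj_iff.2 ⟨g, k2 _ _ (sqc g) (sq y hy) (by rw [map_mul, map_mul, map_inv, hc])⟩))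
  rw [Subgroup.card_eq_card_quotient_mul_card_subgroup N, key, cN]

end Cfsg.Agent.CoT
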