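import Cfsg.Agent.H10.Xsp2

/-! A frame in an extraspecial group of order 32 and 2-rank at most two. -/

set_option autoImplicit false

namespace Cfsg.Agent.CoT

open Cfsg Cfsg.Agent.H10 Subgroup

namespace PSe

variable {G : Type*} [Group G] {R : Subgroup G} {z x y r : G}

theorem spl (h : XS R z) (hx : x ∈ R) (hy : y ∈ R) (n : x * y ≠ y * x) (hr : r ∈ R) :
    ∃ i : Fin 4, x * (![1, x, y, x * y] i * r) = ![1, x, y, x * y] i * r * x ∧
      y * (![1, x, y, x * y] i * r) = ![1, x, y, x * y] i * r * y := by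
  have n' : y * x ≠ x * y := n.symm
  have k := fun {u a b} (hu : u ∈ R) (ha : a ∈ R) (hb : b ∈ R) => h.toSymT.comm_mul_iff hu ha hb
  by_cases h1 : x * r = r * x <;> by_cases h2 : y * r = r * y
  · exact ⟨0, by simpa using h1, by simpa using h2⟩
  · exact ⟨1, (k hx hx hr).2 (by simp [h1]), (k hy hx hr).2 (by simp [h2, n'])⟩
  · exact ⟨2, (k hx hy hr).2 (by simp [h1, n]), (k hy hy hr).2 (by simp [h2])⟩
  · refine ⟨3, (k hx (mul_mem hx hy) hr).2 ?_, (k hy (mul_mem hx hy) hr).2 ?_⟩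
    · rw [k hx hx hy]; simp [h1, n]
    · rw [k hy hx hy]; simp [h2, n']

theorem um (hx : x ∈ R) (hy : y ∈ R) (i : Fin 4) : ![1, x, y, x * y] i ∈ R := by
  fin_cases i
  exacts [one_mem _, hx, hy, mul_mem hx hy]

theorem big [Finite G] (h : XS R z) (c32 : Nat.card R = 32) (hx : x ∈ R) (hy : y ∈ R) (n : x * y ≠ y * x) :
    ∃ c ∈ R, x * c = c * x ∧ y * c = c * y ∧ c ∉ zpowers z := by
  by_contra hc
  push Not at hc
  choose i h1 h2 using fun r : R => spl h hx hy n r.2
  have := Nat.card_le_card_of_injective (fun r : R => ((i r, ⟨_, hc _ (mul_mem (um hx hy (i r)) r.2) (h1 r) (h2 r)⟩) :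
    Fin 4 × zpowers z)) fun r r' e => by
      simp only [Prod.mk.injEq, Subtype.mk.injEq] at e
      obtain ⟨e1, e2⟩ := e
      rw [e1] at e2
      exact Subtype.ext (mul_left_cancel e2)
  rw [c32, Nat.card_prod, Nat.card_zpowers, h.ord] at this
  simp at this

theorem ncm (h : XS R z) (hx : x ∈ R) (hy : y ∈ R) (n : x * y ≠ y * x) {c : G} (hc : c ∈ R) (c1 : x * c = c * x)
    (c2 : y * c = c * y) (cz : c ∉ zpowers z) : ∃ d ∈ R, x * d = d * x ∧ y * d = d * y ∧ c * d ≠ d * c := by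
  by_contra hd
  push Not at hd
  refine cz (h.zc c hc fun q hq => ?_)
  obtain ⟨i, h1, h2⟩ := spl h hx hy n hq
  have e := hd _ (mul_mem (um hx hy i) hq) h1 h2
  have u : c * ![1, x, y, x * y] i = ![1, x, y, x * y] i * c := by
    fin_cases i
    · simp
    · exact c1.symm
    · exact c2.symm
    · show c * (x * y) = x * y * c
      rw [← mul_assoc, ← c1, mul_assoc, ← c2, mul_assoc]
  rw [← mul_assoc, u, mul_assoc, mul_assoc] at e
  exact (mul_left_cancel e).symm

theorem inv [Finite G] (h : XS R z) (c32 : Nat.card R = 32) : ∃ s ∈ R, s * s = 1 ∧ s ∉ zpowers z := by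
  obtain ⟨y, hy, yz⟩ := h.na
  obtain ⟨x, hx, n⟩ := h.exists_ne_comm hy yz
  obtain ⟨c, hc, c1, c2, cz⟩ := big h c32 hx hy n
  rcases h.mem_z.1 (h.sq y hy) with e | e
  · exact ⟨y, hy, e, yz⟩
  rcases h.mem_z.1 (h.sq c hc) with f | f
  · exact ⟨c, hc, f, cz⟩
  refine ⟨y * c, mul_mem hy hc, ?_, fun m => n ?_⟩
  · rw [mul_assoc, ← mul_assoc c, ← c2, mul_assoc, ← mul_assoc, e, f, h.zz]
  · have := h.comm_of_mem_z m (h.cent x hx)
    rw [mul_assoc, ← c1, ← mul_assoc, ← mul_assoc] at this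
    exact mul_right_cancel this

theorem ord4 [Finite G] (h : XS R z) (hm : ∀ A ≤ R, Cfsg.IsElementaryAbelian 2 A → Nat.card A ≤ 4) {s b a : G}
    (hs : s ∈ R) (hb : b ∈ R) (ha : a ∈ R) (ss : s * s = 1) (n : s * b ≠ b * s) (c1 : s * a = a * s) (c2 : b * a = a * b)
    (az : a ∉ zpowers z) : a * a = z := by
  classical
  refine (h.mem_z.1 (h.sq a ha)).resolve_left fun aa => ?_
  have cm : closure ({z, s, a} : Set G) ≤ centralizer (closure ({z, s, a} : Set G) : Set G) := by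
    rw [centralizer_closure, closure_le]
    rintro u (rfl | rfl | rfl) v (rfl | rfl | rfl)
    exacts [rfl, h.cent _ hs, h.cent _ ha, (h.cent _ hs).symm, rfl, c1.symm, (h.cent _ ha).symm, c1, rfl]
  have := hm (closure ({z, s, a} : Set G)) (by
    rw [closure_le]; rintro u (rfl | rfl | rfl); exacts [h.mem, hs, ha])
    ⟨⟨⟨fun u v => Subtype.ext (cm v.2 u u.2)⟩⟩, fun u hu => by
      rw [pow_two]
      induction hu using closure_induction with
      | mem u hu => rcases hu with rfl | rfl | rfl; exacts [h.zz, ss, aa]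
      | one => simp
      | mul u v hu hv e f => rw [mul_assoc, ← mul_assoc v, cm hu v hv, mul_assoc, ← mul_assoc, e, f, mul_one]
      | inv u _ e => rw [← mul_inv_rev, e, inv_one]⟩
  have s1 : s ≠ 1 := fun e => n (by simp [e])
  have sz : s ≠ z := fun e => n (by rw [e, h.cent b hb])
  have a1 : a ≠ 1 := fun e => az (e ▸ one_mem _)
  have a2 : a ≠ z := fun e => az (e ▸ mem_zpowers _)
  have a3 : a ≠ s := fun e => n (e ▸ c2.symm)
  have a4 : a ≠ z * s := fun e => n (by
    rw [e, ← mul_assoc, h.cent b hb, mul_assoc, mul_assoc] at c2; exact (mul_left_cancel c2).symm)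
  have z1 := h.ne_one
  have zs1 : z * s ≠ 1 := fun e => sz (by rw [← h.zz] at e; exact mul_left_cancel e)
  have c5 : ({1, z, s, z * s, a} : Finset G).card = 5 := by
    rw [Finset.card_insert_of_notMem, Finset.card_insert_of_notMem, Finset.card_insert_of_notMem, Finset.card_pair a4.symm]
    · simp [z1, a3.symm]
    · simp [sz.symm, s1, a2.symm]
    · simp [z1.symm, s1.symm, zs1.symm, a1.symm]
  have mz : z ∈ closure ({z, s, a} : Set G) := subset_closure (by simp)
  have ms : s ∈ closure ({z, s, a} : Set G) := subset_closure (by simp)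
  have ma : a ∈ closure ({z, s, a} : Set G) := subset_closure (by simp)
  have le := Set.ncard_le_ncard (s := (({1, z, s, z * s, a} : Finset G) : Set G)) (t := closure ({z, s, a} : Set G)) (by
    intro u hu
    simp only [Finset.coe_insert, Finset.coe_singleton, Set.mem_insert_iff, Set.mem_singleton_iff] at hu
    rcases hu with rfl | rfl | rfl | rfl | rfl
    exacts [one_mem _, mz, ms, mul_mem mz ms, ma]) (Set.toFinite _)
  rw [Set.ncard_coe_finset, c5, ← Nat.card_coe_set_eq] at le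
  exact absurd (le.trans this) (by norm_num)

end PSe

theorem ex32 {G : Type*} [Group G] [Finite G] (R : Subgroup G) {z : G} (RE : Cfsg.IsExtraspecial 2 R) (c32 : Nat.card R = 32)
    (hm : ∀ A ≤ R, Cfsg.IsElementaryAbelian 2 A → Nat.card A ≤ 4) (zR : z ∈ R) (z1 : z ≠ 1) (zc : ∀ r ∈ R, r * z = z * r) :
    ∃ s ∈ R, ∃ b ∈ R, ∃ a ∈ R, ∃ a' ∈ R, s * s = 1 ∧ s ≠ 1 ∧ s ≠ z ∧ b * s * b⁻¹ = z * s ∧ a * s = s * a ∧ a' * s = s * a' ∧
      a * b = b * a ∧ a' * b = b * a' ∧ a * a = z ∧ a' * a' = z ∧ a * a' ≠ a' * a := by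
  have h := xs_of_isExtraspecial RE z1 zR zc
  obtain ⟨s, hs, ss, sz⟩ := PSe.inv h c32
  obtain ⟨b, hb, n⟩ := h.exists_ne_comm hs sz
  obtain ⟨a, ha, c1, c2, az⟩ := PSe.big h c32 hs hb n.symm
  obtain ⟨d, hd, d1, d2, nd⟩ := PSe.ncm h hs hb n.symm ha c1 c2 az
  exact ⟨s, hs, b, hb, a, ha, d, hd, ss, fun e => sz (e ▸ one_mem _), fun e => sz (e ▸ mem_zpowers _), h.conj_eq_of_ne hb hs n,
    c1.symm, d1.symm, c2.symm, d2.symm, PSe.ord4 h hm hs hb ha ss n.symm c1 c2 az,
    PSe.ord4 h hm hs hb hd ss n.symm d1 d2 fun m => nd (h.comm_of_mem_z m (h.cent a ha)), nd⟩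

end Cfsg.Agent.CoT
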