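import Cfsg.Agent.CoT.J0

/-! The configuration centralised by an element of order five. -/

set_option autoImplicit false

namespace Cfsg.Agent.CoT

open Cfsg Cfsg.Agent.H10 Subgroup QuadraticMap

variable {G : Type*} [Group G] [Finite G]

namespace PSE

theorem fixp {f : G} (hf : f ^ 5 = 1) (S : Set G) (hS : ∀ x ∈ S, f * x * f⁻¹ ∈ S) (h5 : ¬ 5 ∣ Nat.card S) :
    ∃ x ∈ S, x * f = f * x := by
  classical
  haveI := Fintype.ofFinite S
  haveI : Fact (Nat.Prime 5) := ⟨Nat.prime_five⟩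
  let F : Function.End S := fun x => ⟨f * x * f⁻¹, hS x x.2⟩
  have k : ∀ (n : ℕ) (x : S), (((F ^ n) x : S) : G) = f ^ n * x * (f ^ n)⁻¹ := fun n => by
    induction n with
    | zero => intro x; simp [Function.End.one_def]
    | succ n ih => intro x; rw [pow_succ]; refine (ih (F x)).trans ?_; rw [pow_succ]; simp only [F]; group
  have e := Equiv.Perm.card_fixedPoints_modEq (f := F) (p := 5) (n := 1)
    (funext fun x => Subtype.ext (by rw [pow_one, k, hf]; simp [Function.End.one_def]))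
  by_contra! n
  have : IsEmpty F.fixedPoints := ⟨fun ⟨x, hx⟩ => n x x.2 (mul_inv_eq_iff_eq_mul.1 (congrArg Subtype.val hx)).symm⟩
  rw [Fintype.card_eq_zero (α := F.fixedPoints), ← Nat.card_eq_fintype_card] at e
  exact h5 ((Nat.modEq_zero_iff_dvd).1 e)

theorem exo (H : Subgroup G) (a b c d : G) (h : 4 < Nat.card H) : ∃ y ∈ H, y ≠ a ∧ y ≠ b ∧ y ≠ c ∧ y ≠ d := by
  by_contra! n
  have : (H : Set G) ⊆ {a, b, c, d} := fun y hy => by
    simp only [Set.mem_insert_iff, Set.mem_singleton_iff]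
    by_contra! m
    exact m.2.2.2 (n y hy m.1 m.2.1 m.2.2.1)
  have h1 := Set.ncard_le_ncard this
  have h2 := Set.ncard_insert_le a ({b, c, d} : Set G)
  have h3 := Set.ncard_insert_le b ({c, d} : Set G)
  have h4 := Set.ncard_insert_le c ({d} : Set G)
  rw [Set.ncard_singleton] at h4
  have : (H : Set G).ncard = Nat.card H := rfl
  omega

variable {z : G} {Q : Subgroup G} {ρ : centralizer ({z} : Set G) →* O8} {p : G → W}

theorem half (co : Co z Q ρ p) (R : Subgroup G) (hR : R ≤ Q) {x : G} (hx : x ∈ Q) :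
    Nat.card R ≤ 2 * Nat.card ↥(R ⊓ centralizer ({x} : Set G)) := by
  let φ : R →* Multiplicative (ZMod 2) := MonoidHom.mk' (fun r => Multiplicative.ofAdd (polar Q8 (p r) (p x)))
    fun a b => by rw [← ofAdd_add, coe_mul, co.mul (hR a.2) (hR b.2), polar_add_left]
  have e : φ.ker = (centralizer ({x} : Set G)).subgroupOf R := by
    ext r
    rw [MonoidHom.mem_ker, mem_subgroupOf, mem_centralizer_singleton_iff, co.cm (hR r.2) hx]
    rfl
  have h1 := φ.ker.card_mul_index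
  have h2 : φ.ker.index ≤ 2 := by
    rw [index_ker]
    simpa using φ.range.card_le_card_group
  rw [← h1, inf_comm, ← Nat.card_congr (subgroupOfEquivOfLe (inf_le_right : centralizer ({x} : Set G) ⊓ R ≤ R)).toEquiv,
    inf_subgroupOf_right, ← e, mul_comm 2]
  exact Nat.mul_le_mul_left _ h2

omit [Finite G] in
theorem twist (co : Co z Q ρ p) {k : O8} (hk : k ∈ Ω) :
    Co z Q ((MulAut.conj k).toMonoidHom.comp ρ) fun x => k.1 (p x) where
  lx := co.lx
  hr := by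
    ext g
    constructor
    · rintro ⟨h, rfl⟩
      exact mul_mem (mul_mem hk (co.hr ▸ ⟨h, rfl⟩ : ρ h ∈ Ω)) (inv_mem hk)
    · intro hg
      obtain ⟨h, e⟩ : k⁻¹ * g * k ∈ ρ.range := co.hr ▸ mul_mem (mul_mem (inv_mem hk) hg) hk
      exact ⟨h, by show k * ρ h * k⁻¹ = g; rw [e]; group⟩
  ker := fun h => by rw [← co.ker]; show k * ρ h * k⁻¹ = 1 ↔ _; simp
  mul := fun hx hy => by rw [co.mul hx hy, map_add]
  surj := fun v => by
    obtain ⟨x, hx, e⟩ := co.surj ((k⁻¹).1 v)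
    exact ⟨x, hx, by rw [e, H13.OG_apply_inv]⟩
  zero := fun hx => by rw [← co.zero hx]; exact EmbeddingLike.map_eq_zero_iff
  act := fun h x hx => by
    show _ = (k * ρ h * k⁻¹).1 _
    rw [co.act h hx, H13.OG_mul_apply, H13.OG_mul_apply, H13.OG_inv_apply_apply]
  sq := fun hx => by rw [co.sq hx, H13.OG_map]
  cm := fun hx hy => by rw [co.cm hx hy, H13.OG_polar]

theorem exs (co : Co z Q ρ p) (R : Subgroup G) (hR : R ≤ Q) (c32 : Nat.card R = 32) :
    ∃ s ∈ R, s * s = 1 ∧ s ≠ 1 ∧ s ≠ z := by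
  by_contra! n
  have lx := co.lx
  have sq : ∀ x ∈ R, x ≠ 1 → x ≠ z → x * x = z := fun x hx h1 h2 =>
    (lx.mem_z.1 (lx.sq _ (hR hx))).resolve_left fun e => h2 (n x hx e h1)
  obtain ⟨x, hx, x1, xz, -⟩ := exo R 1 z 1 1 (by omega)
  obtain ⟨y, ⟨hy, c⟩, y1, yz, y2, y3⟩ := exo (R ⊓ centralizer ({x} : Set G)) 1 z x⁻¹ (x⁻¹ * z)
    (by have := half co R hR (hR hx); omega)
  have c' : y * x = x * y := mem_centralizer_singleton_iff.1 c
  have := sq (x * y) (mul_mem hx hy) (fun e => y2 (eq_inv_of_mul_eq_one_right e)) fun e => y3 (by rw [← e]; group)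
  rw [show x * y * (x * y) = x * (y * x) * y by group, c', show x * (x * y) * y = x * x * (y * y) by group,
    sq x hx x1 xz, sq y hy y1 yz, lx.zz] at this
  exact lx.ne_one this.symm

theorem nsq (co : Co z Q ρ p) (R : Subgroup G) (hR : R ≤ Q) (hz : z ∈ R)
    (hm : ∀ A ≤ R, Cfsg.IsElementaryAbelian 2 A → Nat.card A ≤ 4) {s b a : G} (hs : s ∈ R) (ss : s * s = 1)
    (hb : b ∈ Q) (bs : b * s ≠ s * b) (ha : a ∈ R) (as : a * s = s * a) (ab : a * b = b * a) (a1 : a ≠ 1) (az : a ≠ z) :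
    Q8 (p a) = 1 := by
  refine (z2 _).resolve_left fun e => ?_
  have lx := co.lx
  have e1 := (co.sq (hR hs)).1 ss
  have e2 := (co.cm (hR ha) (hR hs)).1 as
  have e3 : polar Q8 (p s) (p a) = 0 := by rw [polar_comm]; exact e2
  let A : Subgroup G :=
    { carrier := {x | x ∈ R ∧ ∃ i j : ZMod 2, p x = i • p s + j • p a}
      one_mem' := ⟨one_mem _, 0, 0, by simp [co.p1]⟩
      mul_mem' := fun ⟨hx, i, j, e⟩ ⟨hy, i', j', e'⟩ => ⟨mul_mem hx hy, i + i', j + j', by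
        rw [co.mul (hR hx) (hR hy), e, e', add_smul, add_smul]; abel⟩
      inv_mem' := fun ⟨hx, i, j, e⟩ => ⟨inv_mem hx, i, j, by rw [co.pinv (hR hx), e]⟩ }
  have h4 := hm A (fun x hx => hx.1) ⟨⟨⟨fun ⟨x, hx, i, j, ex⟩ ⟨y, hy, i', j', ey⟩ => Subtype.ext ((co.cm (hR hx) (hR hy)).2 (by
    rw [ex, ey]; simp [polar_add_left, polar_add_right, polar_smul_left, polar_smul_right, e2, e3, e, e1]))⟩⟩,
    fun x ⟨hx, i, j, ex⟩ => by
      rw [pow_two, co.sq (hR hx), ex, QuadraticMap.map_add Q8, QuadraticMap.map_smul, QuadraticMap.map_smul,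
        polar_smul_left, polar_smul_right, e, e1, e3]; simp⟩
  have bz := lx.cent _ hb
  have s1 : s ≠ 1 := fun e => bs (by simp [e])
  have sz : s ≠ z := fun e => bs (e ▸ bz)
  have sub : ({a, s, z * s, z, 1} : Set G) ⊆ (A : Set G) := by
    have hs' : s ∈ A := ⟨hs, 1, 0, by simp⟩
    have hz' : z ∈ A := ⟨hz, 0, 0, by simp [co.pz]⟩
    rintro x (rfl | rfl | rfl | rfl | rfl)
    exacts [⟨ha, 0, 1, by simp⟩, hs', mul_mem hz' hs', hz', one_mem A]
  have h5 := Set.ncard_le_ncard sub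
  have n1 : a ≠ s := fun e => bs (e ▸ ab.symm)
  have n2 : a ≠ z * s := fun e => bs (by
    rw [e, ← mul_assoc, bz, mul_assoc, mul_assoc] at ab; exact (mul_left_cancel ab).symm)
  have n3 : z * s ≠ 1 := fun e => sz (by rw [← lx.zz] at e; exact mul_left_cancel e)
  rw [Set.ncard_insert_of_notMem (by simp [n1, n2, az, a1]), Set.ncard_insert_of_notMem (by simp [lx.ne_one, sz, s1]),
    Set.ncard_insert_of_notMem (by simp [s1, n3]), Set.ncard_pair lx.ne_one] at h5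
  have : (A : Set G).ncard = Nat.card A := rfl
  omega

theorem exd {f s : G} (lx : LX Q z) (sP : In Q z s s) (zP : In Q z z s) (snz : s ≠ z) (hf : f ^ 5 = 1) (fz : f * z = z * f)
    (fs : f * s = s * f) : ∃ d, In Q z d s ∧ d * z * d⁻¹ = s * z ∧ d * f = f * d := by
  obtain ⟨d, hd, dz⟩ := zP.exb lx lx.zz lx.ne_one snz.symm
  let C : Subgroup G :=
    { carrier := {x | In Q z x s ∧ x * z = z * x}
      one_mem' := ⟨sP.tt lx ▸ sP.mul lx sP, by simp⟩
      mul_mem' := fun hx hy => ⟨hx.1.mul lx hy.1, cz_mul hx.2 hy.2⟩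
      inv_mem' := fun hx => ⟨hx.1.inv, cz_inv hx.2⟩ }
  have pC : IsPGroup 2 C := fun x => ⟨2, Subtype.ext (by
    show (x : G) ^ 2 ^ 2 = 1
    rw [show (x : G) ^ 2 ^ 2 = x * x * (x * x) by rw [← pow_two, ← pow_two, ← pow_mul]; rfl]
    rcases x.2.1.sq lx with e | e <;> rw [e]
    exacts [one_mul _, sP.tt lx])⟩
  obtain ⟨j, hj⟩ := pC.exists_card_eq
  obtain ⟨x, hx, e⟩ := fixp hf {x | In Q z x s ∧ x * z * x⁻¹ = s * z} (fun x hx => ⟨hx.1.cj' fs, by
    calc _ = f * (x * (f⁻¹ * z * f) * x⁻¹) * f⁻¹ := by group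
      _ = f * s * (z * f⁻¹) := by rw [cz_inv fz, inv_mul_cancel_right, hx.2]; group
      _ = _ := by rw [fs, ← cz_inv fz]; group⟩) (by
    have : Nat.card C = Nat.card {x | In Q z x s ∧ x * z * x⁻¹ = s * z} := Nat.card_congr
      { toFun := fun y => ⟨d * y, hd.mul lx y.2.1, by
          calc _ = d * (y * z * (y : G)⁻¹) * d⁻¹ := by group
            _ = _ := by rw [y.2.2, mul_inv_cancel_right, dz]⟩
        invFun := fun y => ⟨d⁻¹ * y, hd.inv.mul lx y.2.1, mul_inv_eq_iff_eq_mul.1 (by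
          calc _ = d⁻¹ * (y * z * (y : G)⁻¹) * d := by group
            _ = _ := by rw [y.2.2, ← dz]; group)⟩
        left_inv := fun y => by simp
        right_inv := fun y => by simp }
    rw [← this, hj]
    intro h
    have := Nat.prime_five.dvd_of_dvd_pow h
    omega)
  exact ⟨x, hx.1, hx.2, e⟩

end PSE

open PSE in
theorem setup {z f : G} {Q : Subgroup G} {ρ : centralizer ({z} : Set G) →* O8} {p : G → W} (co : Co z Q ρ p) (of : OF vv)
    {g : G} (hg : g * z * g⁻¹ ∈ Q) (ne : g * z * g⁻¹ ≠ z) (hf : orderOf f = 5) (fz : f * z = z * f)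
    (RE : Cfsg.IsExtraspecial 2 ↥(Q ⊓ centralizer ({f} : Set G))) (c32 : Nat.card ↥(Q ⊓ centralizer ({f} : Set G)) = 32)
    (hm : ∀ A ≤ Q ⊓ centralizer ({f} : Set G), Cfsg.IsElementaryAbelian 2 A → Nat.card A ≤ 4) :
    ∃ ρ' p' s b m a a', Fv z Q ρ' p' s b m f a a' := by
  set R := Q ⊓ centralizer ({f} : Set G) with hRd
  have hR : R ≤ Q := inf_le_left
  have cf : ∀ {x}, x ∈ R → x * f = f * x := fun hx => mem_centralizer_singleton_iff.1 hx.2
  have lx := co.lx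
  have zR : z ∈ R := ⟨lx.mem, mem_centralizer_singleton_iff.2 fz.symm⟩
  obtain ⟨z', xs, -⟩ := exists_xs RE
  obtain rfl : z = z' := (xs.mem_z.1 (xs.zc z zR fun q hq => lx.cent q (hR hq))).resolve_left lx.ne_one
  obtain ⟨s, sR, ss, s1, snz⟩ := exs co R hR c32
  have sQ := hR sR
  obtain ⟨k, hk, ps⟩ := of.f1 (p s) (fun e => (lx.mem_z.1 ((co.zero sQ).1 e)).elim s1 snz) ((co.sq sQ).1 ss)
  have co' := twist co hk
  set p' : G → W := fun x => k.1 (p x) with hp'
  have ps' : p' s = vv := ps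
  obtain ⟨b, bR, bs⟩ : ∃ b ∈ R, b * s ≠ s * b := by
    by_contra! n
    exact (lx.mem_z.1 (xs.zc s sR n)).elim s1 snz
  have bQ := hR bR
  have bs' := lx.conj_eq_of_ne bQ sQ bs
  obtain ⟨c, -, e⟩ := toS co' of sQ ps' hg (cj_sq lx.zz) (lx.conj g).ne_one ne
  have sP : In Q z s s := e ▸ ((in_of_mem lx.mem).cj g).cj c
  obtain ⟨d, hd, dz, df⟩ := exd lx sP ((in_of_mem sQ).symm lx sP snz) snz (hf ▸ pow_orderOf_eq_one f) fz (cf sR).symm
  set D := (R ⊓ centralizer ({s} : Set G)) ⊓ centralizer ({b} : Set G) with hD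
  have c8 : 4 < Nat.card D := by
    have h1 := half co R hR sQ
    have h2 := half co (R ⊓ centralizer ({s} : Set G)) (inf_le_left.trans hR) bQ
    rw [← hD] at h2
    omega
  have q1 : ∀ a ∈ D, a ≠ 1 → a ≠ z → Q8 (p' a) = 1 := fun a ha => nsq co' R hR zR hm sR ss bQ bs ha.1.1
    (mem_centralizer_singleton_iff.1 ha.1.2) (mem_centralizer_singleton_iff.1 ha.2)
  obtain ⟨a, ha, a1, az, -⟩ := exo D 1 z 1 1 c8
  obtain ⟨a', ha', a1', az', n1, n2⟩ := exo D 1 z a⁻¹ (a⁻¹ * z) c8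
  have aQ := hR ha.1.1
  have aQ' := hR ha'.1.1
  have e1 := q1 a ha a1 az
  have e2 := q1 a' ha' a1' az'
  have e3 := q1 _ (mul_mem ha ha') (fun e => n1 (eq_inv_of_mul_eq_one_right e)) fun e => n2 (by rw [← e]; group)
  rw [co'.mul aQ aQ', QuadraticMap.map_add Q8, e1, e2, show (1 : ZMod 2) + 1 = 0 from rfl, zero_add] at e3
  have v1 : polar Q8 (p' a) vv = 0 := ps' ▸ (co'.cm aQ sQ).1 (mem_centralizer_singleton_iff.1 ha.1.2)
  have v2 : polar Q8 (p' a') vv = 0 := ps' ▸ (co'.cm aQ' sQ).1 (mem_centralizer_singleton_iff.1 ha'.1.2)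
  have ncg : ∀ w, Q8 w = 1 → ¬ Cg vv w 0 := by
    rintro w hw (rfl | rfl)
    · simp at hw
    · rw [zero_add, of.v0.2] at hw; exact zero_ne_one hw
  refine ⟨_, p', s, b, b⁻¹ * d, a, a', ⟨co', of, sQ, ps', bQ, bs', by simpa using hd, ?_⟩, hf, ?_, aQ, aQ', of.v0.2,
    (z2 _).resolve_left fun e => bs ((co'.cm bQ sQ).2 (ps'.symm ▸ e)), ⟨v1, v2, e1, e2, e3, ncg _ e1, ncg _ e2, ?_⟩,
    (co'.cm bQ aQ).1 (mem_centralizer_singleton_iff.1 ha.2).symm,
    (co'.cm bQ aQ').1 (mem_centralizer_singleton_iff.1 ha'.2).symm⟩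
  · calc _ = b⁻¹ * (d * z * d⁻¹) * b := by group
      _ = _ := by rw [dz, lx.cent _ sQ, ← bs']; group
  · rintro x (rfl | rfl | rfl | rfl | rfl | rfl)
    exacts [fz.symm, cf sR, cf bR, cf ha.1.1, cf ha'.1.1, cz_mul (cz_inv (cf bR)) df]
  · rintro (e | e) <;> rw [e] at e3
    · rw [pvv] at e3; exact zero_ne_one e3
    · rw [polar_add_left, pvv, polar_comm, v2, zero_add] at e3; exact zero_ne_one e3

end Cfsg.Agent.CoT
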