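import Cfsg.Agent.CoT.G3

/-! An invariant of the action of `C(V)` on an element of order four. -/

set_option autoImplicit false

namespace Cfsg.Agent.CoT

open Cfsg Cfsg.Agent.H10 Subgroup QuadraticMap

variable {G : Type*} [Group G]

def cm (g x : G) : G := g * x * g⁻¹ * x⁻¹

def th (m a g : G) : G := cm g a * (m * cm g (m * a * m⁻¹) * m⁻¹)

theorem cm_mul {g g' x : G} (e : g * cm g' x = cm g' x * g) : cm (g * g') x = cm g' x * cm g x := by
  calc _ = g * cm g' x * x * g⁻¹ * x⁻¹ := by unfold cm; group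
    _ = _ := by rw [e]; unfold cm; group

theorem cm_swap {g a1 a2 : G} (e1 : g * (g * a1 * g⁻¹ * a2⁻¹) = g * a1 * g⁻¹ * a2⁻¹ * g)
    (e2 : a2 * (g * a2 * g⁻¹ * a1⁻¹) = g * a2 * g⁻¹ * a1⁻¹ * a2) : cm g (a1 * a2) = cm (g * g) a1 * cm a2 a1 := by
  calc _ = g * a1 * g⁻¹ * a2⁻¹ * (a2 * (g * a2 * g⁻¹ * a1⁻¹)) * a1 * a2⁻¹ * a1⁻¹ := by unfold cm; group
    _ = g * a1 * g⁻¹ * a2⁻¹ * g * a2 * g⁻¹ * a1⁻¹ * cm a2 a1 := by rw [e2]; unfold cm; group
    _ = _ := by rw [← e1]; unfold cm; group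

theorem cm_cj (m g x : G) : cm g (m * x * m⁻¹) = m * cm (m⁻¹ * g * m) x * m⁻¹ := by unfold cm; group

namespace Cx
variable {z : G} {Q : Subgroup G} {ρ : centralizer ({z} : Set G) →* O8} {p : G → W} {v : W} {s b m a a' r u x y c t g g' : G}
  (h : Cx z Q ρ p v s b m)
include h

theorem mz' (hs : y * s = s * y) : m⁻¹ * y * m * z = z * (m⁻¹ * y * m) := by
  have := cj_cm m⁻¹ hs
  rwa [← h.mz, show m⁻¹ * (m * z * m⁻¹) * m⁻¹⁻¹ = z by group, inv_inv] at this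

theorem ms' (hz : y * z = z * y) (hs : y * s = s * y) : m⁻¹ * y * m * s = s * (m⁻¹ * y * m) := by
  have := cj_cm m⁻¹ (show y * (z * s) = z * s * y from (Commute.mul_right hz hs :))
  rwa [← h.ms, show m⁻¹ * (m * s * m⁻¹) * m⁻¹⁻¹ = s by group, inv_inv] at this

theorem mz2 (hz : y * z = z * y) (hs : y * s = s * y) : m * y * m⁻¹ * z = z * (m * y * m⁻¹) := by
  have := cj_cm m (show y * (z * s) = z * s * y from (Commute.mul_right hz hs :))
  rwa [h.mzs] at this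

theorem ms2 (hz : y * z = z * y) : m * y * m⁻¹ * s = s * (m * y * m⁻¹) := by
  have := cj_cm m hz
  rwa [h.mz] at this

theorem vm (hu : Vm z s u) : Vm z s (m * u * m⁻¹) := by
  rcases hu with e | e | e | e <;> rw [e]
  exacts [.inl (by group), .inr (.inr (.inl h.mz)), .inr (.inr (.inr h.ms)), .inr (.inl h.mzs)]

theorem vv (hu : Vm z s u) (hx : Vm z s x) : x * u = u * x := hu.cm (h.lx.cent _ (h.vQ hx)) (hx.cm h.sz.symm.symm rfl).symm

theorem pcq (hz : r * z = z * r) (hx : x ∈ Q) : cm r x ∈ Q ∧ p (cm r x) = (sg ρ r).1 (p x) + p x :=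
  ⟨mul_mem (h.lx.conj_mem hz hx) (inv_mem hx), by
    rw [cm, h.co.mul (h.lx.conj_mem hz hx) (inv_mem hx), h.co.sg_act hz hx, h.co.pinv hx]⟩

variable [Finite G]

theorem eqv (hz : y * z = z * y) (hs : y * s = s * y) : Ag v (sg ρ y) (sg ρ (m⁻¹ * y * m)) := by
  have z2 := h.mz' hs
  have s2 := h.ms' hz hs
  refine ⟨h.cv hz hs, h.cv z2 s2, fun w hw => ?_⟩
  obtain ⟨a, ha, rfl⟩ := h.co.surj w
  have has := (h.perp ha).2 hw
  have e := h.cjw hz hs ha has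
  rw [show y * (m * a * m⁻¹) * y⁻¹ = m * (m⁻¹ * y * m * a * (m⁻¹ * y * m)⁻¹) * m⁻¹ by group] at e
  rw [← h.co.sg_act z2 ha]
  exact e.symm.trans (h.wpsi (h.lx.conj_mem z2 ha) (cz_cj s2 has))

theorem vA (hz : g * z = z * g) (ha : a ∈ Q) (ha' : a' ∈ Q) (e : Cg v ((sg ρ g).1 (p a)) (p a')) :
    Vm z s (g * a * g⁻¹ * a'⁻¹) := h.pv2 (h.lx.conj_mem hz ha) ha' (h.co.sg_act hz ha ▸ e)

theorem vB (hz : g * z = z * g) (hs : g * s = s * g) (ha : a ∈ Q) (has : a * s = s * a) (ha' : a' ∈ Q)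
    (e : Cg v ((sg ρ g).1 (p a)) (p a')) : Vm z s (g * (m * a * m⁻¹) * g⁻¹ * (m * a' * m⁻¹)⁻¹) := by
  have := h.vm (h.vA (h.mz' hs) ha ha' (((h.eqv hz hs).2.2 _ ((h.perp ha).1 has)).symm.trans e))
  convert this using 1; group

theorem th_mul (ha : a ∈ Q) (has : a * s = s * a) (hz : g * z = z * g) (hs : g * s = s * g) (e : Cg v ((sg ρ g).1 (p a)) (p a))
    (hz' : g' * z = z * g') (hs' : g' * s = s * g') (e' : Cg v ((sg ρ g').1 (p a)) (p a)) :
    th m a (g * g') = th m a g' * th m a g := by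
  have v1 : Vm z s (cm g a) := h.vA hz ha ha e
  have v2 : Vm z s (cm g' a) := h.vA hz' ha ha e'
  have v4 : Vm z s (cm g' (m * a * m⁻¹)) := h.vB hz' hs' ha has ha e'
  have c := h.vv (h.vm v4) v1
  unfold th
  rw [cm_mul (v2.cm hz hs), cm_mul (v4.cm hz hs)]
  calc _ = cm g' a * (cm g a * (m * cm g' (m * a * m⁻¹) * m⁻¹)) * (m * cm g (m * a * m⁻¹) * m⁻¹) := by group
    _ = _ := by rw [c]; group

theorem thR (ha : a ∈ Q) (has : a * s = s * a) (hz : r * z = z * r) (hs : r * s = s * r) (e : EE v (sg ρ r)) : th m a r = 1 := by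
  obtain ⟨q, hq, d, hd, ds, rfl⟩ := h.dec hz e
  have qs : q * s = s * q := by simpa only [mul_inv_cancel_right] using cz_mul hs (cz_inv (h.psis hd))
  have zs2 : z * s * (z * s) = 1 := by rw [mul_assoc, ← mul_assoc s, h.sz, mul_assoc, h.ss, mul_one, h.zz]
  have pa := (h.perp ha).1 has
  rw [h.th_mul ha has (h.lx.cent _ hq) qs (by rw [h.co.sg_Q hq]; exact .inl rfl) (h.psiz hd ds) (h.psis hd) ((h.eeA hd ds).2 _ pa)]
  have e1 : th m a q = 1 := by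
    unfold th cm
    rcases z2 (polar Q8 (p q) (p a)) with f | f
    · rw [(h.co.cm hq ha).2 f, ← h.k0 hq qs ha has f]; group
    · have k : q * (m * a * m⁻¹) = z * s * (m * a * m⁻¹ * q) := by
        rw [h.k1 hq qs ha has f, mul_assoc (z * s) q, ← mul_assoc (z * s), zs2, one_mul]
      rw [h.co.ncm hq ha f, k]
      calc _ = z * (m * (z * s) * m⁻¹) := by group
        _ = _ := by rw [h.mzs, h.zz]
  have e2 : th m a (m * d * m⁻¹) = 1 := by
    have e0 : cm (m * d * m⁻¹) (m * a * m⁻¹) = m * (d * a * d⁻¹ * a⁻¹) * m⁻¹ := by unfold cm; group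
    unfold th
    rw [e0, cm]
    rcases z2 (polar Q8 (p a) (p d)) with f | f
    · rw [h.k0 ha has hd ds f, ← (h.co.cm ha hd).2 f]; group
    · rw [h.k1 ha has hd ds f, h.co.ncm hd ha (polar_comm Q8 _ _ ▸ f)]
      calc _ = z * s * (m * (m * z * m⁻¹) * m⁻¹) := by group
        _ = _ := by rw [h.mz, h.ms, zs2]
  rw [e1, e2, mul_one]

theorem thS (hc : c ∈ Q) (cs : c * s = s * c) (hz : g * z = z * g) (hs : g * s = s * g) (e : SW v (p c) (sg ρ g)) :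
    th m c g = s := by
  obtain ⟨-, e0, e1, e2, w, w1, w2, w3⟩ := e
  obtain ⟨a, ha, rfl⟩ := h.co.surj w
  have has := (h.perp ha).2 w1
  have hd := mul_mem (inv_mem ha) hc
  have ds := cz_mul (cz_inv has) cs
  have pd : p (a⁻¹ * c) = p a + p c := by rw [h.co.mul (inv_mem ha) hc, h.co.pinv ha]
  obtain ⟨d, rfl⟩ : ∃ d, c = a * d := ⟨a⁻¹ * c, by group⟩
  rw [inv_mul_cancel_left] at hd ds pd
  have f1 : Cg v ((sg ρ g).1 (p a)) (p d) := pd ▸ w3
  have f2 : Cg v ((sg ρ g).1 (p d)) (p a) := by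
    rw [pd, map_add]
    rcases w3 with w3 | w3 <;> rcases e2 with e2 | e2 <;> rw [w3, e2]
    · exact .inl (by rw [add_assoc, ww, add_zero])
    · exact .inr (by rw [← add_assoc, add_assoc (p a), ww, add_zero])
    · exact .inr (by rw [add_right_comm, add_assoc (p a), ww, add_zero])
    · exact .inl (by rw [add_assoc (p a), add_assoc, ww, add_zero])
  have n : d * a = z * (a * d) := h.co.ncm hd ha (by rw [pd, polar_add_left, pvv, zero_add, polar_comm, w2])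
  have k1 : cm d a = z := by rw [cm, n]; group
  have k2 : cm (m * d * m⁻¹) (m * a * m⁻¹) = s := by rw [cm_cj, show m⁻¹ * (m * d * m⁻¹) * m = d by group, k1, h.mz]
  have t1 := h.thR ha has (cz_mul hz hz) (cz_mul hs hs) (sg_mul (ρ := ρ) hz hz ▸ e1)
  have q1 := h.lx.cent _ (h.pcq (cz_mul hz hz) ha).1
  unfold th at t1 ⊢
  rw [show m * (a * d) * m⁻¹ = m * a * m⁻¹ * (m * d * m⁻¹) by group,
    cm_swap ((h.vA hz ha hd f1).cm hz hs) ((h.vA hz hd ha f2).cm (h.lx.cent _ hd) ds),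
    cm_swap ((h.vB hz hs ha has hd f1).cm hz hs) ((h.vB hz hs hd ds ha f2).cm (h.psiz hd ds) (h.psis hd)), k1, k2, q1]
  calc _ = z * (cm (g * g) a * (m * cm (g * g) (m * a * m⁻¹) * m⁻¹)) * (m * s * m⁻¹) := by group
    _ = _ := by rw [t1, h.ms, mul_one, ← mul_assoc, h.zz, one_mul]

theorem thY (oi : OI v) (hc : c ∈ Q) (cs : c * s = s * c) (c1 : Q8 (p c) = 1) (hz : y * z = z * y) (hs : y * s = s * y)
    (h2 : y * y = 1) (r4 : R4 (sg ρ y)) (su : SU v (sg ρ y)) (e : (sg ρ y).1 (p c) = p c) : th m c y = s := by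
  obtain ⟨g1, g2, g3, w1, w2, w3, ee⟩ := oi.f10 _ (h.co.sg_mem hz) (by rw [← sg_mul hz hz, h2, h.co.sg_Q Q.one_mem]) r4
    (h.cv hz hs) su _ ((h.perp hc).1 cs) c1 e
  obtain ⟨d1, z1, s1, rfl⟩ := h.liftv w1.1 w1.2.1
  obtain ⟨d2, z2, s2, rfl⟩ := h.liftv w2.1 w2.2.1
  obtain ⟨d3, z3, s3, rfl⟩ := h.liftv w3.1 w3.2.1
  have z12 := cz_mul z1 z2
  have z123 := cz_mul z12 z3
  have s123 := cz_mul (cz_mul s1 s2) s3
  rw [← sg_mul z1 z2, ← sg_mul z12 z3, ← sg_inv z123, ← sg_mul (cz_inv z123) hz] at ee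
  have f12 : Cg v ((sg ρ (d1 * d2)).1 (p c)) (p c) := by
    rw [sg_mul z1 z2, H13.OG_mul_apply]; exact (w2.2.2.2.1.map w1.2.1).trans w1.2.2.2.1
  have f123 : Cg v ((sg ρ (d1 * d2 * d3)).1 (p c)) (p c) := by
    rw [sg_mul z12 z3, H13.OG_mul_apply]; exact (w3.2.2.2.1.map (h.cv z12 (cz_mul s1 s2))).trans f12
  have rz := cz_mul (cz_inv z123) hz
  have rs := cz_mul (cz_inv s123) hs
  rw [show y = d1 * d2 * d3 * ((d1 * d2 * d3)⁻¹ * y) by group,
    h.th_mul hc cs z123 s123 f123 rz rs (ee.2 _ ((h.perp hc).1 cs)), h.thR hc cs rz rs ee,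
    h.th_mul hc cs z12 (cz_mul s1 s2) f12 z3 s3 w3.2.2.2.1, h.th_mul hc cs z1 s1 w1.2.2.2.1 z2 s2 w2.2.2.2.1,
    h.thS hc cs z1 s1 w1, h.thS hc cs z2 s2 w2, h.thS hc cs z3 s3 w3, h.ss, mul_one, one_mul]

end Cx

end Cfsg.Agent.CoT
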