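import Cfsg.Agent.CoT.U1

/-! Every involution is conjugate into `O₂(N(V))`. -/

set_option autoImplicit false

namespace Cfsg.Agent.CoT

open Cfsg Cfsg.Agent.H10 Subgroup QuadraticMap

variable {G : Type*} [Group G]

theorem wperp {v x : W} {g : O8} (e : g.1 v = v) : polar Q8 (g.1 x + x) v = 0 := by
  rw [polar_add_left]; nth_rw 1 [← e]; rw [H13.OG_polar]; exact CharTwo.add_self_eq_zero _

theorem wfix {n x : W} {g : O8} (e : g.1 n = n) : polar Q8 n (g.1 x + x) = 0 := by rw [polar_comm]; exact wperp e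

theorem su_ag {v : W} {g g' : O8} (hv : Q8 v = 0) (h : SU v g) (a : Ag v g g') : SU v g' := fun x hx => by
  rcases (a.2.2 x hx).symm with e | e <;> rw [e]
  · exact h x hx
  · rw [add_right_comm, QuadraticMap.map_add Q8, h x hx, hv, wperp a.1, add_zero, add_zero]

theorem r4_cj {g y : O8} (h : R4 y) : R4 (g * y * g⁻¹) := fun x e => by
  obtain ⟨x, rfl⟩ := g.1.surjective x
  rw [H13.OG_mul_apply, H13.OG_mul_apply, H13.OG_inv_apply_apply, g.1.injective.eq_iff] at e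
  obtain ⟨w, e'⟩ := h x e
  exact ⟨g.1 w, by rw [H13.OG_mul_apply, H13.OG_mul_apply, H13.OG_inv_apply_apply, ← map_add, ← e']⟩

theorem inv_cm {y q : G} (h2 : y * y = 1) : y * cm y q * y⁻¹ = (cm y q)⁻¹ := by
  calc _ = y * y * q * y⁻¹ * q⁻¹ * y⁻¹ := by unfold cm; group
    _ = q * (y * y) * y⁻¹ * q⁻¹ * y⁻¹ := by rw [h2]; group
    _ = _ := by unfold cm; group

namespace Cx
variable {z : G} {Q : Subgroup G} {ρ : centralizer ({z} : Set G) →* O8} {p : G → W} {v : W} {s b m a a' r u x y c t g g' q : G}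
  (h : Cx z Q ρ p v s b m)
include h

theorem cc (hs : y * s = s * y) : (b * m)⁻¹ * y * (b * m) = b * m * y * (b * m)⁻¹ := by
  have : b * m * (b * m) * y = y * (b * m * (b * m)) := by
    rcases h.cP.sq h.lx with e | e <;> rw [e]
    · simp
    · exact hs.symm
  calc _ = (b * m)⁻¹ * (y * (b * m * (b * m))) * (b * m)⁻¹ := by group
    _ = _ := by rw [← this]; group

variable [Finite G]

theorem psiI (ha : a ∈ Q) (hs : a * s = s * a) : ∃ u, Vm z s u ∧ m⁻¹ * a * m = u * a * (m * a * m⁻¹) := by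
  have q2 := h.lx.conj_mem h.bz ha
  have v2 : b * a * b⁻¹ * a⁻¹ = 1 ∨ b * a * b⁻¹ * a⁻¹ = z := (h.lx.mul_eq_or h.bQ ha).imp (fun e => by rw [e]; group) fun e => by
    rw [e]; group
  have v3 : Vm z s (b * a * b⁻¹ * a⁻¹) := v2.elim .inl fun e => .inr (.inl e)
  have s2 : b * a * b⁻¹ * s = s * (b * a * b⁻¹) := by
    simpa only [inv_mul_cancel_right] using cz_mul ((v3.cm h.sz rfl).symm) hs
  have p2 : p (b * a * b⁻¹) = p a := by rw [h.co.sg_act h.bz ha, h.co.sg_Q h.bQ]; rfl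
  have e0 : m⁻¹ * a * m = (b * m)⁻¹ * (b * a * b⁻¹) * (b * m) := by group
  rw [e0, h.cc s2]
  have w := h.wpsi q2 s2
  have rz := h.psiz q2 s2
  rw [← h.pcb rz, p2] at w
  have a1 : b * (m * (b * a * b⁻¹) * m⁻¹) * b⁻¹ * (m * (b * a * b⁻¹) * m⁻¹)⁻¹ ∈ Q := by
    convert mul_mem h.bQ (h.lx.conj_mem rz (inv_mem h.bQ)) using 1; group
  have c := (h.vm v3).cm (h.lx.cent _ ha) hs
  refine ⟨_, h.vmul (h.pv2 a1 ha w) (h.vm v3), ?_⟩
  calc _ = b * (m * (b * a * b⁻¹) * m⁻¹) * b⁻¹ * (m * (b * a * b⁻¹) * m⁻¹)⁻¹ * a⁻¹ * (a * (m * (b * a * b⁻¹ * a⁻¹) * m⁻¹)) *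
      (m * a * m⁻¹) := by group
    _ = _ := by rw [c]; group

theorem lemZ (oi : OI v) (hz : y * z = z * y) (hs : y * s = s * y) (h2 : y * y = 1) (r4 : R4 (sg ρ y)) (su : SU v (sg ρ y))
    (hq : q ∈ Q) {n : W} (hn : (sg ρ y).1 (p q) + p q = n) (n1 : Q8 n = 1) :
    (sg ρ (m⁻¹ * y * m)).1 n = n ∧ (sg ρ (m * y * m⁻¹)).1 n = n := by
  obtain ⟨hc, pc⟩ := h.pcq hz hq
  have e1 := inv_cm (q := q) h2
  have cs := (h.perp hc).2 (pc ▸ wperp (h.cv hz hs))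
  rw [hn] at pc
  subst pc
  generalize cm y q = c at *
  have e2 : cm y c = z := by rw [cm, e1, ← mul_inv_rev, h.co.sqz hc n1, h.lx.inv_z]
  have t := h.thY oi hc cs n1 hz hs h2 r4 su (by rw [← h.co.sg_act hz hc, e1, h.co.pinv hc])
  have e3 : cm y (m * c * m⁻¹) = s := by
    rw [th, e2, ← eq_inv_mul_iff_mul_eq, h.lx.inv_z, ← h.ms] at t
    simpa using t
  have k : ∀ y', y' * z = z * y' → cm y' c = z → (sg ρ y').1 (p c) = p c := fun y' z' e => by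
    have := (h.pcq z' hc).2
    rw [e, h.co.pz] at this
    exact weq.1 this.symm
  refine ⟨k _ (h.mz' hs) ?_, k _ (h.mz2 hz hs) ?_⟩
  · rw [cm_cj, ← h.mz] at e3; simpa using e3
  · obtain ⟨u, hu, e4⟩ := h.psiI hc cs
    have e5 : cm (m * y * m⁻¹) c = m * cm y (m⁻¹ * c * m) * m⁻¹ := by unfold cm; group
    have c1 := hu.cm hz hs
    have c2 := hu.cm (cz_mul rfl h.sz) (show z * s * s = s * (z * s) by rw [← mul_assoc, h.sz])
    rw [e5, e4, ← h.mzs]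
    congr 2
    calc _ = y * u * y⁻¹ * cm y c * (c * cm y (m * c * m⁻¹)) * c⁻¹ * u⁻¹ := by unfold cm; group
      _ = u * (z * s) * u⁻¹ := by rw [c1, e2, e3, cs]; group
      _ = _ := by rw [← c2]; group

theorem triple (hz : y * z = z * y) (hs : y * s = s * y) : ∃ q2 ∈ Q, ∃ q3 ∈ Q, polar Q8 (p q2) v = 1 ∧ polar Q8 (p q3) v = 1 ∧
    Cg v ((sg ρ (m * y * m⁻¹)).1 (p q3) + p q3) ((sg ρ y).1 (p b) + p b + ((sg ρ (m⁻¹ * y * m)).1 (p q2) + p q2)) := by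
  have cz : b * m * z * (b * m)⁻¹ = z * s := by rw [← h.bs, ← h.mz]; group
  have cs := h.cP.cm h.lx
  have i2 : m⁻¹ * (b * m) * m⁻¹⁻¹ ∈ Q := In.mem h.lx (by
    have := h.cP.cj m⁻¹; rwa [← h.mz, show m⁻¹ * (m * z * m⁻¹) * m⁻¹⁻¹ = z by group] at this)
  have i3 : m * (b * m * b * (b * m)⁻¹) * m⁻¹ ∈ Q := In.mem h.lx (by
    have := ((in_of_mem (z := z) h.bQ).cj (b * m)).cj m; rwa [cz, h.mzs] at this)
  have n1 := h.lx.ne_one
  have p2 : polar Q8 (p (m⁻¹ * (b * m) * m⁻¹⁻¹)) v = 1 := (z2 _).resolve_left fun e => by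
    have e1 := h.mz2 (h.lx.cent _ i2) ((h.perp i2).2 e)
    rw [show m * (m⁻¹ * (b * m) * m⁻¹⁻¹) * m⁻¹ = b * m by group] at e1
    rw [e1, mul_inv_cancel_right, left_eq_mul] at cz
    exact h.cP.ne h.lx cz
  have p3 : polar Q8 (p (m * (b * m * b * (b * m)⁻¹) * m⁻¹)) v = 1 := (z2 _).resolve_left fun e => by
    have e1 := h.ms' (h.lx.cent _ i3) ((h.perp i3).2 e)
    rw [show m⁻¹ * (m * (b * m * b * (b * m)⁻¹) * m⁻¹) * m = b * m * b * (b * m)⁻¹ by group] at e1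
    have e2 := cz_cj (cz_inv cs) e1
    rw [show (b * m)⁻¹ * (b * m * b * (b * m)⁻¹) * (b * m)⁻¹⁻¹ = b by group] at e2
    have := h.hβ
    rw [(h.perp h.bQ).1 e2] at this
    exact zero_ne_one this
  refine ⟨_, i2, _, i3, p2, p3, ?_⟩
  have z2 := h.mz' hs
  have z3 := h.mz2 hz hs
  have I : ∀ {y q}, y * z = z * y → y * s = s * y → q ∈ Q → (cm y q)⁻¹ ∈ Q ∧ (cm y q)⁻¹ * s = s * (cm y q)⁻¹ ∧
      p (cm y q)⁻¹ = (sg ρ y).1 (p q) + p q := fun {y q} hz hs hq => by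
    obtain ⟨k1, k2⟩ := h.pcq hz hq
    exact ⟨inv_mem k1, cz_inv ((h.perp k1).2 (k2 ▸ wperp (h.cv hz hs))), by rw [h.co.pinv k1, k2]⟩
  obtain ⟨a1, s1, f1⟩ := I hz hs h.bQ
  obtain ⟨a2, s2, f2⟩ := I z2 (h.ms' hz hs) i2
  obtain ⟨a3, s3, f3⟩ := I z3 (h.ms2 hz) i3
  rw [← f1, ← f2, ← f3, ← h.co.mul a1 a2]
  obtain ⟨u, hu, e4⟩ := h.psiI a3 s3
  have rz := h.psiz a2 s2
  have rP := h.psiP a2
  obtain ⟨he, es, fe⟩ := I rz (h.psis a2) h.bQ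
  have g1 := ee_ext h.hv h.hβ (h.eeA he es) (h.eeA a2 s2) (Cg.trans (h.wpsi he es) (Cg.trans (fe ▸ h.wpsi a2 s2) (Cg.symm (h.wpsi a2 s2))))
  have er : m * (cm (m⁻¹ * y * m) (m⁻¹ * (b * m) * m⁻¹⁻¹))⁻¹ * m⁻¹ = b * m * y * (b * m)⁻¹ * y⁻¹ := by unfold cm; group
  have key : m⁻¹ * (cm (m * y * m⁻¹) (m * (b * m * b * (b * m)⁻¹) * m⁻¹))⁻¹ * m =
      b * (m * (cm (b * m * y * (b * m)⁻¹ * y⁻¹) b)⁻¹ * m⁻¹) * b⁻¹ * (b * m * (b * m * y * (b * m)⁻¹ * y⁻¹) * (b * m)⁻¹) *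
        (b * (m * (cm y b)⁻¹ * m⁻¹) * b⁻¹) * (b * m * y * (b * m)⁻¹ * y⁻¹) := by
    calc _ = b * m * b * ((b * m)⁻¹ * y * (b * m)) * b⁻¹ * (b * m)⁻¹ * y⁻¹ := by unfold cm; group
      _ = _ := by rw [h.cc hs]; simp only [cm, mul_assoc, mul_inv_rev, inv_inv, inv_mul_cancel_left, mul_inv_cancel_left]
  rw [← er, e4] at key
  generalize (cm (m⁻¹ * y * m) (m⁻¹ * (b * m) * m⁻¹⁻¹))⁻¹ = d2 at *
  generalize (cm (m * y * m⁻¹) (m * (b * m * b * (b * m)⁻¹) * m⁻¹))⁻¹ = d3 at *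
  generalize (cm y b)⁻¹ = d1 at *
  generalize (cm (m * d2 * m⁻¹) b)⁻¹ = d at *
  have sb := h.co.sg_Q h.bQ
  have k1 : b * m * (m * d2 * m⁻¹) * (b * m)⁻¹ = m * d2 * m⁻¹ ∨ b * m * (m * d2 * m⁻¹) * (b * m)⁻¹ = s * (m * d2 * m⁻¹) :=
    (h.cP.cor h.lx rP).imp (fun e => by rw [e]; group) fun e => by rw [e]; group
  have k2 : b * m * (m * d2 * m⁻¹) * (b * m)⁻¹ * z = z * (b * m * (m * d2 * m⁻¹) * (b * m)⁻¹) ∧
      sg ρ (b * m * (m * d2 * m⁻¹) * (b * m)⁻¹) = sg ρ (m * d2 * m⁻¹) := by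
    rcases k1 with e | e <;> rw [e]
    · exact ⟨rz, rfl⟩
    · exact ⟨cz_mul h.sz rz, by rw [sg_mul h.sz rz, h.co.sg_Q h.sQ, one_mul]⟩
  have k3 : sg ρ (m * d2 * m⁻¹) * sg ρ (m * d2 * m⁻¹) = 1 := by
    rw [← sg_mul rz rz, show m * d2 * m⁻¹ * (m * d2 * m⁻¹) = m * (d2 * d2) * m⁻¹ by group]
    rcases h.sq2 a2 with e | e <;> rw [e.2]
    exacts [h.co.sg_Q Q.one_mem, h.co.sg_Q h.sQ]
  have t1 := cz_cj h.bz (h.psiz he es)
  have t3 := cz_cj h.bz (h.psiz a1 s1)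
  have k4 := congrArg (sg ρ) key
  rw [sg_mul (h.lx.cent _ (mul_mem (h.vQ hu) a3)) (h.psiz a3 s3), h.co.sg_Q (mul_mem (h.vQ hu) a3), one_mul,
    sg_mul (cz_mul (cz_mul t1 k2.1) t3) rz, sg_mul (cz_mul t1 k2.1) t3, sg_mul t1 k2.1, k2.2, sg_cj h.bz (h.psiz he es),
    sg_cj h.bz (h.psiz a1 s1), sb, one_mul, one_mul, inv_one, mul_one, mul_one, g1, k3, one_mul, ← sg_mul (h.psiz a1 s1) rz,
    show m * d1 * m⁻¹ * (m * d2 * m⁻¹) = m * (d1 * d2) * m⁻¹ by group] at k4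
  exact Cg.trans (Cg.symm (h.wpsi a3 s3)) (k4 ▸ h.wpsi (mul_mem a1 a2) (cz_mul s1 s2))

theorem fuse (oi : OI v) (hz : y * z = z * y) (h2 : y * y = 1) :
    ∃ k, k * y * k⁻¹ * z = z * (k * y * k⁻¹) ∧ EE v (sg ρ (k * y * k⁻¹)) := by
  have sq : ∀ {y}, y * z = z * y → y * y = 1 → sg ρ y * sg ρ y = 1 := fun hz h2 => by
    rw [← sg_mul hz hz, h2, h.co.sg_Q Q.one_mem]
  have A : ∀ k, k * y * k⁻¹ * z = z * (k * y * k⁻¹) →
      (∃ k, k * y * k⁻¹ * z = z * (k * y * k⁻¹) ∧ EE v (sg ρ (k * y * k⁻¹))) ∨ R4 (sg ρ (k * y * k⁻¹)) := fun k hk =>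
    (oi.f2 _ (h.co.sg_mem hk) (sq hk (cj_sq h2))).imp_left fun ⟨g, hg, e⟩ => by
      obtain ⟨c, hc, rfl⟩ := h.co.sg_surj hg
      rw [← sg_cj hc hk] at e
      refine ⟨c * k, ?_⟩
      rw [show c * k * y * (c * k)⁻¹ = c * (k * y * k⁻¹) * c⁻¹ by group]
      exact ⟨cz_cj hc hk, e⟩
  refine (A 1 (by simpa using hz)).elim id fun r => ?_
  rw [one_mul, inv_one, mul_one] at r
  obtain ⟨g, hg, su, x, hx⟩ := oi.f3 _ (h.co.sg_mem hz) (sq hz h2) r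
  obtain ⟨c, hc, rfl⟩ := h.co.sg_surj hg
  have r1 := r4_cj (g := sg ρ c) r
  rw [← sg_cj hc hz] at su hx r1
  have z1 := cz_cj hc hz
  have t1 := cj_sq (c := c) h2
  obtain ⟨q, hq, rfl⟩ := h.co.surj x
  have s1 : c * y * c⁻¹ * s = s * (c * y * c⁻¹) := by
    obtain ⟨k1, k2⟩ := h.pcq z1 hq
    have e := inv_cm (q := q) t1
    rw [inv_eq_of_mul_eq_one_right ((h.co.sq k1).2 (by rw [k2, hx, h.hv])), mul_inv_eq_iff_eq_mul] at e
    rcases h.co.peq k1 h.sQ (by rw [k2, hx, h.ps]) with f | f <;> rw [f] at e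
    · exact e
    · simpa only [← mul_assoc, h.zz, one_mul] using cz_mul (z := c * y * c⁻¹) z1.symm e.symm |>.symm
  have z2 := h.mz' s1
  have z3 := h.mz2 z1 s1
  have e2 : m⁻¹ * c * y * (m⁻¹ * c)⁻¹ = m⁻¹ * (c * y * c⁻¹) * m := by group
  have e3 : m * c * y * (m * c)⁻¹ = m * (c * y * c⁻¹) * m⁻¹ := by group
  refine (A (m⁻¹ * c) (e2 ▸ z2)).elim id fun r2 => (A (m * c) (e3 ▸ z3)).elim id fun r3 => False.elim ?_
  rw [e2] at r2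
  rw [e3] at r3
  generalize c * y * c⁻¹ = y1 at *
  have s2 := h.ms' z1 s1
  have s3 := h.ms2 z1
  have t2 : m⁻¹ * y1 * m * (m⁻¹ * y1 * m) = 1 := by simpa only [inv_inv] using cj_sq (c := m⁻¹) t1
  have t3 := cj_sq (c := m) t1
  have a2 := h.eqv z1 s1
  have e4 : m⁻¹ * (m * y1 * m⁻¹) * m = y1 := by group
  have e5 : m * (m⁻¹ * y1 * m) * m⁻¹ = y1 := by group
  have a3' := e4 ▸ h.eqv z3 s3
  have a3 : Ag v (sg ρ y1) (sg ρ (m * y1 * m⁻¹)) := ⟨a3'.2.1, a3'.1, fun x hx => (a3'.2.2 x hx).symm⟩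
  obtain ⟨q2, h2', q3, h3', p2, p3, cg⟩ := h.triple z1 s1
  obtain ⟨f, g⟩ := oi.f11 _ (h.co.sg_mem z1) _ (h.co.sg_mem z2) _ (h.co.sg_mem z3) (sq z1 t1) (sq z2 t2) (sq z3 t3) r1 r2 r3 su
    a2 a3 _ _ _ h.hβ p2 p3 cg
  rcases g with g | g | g
  · rw [wfix (h.lemZ oi z1 s1 t1 r1 su h.bQ rfl g).1] at f; exact zero_ne_one f
  · have k := (h.lemZ oi z2 s2 t2 r2 (su_ag h.hv su a2) h2' rfl g).2
    rw [e5] at k
    rw [polar_comm, wfix k] at f; exact zero_ne_one f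
  · have k := wfix (x := p b) (e4 ▸ (h.lemZ oi z3 s3 t3 r3 (su_ag h.hv su a3) h3' rfl g).1)
    rcases cg with cg | cg <;> rw [cg] at k
    · rw [polar_add_left, pvv, zero_add, polar_comm, f] at k; exact one_ne_zero k
    · rw [polar_add_left, polar_add_left, pvv, zero_add, polar_comm, f, polar_comm, wperp a2.1, add_zero] at k
      exact one_ne_zero k

end Cx

end Cfsg.Agent.CoT
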