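import Cfsg.Agent.CoT.J0

/-! The group `X` is alternating of degree five. -/

set_option autoImplicit false

namespace Cfsg.Agent.CoT

open Cfsg Cfsg.Agent.H10 Subgroup QuadraticMap

variable {G : Type*} [Group G]

namespace PX

theorem triv {Y H A : Type*} [Group Y] [Group H] [Group A] (e : H ≃* alternatingGroup (Fin 5)) (φ : Y →* H)
    (hφ : Function.Surjective φ) (χ : Y →* A) (h2 : ∀ y, χ y * χ y = 1) (hk : ∀ y, φ y = 1 → χ y = 1) (y : Y) : χ y = 1 := by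
  haveI : IsSimpleGroup H := e.isSimpleGroup
  rcases (χ.normal_ker.map φ hφ).eq_bot_or_eq_top with h | h
  · obtain ⟨g, hg⟩ : ∃ g : alternatingGroup (Fin 5), g * g ≠ 1 :=
      ⟨⟨Equiv.swap 0 1 * Equiv.swap 0 2, Equiv.Perm.mem_alternatingGroup.2 (by decide)⟩, by decide⟩
    obtain ⟨x, hx⟩ := hφ (e.symm g)
    have : φ (x * x) ∈ χ.ker.map φ := mem_map_of_mem _ (by rw [MonoidHom.mem_ker, map_mul, h2])
    rw [h, mem_bot, map_mul, hx, ← map_mul, e.symm.map_eq_one_iff] at this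
    exact absurd this hg
  · obtain ⟨k, hk', e1⟩ : φ y ∈ χ.ker.map φ := h ▸ mem_top _
    have := hk (y * k⁻¹) (by rw [map_mul, map_inv, e1, mul_inv_cancel])
    rwa [map_mul, map_inv, MonoidHom.mem_ker.1 hk', inv_one, mul_one] at this

/-- the group `Y` -/
abbrev YY (z s b a a' : G) : Subgroup G := centralizer ({z, s, b, a, a'} : Set G)

theorem mY {z s b a a' y : G} : y ∈ YY z s b a a' ↔
    y * z = z * y ∧ y * s = s * y ∧ y * b = b * y ∧ y * a = a * y ∧ y * a' = a' * y := by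
  simp only [mem_centralizer_iff, Set.mem_insert_iff, Set.mem_singleton_iff, forall_eq_or_imp, forall_eq]
  simp only [eq_comm]

theorem mX {z s b m a a' y : G} : y ∈ XX z s b m a a' ↔ y ∈ YY z s b a a' ∧ y * m = m * y := by
  simp only [mem_centralizer_iff, Set.mem_insert_iff, Set.mem_singleton_iff, forall_eq_or_imp, forall_eq, and_assoc]
  simp only [eq_comm]

variable {z : G} {Q : Subgroup G} {ρ : centralizer ({z} : Set G) →* O8} {p : G → W} {v : W} {s b m a a' c x y d u : G}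

theorem fixp (h : Co z Q ρ p) (hz : y * z = z * y) (hx : x ∈ Q) (e : y * x = x * y) : (sg ρ y).1 (p x) = p x := by
  rw [← h.sg_act hz hx, e, mul_inv_cancel_right]

theorem corr (h : Co z Q ρ p) (hz : c * z = z * c) (hx : x ∈ Q) (e : (sg ρ c).1 (p x) = p x) :
    ∃ j, ∀ q ∈ Q, polar Q8 (p q) (p x) = j → q * c * x = x * (q * c) := by
  rcases h.peq (h.lx.conj_mem hz hx) hx (by rw [h.sg_act hz hx, e]) with f | f
  · exact ⟨0, fun q hq e1 => cz_mul ((h.cm hq hx).2 e1) (mul_inv_eq_iff_eq_mul.1 f)⟩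
  · refine ⟨1, fun q hq e1 => ?_⟩
    calc _ = q * (c * x * c⁻¹) * c := by group
      _ = q * z * x * c := by rw [f]; group
      _ = z * (q * x) * c := by rw [h.lx.cent _ hq]; group
      _ = _ := by rw [h.ncm hq hx e1, ← mul_assoc z z, h.lx.zz]; group

/-- the action of `Y` -/
noncomputable def sgY (h : Cx z Q ρ p v s b m) (ha : a ∈ Q) (ha' : a' ∈ Q) : YY z s b a a' →* S0 v (p b) (p a) (p a') where
  toFun y := ⟨sg ρ y, h.co.sg_mem (mY.1 y.2).1, h.cv (mY.1 y.2).1 (mY.1 y.2).2.1, fixp h.co (mY.1 y.2).1 h.bQ (mY.1 y.2).2.2.1,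
    fixp h.co (mY.1 y.2).1 ha (mY.1 y.2).2.2.2.1, fixp h.co (mY.1 y.2).1 ha' (mY.1 y.2).2.2.2.2⟩
  map_one' := Subtype.ext (h.co.sg_Q Q.one_mem)
  map_mul' x y := Subtype.ext (sg_mul (mY.1 x.2).1 (mY.1 y.2).1)

theorem surY (h : Cx z Q ρ p v s b m) (ha : a ∈ Q) (ha' : a' ∈ Q) (la : LA v (p b) (p a) (p a')) :
    Function.Surjective (sgY h ha ha') := by
  rintro ⟨k, k0, k1, k2, k3, k4⟩
  obtain ⟨c, cz, cs, rfl⟩ := h.liftv k0 k1
  obtain ⟨j, hj⟩ := corr h.co cz h.bQ k2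
  obtain ⟨i, hi⟩ := corr h.co cz ha k3
  obtain ⟨l, hl⟩ := corr h.co cz ha' k4
  obtain ⟨w, -, w0, w1, w2, w3⟩ := la.l7 0 j i l
  obtain ⟨q, hq, rfl⟩ := h.co.surj w
  have qz := h.lx.cent _ hq
  exact ⟨⟨q * c, mY.2 ⟨cz_mul qz cz, cz_mul ((h.perp hq).2 w0) cs, hj q hq w1, hi q hq w2, hl q hq w3⟩⟩,
    Subtype.ext (by show sg ρ (q * c) = sg ρ c; rw [sg_mul qz cz, h.co.sg_Q hq, one_mul])⟩

theorem v2 (h : Cx z Q ρ p v s b m) (hu : Vm z s u) : u * u = 1 := by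
  rcases hu with rfl | rfl | rfl | rfl
  · exact mul_one _
  · exact h.zz
  · exact h.ss
  · rw [mul_assoc, ← mul_assoc s, h.sz, mul_assoc, h.ss, mul_one, h.zz]

variable [Finite G]

theorem cpsi (h : Cx z Q ρ p v s b m) (ha : a ∈ Q) (ha' : a' ∈ Q) (la : LA v (p b) (p a) (p a')) (hd : d ∈ Q)
    (ds : d * s = s * d) (hc : ∀ y ∈ YY z s b a a', y * d = d * y) (hy : y ∈ YY z s b a a') :
    y * (m * d * m⁻¹) = m * d * m⁻¹ * y := by
  obtain ⟨e⟩ := la.l0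
  have V : ∀ y ∈ YY z s b a a', Vm z s (cm y (m * d * m⁻¹)) := fun y hy =>
    h.vB (mY.1 hy).1 (mY.1 hy).2.1 hd ds hd (.inl (fixp h.co (mY.1 hy).1 hd (hc y hy)))
  let χ : YY z s b a a' →* G := MonoidHom.mk' (fun y => cm y (m * d * m⁻¹)) fun x y => by
    show cm (x.1 * y.1) _ = _
    rw [cm_mul ((V _ y.2).cm (mY.1 x.2).1 (mY.1 x.2).2.1), h.vv (V _ x.2) (V _ y.2)]
  have := triv e _ (surY h ha ha' la) χ (fun y => v2 h (V _ y.2)) (fun y e1 => by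
    have q := (h.co.sg_one (mY.1 y.2).1).1 (congrArg Subtype.val e1)
    show cm _ _ = 1
    rw [cm, ← h.k0 q (mY.1 y.2).2.1 hd ds ((h.co.cm q hd).1 (hc _ y.2))]; group) ⟨y, hy⟩
  exact mul_inv_eq_iff_eq_mul.1 (mul_inv_eq_one.1 this)

theorem corrm (h : Cx z Q ρ p v s b m) (ha : a ∈ Q) (ha' : a' ∈ Q) (la : LA v (p b) (p a) (p a'))
    (fr : Fr v (p b) (p a) (p a')) (hy : y ∈ YY z s b a a') : ∃ x ∈ XX z s b m a a', sg ρ x = sg ρ y := by
  obtain ⟨yz, ys, yb, ya, ya'⟩ := mY.1 hy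
  obtain ⟨-, f1, ⟨f2, f3, -⟩, f4, f5⟩ := fr
  have cz : b * m * z * (b * m)⁻¹ = z * s := by rw [← h.bs, ← h.mz]; group
  have cs := h.cP.cm h.lx
  have czs : b * m * (z * s) * (b * m)⁻¹ = z := by
    calc _ = b * (m * (z * s) * m⁻¹) * b⁻¹ := by group
      _ = _ := by rw [h.mzs, h.bz, mul_inv_cancel_right]
  have i1 : In Q z ((b * m)⁻¹ * (y * (b * m) * y⁻¹)) s := h.cP.inv.mul h.lx (h.cP.cj' ys)
  obtain ⟨d, hd, ds, e1⟩ := h.psiS i1 (by
    have yzs : y * (z * s) = z * s * y := (Commute.mul_right yz ys :)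
    calc _ = (b * m)⁻¹ * y * (b * m) * (y⁻¹ * z) := by group
      _ = (b * m)⁻¹ * y * (b * m * z * (b * m)⁻¹) * (b * m) * y⁻¹ := by rw [cz_inv yz]; group
      _ = (b * m)⁻¹ * (b * m * z * (b * m)⁻¹) * y * (b * m) * y⁻¹ := by rw [cz, mul_assoc _ y, yzs]; group
      _ = _ := by group)
  have q0 : m⁻¹ * (b * m) * m ∈ Q := h.cP.get h.lx h.mz
  have z2' := h.mz' ys
  have pd : p d = (sg ρ (m⁻¹ * y * m)).1 (p (m⁻¹ * (b * m) * m)) + p (m⁻¹ * (b * m) * m) := by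
    have : d = (m⁻¹ * (b * m) * m)⁻¹ * (m⁻¹ * y * m * (m⁻¹ * (b * m) * m) * (m⁻¹ * y * m)⁻¹) := by
      calc d = m⁻¹ * (m * d * m⁻¹) * m := by group
        _ = _ := by rw [e1]; group
    rw [this, h.co.mul (inv_mem q0) (h.lx.conj_mem z2' q0), h.co.pinv q0, h.co.sg_act z2' q0, add_comm]
  have k : ∀ t ∈ Q, polar Q8 (p t) v = 0 → (∀ y ∈ YY z s b a a', y * t = t * y) → d * t = t * d := fun t ht t1 t2 => by
    have := cj_cm m⁻¹ (cpsi h ha ha' la ht ((h.perp ht).2 t1) t2 hy)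
    rw [show m⁻¹ * (m * t * m⁻¹) * m⁻¹⁻¹ = t by group, inv_inv] at this
    exact ((h.co.cm ht hd).2 (pd ▸ wfix (fixp h.co z2' ht this))).symm
  have da := k a ha f2 fun y hy => (mY.1 hy).2.2.2.1
  have da' := k a' ha' f3 fun y hy => (mY.1 hy).2.2.2.2
  obtain ⟨r, hr, rY, t, ht, rfl⟩ : ∃ r ∈ Q, r ∈ YY z s b a a' ∧ ∃ t, Vm z s t ∧ d = r * t := by
    rcases z2 (polar Q8 (p d) (p b)) with e | e
    · exact ⟨d, hd, mY.2 ⟨h.lx.cent _ hd, ds, (h.co.cm hd h.bQ).2 e, da, da'⟩, 1, .inl rfl, (mul_one _).symm⟩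
    · have q := mul_mem hd h.sQ
      refine ⟨d * s, q, mY.2 ⟨h.lx.cent _ q, cz_mul ds rfl, (h.co.cm q h.bQ).2 ?_, cz_mul da ((h.perp ha).2 f2).symm,
        cz_mul da' ((h.perp ha').2 f3).symm⟩, s, .inr (.inr (.inl rfl)), by rw [mul_assoc, h.ss, mul_one]⟩
      rw [h.co.mul hd h.sQ, polar_add_left, e, h.ps, polar_comm, f1]; rfl
  obtain ⟨rz, rs, rb, -⟩ := mY.1 rY
  obtain ⟨u, hu, e2⟩ := h.psiI hr rs
  have k0 := h.k0 hr rs hr rs (pvv _)
  have hw : Vm z s (u⁻¹ * (m * t * m⁻¹)) :=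
    h.QP (mul_mem (inv_mem (h.vQ hu)) (h.vQ (h.vm ht))) ((h.vP hu).inv.mul h.lx (h.vP (h.vm ht)))
  have c1 := hu.cm (h.psiz hr rs) (h.psis hr)
  have c2 := hw.cm rz rs
  have e3 : r⁻¹ * y * (b * m) * (r⁻¹ * y)⁻¹ = b * m * (u⁻¹ * (m * t * m⁻¹)) := by
    have e4 : r * (b * m) = b * m * (u * (m * r * m⁻¹) * r) := by
      calc _ = b * m * (m⁻¹ * r * m) := by rw [← mul_assoc, rb]; group
        _ = _ := by rw [e2, mul_assoc u _ r, k0, mul_assoc u]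
    calc _ = r⁻¹ * (b * m) * ((b * m)⁻¹ * (y * (b * m) * y⁻¹)) * r := by group
      _ = r⁻¹ * (b * m) * (m * r * m⁻¹ * u) * ((u⁻¹ * (m * t * m⁻¹)) * r) := by rw [← e1]; group
      _ = r⁻¹ * (b * m * (u * (m * r * m⁻¹) * r)) * (u⁻¹ * (m * t * m⁻¹)) := by rw [c1, ← c2]; group
      _ = _ := by rw [← e4]; group
  have yY := mul_mem (inv_mem rY) hy
  have sy : sg ρ (r⁻¹ * y) = sg ρ y := by rw [sg_mul (cz_inv rz) yz, h.co.sg_Q (inv_mem hr), one_mul]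
  rw [← sy]
  have w2 := v2 h hw
  generalize u⁻¹ * (m * t * m⁻¹) = w at *
  generalize r⁻¹ * y = y' at *
  obtain ⟨yz', ys', yb', -⟩ := mY.1 yY
  have fin : ∀ x ∈ YY z s b a a', x * (b * m) * x⁻¹ = b * m → x ∈ XX z s b m a a' := fun x hx e => mX.2 ⟨hx, by
    simpa using cz_mul (cz_inv (mY.1 hx).2.2.1.symm) (mul_inv_eq_iff_eq_mul.1 e).symm |>.symm⟩
  have e5 : b * m * w * (b * m)⁻¹ = w := by
    have e6 : b * m * w * (b * m * w) = b * m * (b * m) := by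
      rw [← e3]
      calc _ = y' * (b * m * (b * m)) * y'⁻¹ := by group
        _ = _ := by rcases h.cP.sq h.lx with e | e <;> rw [e] <;> simp [ys']
    calc _ = b * m * w * (b * m * (b * m))⁻¹ * (b * m) := by group
      _ = b * m * w * (b * m * w)⁻¹ * (b * m * w)⁻¹ * (b * m) := by rw [← e6]; group
      _ = w⁻¹ := by group
      _ = _ := inv_eq_of_mul_eq_one_right w2
  have s1 := h.cP.ne h.lx
  rcases hw with rfl | rfl | rfl | rfl
  · exact ⟨y', fin _ yY (by rw [e3, mul_one]), rfl⟩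
  · exact absurd (cz.symm.trans e5) (by simpa using s1)
  · refine ⟨z * y', fin _ (mul_mem (mY.2 ⟨rfl, h.sz.symm, h.bz.symm, (h.lx.cent _ ha).symm, (h.lx.cent _ ha').symm⟩) yY) ?_,
      by rw [sg_mul rfl yz', h.co.sg_Q h.lx.mem, one_mul]⟩
    calc _ = z * (y' * (b * m) * y'⁻¹) * z⁻¹ := by group
      _ = b * m * (z * w) * (b * m)⁻¹ * (b * m * w) * z⁻¹ := by rw [e3, czs]
      _ = b * m * z * (w * w) * z⁻¹ := by group
      _ = _ := by rw [w2]; group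
  · exact absurd (czs.symm.trans e5) (by simpa using s1)

end PX

open PX

variable {z : G} {Q : Subgroup G} {ρ : centralizer ({z} : Set G) →* O8} {p : G → W} {s b m f a a' x : G} [Finite G]

set_option linter.unusedVariables false in
theorem xinj (h : Fv z Q ρ p s b m f a a') (la : LA vv (p b) (p a) (p a')) (hx : x ∈ XX z s b m a a') (hq : x ∈ Q) :
    x = 1 := by
  obtain ⟨hy, xm⟩ := mX.1 hx
  have xb := (mY.1 hy).2.2.1
  have c := h.cx
  have n : b * s ≠ s * b := fun e => c.lx.ne_one (by simpa [e] using c.bs)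
  have i := c.psiP hq
  rw [← xm, mul_inv_cancel_right] at i
  rcases c.QP hq i with e | e | e | e <;> rw [e] at xm xb
  · exact e
  · exact absurd (by rw [← c.mz, ← xm, mul_inv_cancel_right]) c.snz
  · exact absurd xb.symm n
  · rw [← mul_assoc, c.bz, mul_assoc, mul_assoc, mul_right_inj] at xb
    exact absurd xb.symm n

theorem xsur (h : Fv z Q ρ p s b m f a a') (la : LA vv (p b) (p a) (p a')) {k : O8} (hk : k ∈ S0 vv (p b) (p a) (p a')) :
    ∃ x ∈ XX z s b m a a', sg ρ x = k := by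
  obtain ⟨y, e⟩ := surY h.cx h.aQ h.aQ' la ⟨k, hk⟩
  obtain ⟨x, hx, e'⟩ := corrm h.cx h.aQ h.aQ' la h.fr y.2
  exact ⟨x, hx, e'.trans (congrArg Subtype.val e)⟩

theorem xiso (h : Fv z Q ρ p s b m f a a') (la : LA vv (p b) (p a) (p a')) :
    Nonempty (XX z s b m a a' ≃* alternatingGroup (Fin 5)) := by
  obtain ⟨e⟩ := la.l0
  refine ⟨(MulEquiv.ofBijective ((sgY h.cx h.aQ h.aQ').comp (inclusion fun x hx => (mX.1 hx).1))
    ⟨(injective_iff_map_eq_one _).2 fun x e1 => Subtype.ext (xinj h la x.2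
      ((h.cx.co.sg_one (mY.1 (mX.1 x.2).1).1).1 (congrArg Subtype.val e1))), fun k => ?_⟩).trans e⟩
  obtain ⟨x, hx, e1⟩ := xsur h la k.2
  exact ⟨⟨x, hx⟩, Subtype.ext e1⟩

end Cfsg.Agent.CoT
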